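import Cfsg.Agent.Class.C6.Ovoid
import Cfsg.Agent.Class.C6.Step
import Cfsg.Agent.Class.HermSpFour
import Cfsg.Agent.S5642

/-!
# The base of the induction: degree four, linear and unitary types
-/

set_option autoImplicit false
set_option linter.unusedSectionVars false

namespace Cfsg.Lib.Class.C6

open Module Form

universe u v w

variable {K V W : Type*} [Field K] [AddCommGroup V] [Module K V] [AddCommGroup W]
  [Module (ZMod 2) W]

namespace Pauli

variable {P : Pauli K V W} {q : W → ZMod 2} {u : Fin 5 → W} {X : Subgroup (V ≃ₗ[K] V)}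

theorem H1.h2 (h : P.H1 X) (A : Set W) : P.H2 A X :=
  ⟨h.1, fun a _ b _ => mul_mem (h.2 a) (inv_mem (h.2 b))⟩

theorem IsForm.s_of_one {B : V →ₗ[K] V →ₗ[K] K} (h : P.IsForm q B) {b : W} (hb : q b = 1)
    (x y : V) : B (P.s b x) (P.s b y) = P.i * B x y := by
  have h1 := h b x y
  have h2 := h.left b x y
  rw [hb] at h1 h2
  simp only [s_apply, map_add, map_smul, LinearMap.add_apply, LinearMap.smul_apply, smul_eq_mul, h1,
    h2, sg_one, Units.val_neg, Units.val_one]
  linear_combination (P.α - P.α') * B x y * P.α_add + B x y * P.α_sub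

theorem IsForm.s_of_zero {B : V →ₗ[K] V →ₗ[K] K} (h : P.IsForm q B) {a : W} (ha : q a = 0)
    (x y : V) : B (P.s a x) (P.s a y) = B x (P.ρ a y) := by
  have h1 := h a x y
  have h2 := h.left a x y
  rw [ha] at h1 h2
  simp only [s_apply, map_add, map_smul, LinearMap.add_apply, LinearMap.smul_apply, smul_eq_mul, h1,
    h2, sg_zero, Units.val_one, one_mul]
  linear_combination B x y * P.α_sq_add + B x (P.ρ a y) * P.two_α_mul

theorem ρ_ne_smul {a : W} (ha : a ≠ 0) (c : K) : ¬ ∀ y, P.ρ a y = c • y := fun h => by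
  obtain ⟨x, hx, hx0⟩ := P.exists_ne_Ve ha 0
  obtain ⟨y, hy, hy0⟩ := P.exists_ne_Ve ha 1
  rw [mem_Ve, h] at hx hy
  have := (smul_left_injective K hx0 hx).symm.trans (smul_left_injective K hy0 hy)
  exact absurd (sg_injective P.two (Units.ext this)) zero_ne_one

theorem IsForm.not_sim {B : V →ₗ[K] V →ₗ[K] K} (h : P.IsForm q B) (hB : B ≠ 0) {a b : W}
    (ha0 : a ≠ 0) (ha : q a = 0) (hb : q b = 1) (c : K) :
    ¬ ∀ x y, B ((P.s a * (P.s b)⁻¹) x) ((P.s a * (P.s b)⁻¹) y) = c * B x y := fun e =>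
  ρ_ne_smul ha0 (c * P.i) fun y => sub_eq_zero.1 (h.sep_right hB _ fun x => by
    have := e (P.s b x) (P.s b y)
    simp only [LinearEquiv.mul_apply, inv_apply_apply, h.s_of_one hb, h.s_of_zero ha] at this
    rw [map_sub, this, map_smul, smul_eq_mul, mul_assoc, sub_self])

variable [FiniteDimensional K V] [Finite W]

theorem IsForm.co_eq_zero {B : V →ₗ[K] V →ₗ[K] K} (h : P.IsForm q B) (hB : B ≠ 0) {n : End K V}
    (hn : ∀ a b, B (n a) b = -B a (n b)) {t : W} (ht : q t = 0) : P.co t n = 0 := by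
  have := h.co_adj (h.sep_right hB) (f := n) (ε := -1) (by simpa using hn) t
  rw [ht] at this
  exact eq_zero_of_eq_neg P.two (by simpa using this)

theorem Ovoid.SLV_le (h : P.Ovoid q u) (hX : P.H2 {a | a ≠ 0} X)
    (hb : ∀ g, Rat (RingHom.id K) (fun j => P.ρ (u j)) g → g * g ∈ X) : SLV K V ≤ X := by
  obtain ⟨B, hB0, hB⟩ := P.exists_isForm h.quad
  have hA := h.isAlt hB
  have hN : LinearMap.BilinForm.Nondegenerate B := ⟨hB.sep_left hB0, hB.sep_right hB0⟩
  have hSp : SpB B ≤ X := SpB_le_of_altT_mem hN hA X fun w c =>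
    h.mem_of_sq hb (n := c • (B.flip w).smulRight w) (by ext x; simp [hA.self_eq_zero])
      (fun t ht => hB.co_eq_zero hB0 (fun a b => by
        simp only [LinearMap.smul_apply, LinearMap.smulRight_apply, LinearMap.flip_apply, map_smul,
          smul_eq_mul]
        rw [← hA.neg_eq w b]; ring) ht)
      (fun t => ⟨P.i⁻¹ * _, (Units.mul_inv_cancel_left _ _).symm⟩)
      (by ext x; simp [altTEquiv_apply', mul_smul])
  have hq := h.q_add (j := 0) (k := 1) (by decide)
  refine SLV_le_of_tvIn X fun a φ h0 => ?_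
  let b := ((LinearMap.BilinForm.flip B).toDual hN.flip).symm φ
  have hb : ∀ x, φ x = B x b := fun x =>
    (LinearMap.BilinForm.apply_toDual_symm_apply (B := LinearMap.BilinForm.flip B)
      (hB := hN.flip) φ x).symm
  exact ⟨h0, _, Cfsg.Agent.S5642.genT_mem hN hA X hSp
    (hX.2 _ (h.ne_zero 0) (u 0 + u 1) fun e => by simp [e, h.quad.zero] at hq)
    (fun ⟨c, hc⟩ => hB.not_sim hB0 (h.ne_zero 0) (h.zero 0) hq c hc) (a := a) (b := b)
    (by rw [← hb, h0]), fun x => by rw [Cfsg.Agent.S5642.genT_apply, hb]⟩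

theorem centN_or_SLV [Finite K] (hK : ∀ A : AddSubgroup K, (1 : K) ∈ A → A = ⊤)
    (hW : finrank (ZMod 2) W = 4) (hX : P.H2 {a | a ≠ 0} X) : P.CentN X ∨ SLV K V ≤ X :=
  (centN_or (f := RingHom.id K) hK hW hX fun _ _ _ _ => ⟨_, rfl⟩).imp_right
    fun ⟨_, _, h, hb⟩ => h.SLV_le hX hb

section Unitary

variable {σ : K →+* K} {H : V →ₛₗ[σ] V →ₗ[K] K}

omit [FiniteDimensional K V] [Finite W] in
theorem isForm_zero (hρ : ∀ u, P.ρ u ∈ isomGroup H) : P.IsForm 0 H := fun t a b => by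
  simpa using hρ t a b

theorem map_sg (σ : K →+* K) (a : ZMod 2) : σ (sg K a) = sg K a := by
  rcases zmod2_cases a with rfl | rfl <;> simp

theorem exists_conj [Finite K] (hH : Herm H) (hρ : ∀ u, P.ρ u ∈ isomGroup H)
    {B : V →ₗ[K] V →ₗ[K] K} (hB0 : B ≠ 0) (hB : P.IsForm q B)
    (hA : LinearMap.BilinForm.IsAlt B) :
    ∃ (κ : V →ₛₗ[σ] V) (e : K), e ≠ 0 ∧ Conj H κ (-1) ∧ ∀ x y, H (κ x) y = e * B x y := by
  have := P.nontriv
  choose k hk using fun x => hH.hsp.exists_eq_dual (B x)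
  have hinj : ∀ {a b : V}, (∀ y, H a y = H b y) → a = b := fun {a b} e =>
    sub_eq_zero.1 (hH.sep _ fun y => by simp [e])
  let κ : V →ₛₗ[σ] V :=
    { toFun := k
      map_add' := fun a b => hinj fun y => by simp [hk]
      map_smul' := fun c a => hinj fun y => by simp [hk, map_smulₛₗ, hH.invol] }
  have hκ : ∀ x y, H (κ x) y = B x y := fun x y => by rw [← hk]; rfl
  have h1 : ∀ t x, κ (P.ρ t x) = (sg K (q t) : K) • P.ρ t (κ x) := fun t x => hinj fun y => by
    rw [hκ, hB.left, map_smulₛₗ, LinearMap.smul_apply, map_sg, (isForm_zero hρ).left, hκ]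
    simp
  obtain ⟨c, hc⟩ := P.schur
    { toFun := fun x => κ (κ x)
      map_add' := fun a b => by simp
      map_smul' := fun c a => by simp [map_smulₛₗ, hH.invol] } fun t x => by
      simp [h1, map_smulₛₗ, map_sg, smul_smul, sg_val_mul_self]
  replace hc : ∀ x, κ (κ x) = c • x := hc
  obtain ⟨x, hx⟩ := exists_ne (0 : V)
  have hκ0 : ∀ x, κ x = 0 → x = 0 := fun x e => hB.sep_left hB0 x fun y => by
    rw [← hκ, e]; simp
  have hc0 : c ≠ 0 := by
    rintro rfl
    exact hx (hκ0 _ (hκ0 _ (by rw [hc, zero_smul])))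
  have hσc : σ c = c := by
    have := congrArg κ (hc x)
    rw [hc, map_smulₛₗ] at this
    exact (smul_left_injective K (fun e => hx (hκ0 x e)) this).symm
  obtain ⟨d, hd⟩ := hH.exists_norm_eq (μ := c⁻¹) (by rw [map_inv₀, hσc])
  have hdc : σ d * d * c = 1 := by rw [hd, inv_mul_cancel₀ hc0]
  refine ⟨d • κ, σ d, fun e => by simp [e] at hdc, ⟨fun x => ?_, fun x y => ?_⟩, fun x y => by
    simp [map_smulₛₗ, hκ]⟩
  · simp only [LinearMap.smul_apply, map_smulₛₗ, hc, smul_smul]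
    rw [show σ d * (d * c) = 1 by linear_combination hdc, one_smul]
  · simp only [LinearMap.smul_apply, map_smulₛₗ, smul_eq_mul, RingHom.id_apply]
    rw [hκ, ← hA.neg_eq, ← hκ, hc, map_smulₛₗ, LinearMap.smul_apply, hσc, hH.conj, smul_eq_mul]
    linear_combination (-H y x) * hdc

theorem Ovoid.SUV_le [Finite K] (h : P.Ovoid q u) (hW : finrank (ZMod 2) W = 4) (hH : Herm H)
    (hρ : ∀ u, P.ρ u ∈ isomGroup H) (hi : σ P.i = -P.i) (hX : P.H2 {a | a ≠ 0} X)
    (hb : ∀ g, Rat (σ.eqLocusField (RingHom.id K)).subtype (fun j => P.ρ (u j)) g → g * g ∈ X) :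
    SUV H ≤ X := by
  obtain ⟨B, hB0, hB⟩ := P.exists_isForm h.quad
  have hA := h.isAlt hB
  obtain ⟨κ, e, he, hκ, hκB⟩ := exists_conj hH hρ hB0 hB hA
  have halt : ∀ x, κ x = x → H x x = 0 := fun x hx => by
    rw [← hx, hκB, hx, hA.self_eq_zero, mul_zero]
  have hq := h.q_add (j := 0) (k := 1) (by decide)
  have h4 : 4 ≤ finrank K V := P.pow_le_finrank (m := 2) (by omega)
  refine Subgroup.map_le_iff_le_comap.2 (hκ.sIsom_le_of_transv hH h4 halt (fun v hv c hc => ?_)
    (g := ⟨P.s (u 0) * (P.s (u 0 + u 1))⁻¹,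
      mul_mem (s_mem_isomGroup hρ hi _) (inv_mem (s_mem_isomGroup hρ hi _))⟩)
    (hX.2 _ (h.ne_zero 0) (u 0 + u 1) fun e => by simp [e, h.quad.zero] at hq) ?_)
  · have hσc : σ c = -c := by linear_combination hc
    have hn : ∀ a b, H ((c • (H v).smulRight v) a) b = -1 * H a ((c • (H v).smulRight v) b) :=
      fun a b => by
        simp only [LinearMap.smul_apply, LinearMap.smulRight_apply, map_smulₛₗ, smul_eq_mul, hσc,
          hH.conj, RingHom.id_apply]
        ring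
    refine h.mem_of_sq hb (n := c • (H v).smulRight v) (by ext x; simp [halt v hv])
      (fun t ht => hB.co_eq_zero hB0 (fun a b => mul_left_cancel₀ he ?_) ht) (fun t => ?_)
      (by ext x; simp [hH.transv_apply, mul_smul])
    · rw [mul_neg, ← hκB, ← hκB, ← neg_one_mul, ← hn]
      simp only [LinearMap.smul_apply, LinearMap.smulRight_apply, map_smulₛₗ, smul_eq_mul, hσc, hv,
        hκ.left_form hv, hH.invol, map_neg, map_mul, map_one]
      ring
    · have := (isForm_zero hρ).co_adj (fun b hb => hH.sep b fun a => hH.comm (hb a)) hn t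
      refine ⟨⟨P.i⁻¹ * P.co t (c • (H v).smulRight v), ?_⟩, (Units.mul_inv_cancel_left _ _).symm⟩
      simp only [Pi.zero_apply, sg_zero, Units.val_one, mul_one] at this
      change σ _ = _
      rw [map_mul, this, Units.val_inv_eq_inv_val, map_inv₀, hi]
      simp
  · rintro ⟨l, hl⟩
    refine hB.not_sim hB0 (h.ne_zero 0) (h.zero 0) hq (σ l) fun x y => mul_left_cancel₀ he ?_
    rw [← hκB, hl, mul_left_comm, ← hκB, map_smulₛₗ, LinearMap.smul_apply, smul_eq_mul, isom_apply]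

theorem centN_or_SUV [Finite K] (hK : ∀ A : AddSubgroup K, (1 : K) ∈ A → ∀ a, σ a = a → a ∈ A)
    (hW : finrank (ZMod 2) W = 4) (hH : Herm H) (hρ : ∀ u, P.ρ u ∈ isomGroup H)
    (hi : σ P.i = -P.i) (hXH : X ≤ simG H) (hX : P.H2 {a | a ≠ 0} X) : P.CentN X ∨ SUV H ≤ X := by
  refine (centN_or (f := (σ.eqLocusField (RingHom.id K)).subtype) (fun A hA => ?_) hW hX
    fun g hg w t => ⟨⟨_, ?_⟩, rfl⟩).imp_right fun ⟨_, _, h, hb⟩ => h.SUV_le hW hH hρ hi hX hb
  · refine eq_top_iff.2 fun a _ => ?_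
    obtain ⟨b, hb, e⟩ := hK (A.map (σ.eqLocusField (RingHom.id K)).subtype.toAddMonoidHom)
      ⟨1, hA, rfl⟩ a a.2
    exact (show b = a from Subtype.ext e) ▸ hb
  · obtain ⟨c, hc⟩ := hXH hg
    have := (isForm_zero hρ).co_adj (fun b hb => hH.sep b fun a => hH.comm (hb a))
      (f := ((g * P.ρ w * g⁻¹ : V ≃ₗ[K] V) : End K V)) (ε := 1) (fun a b => by
        obtain ⟨a, rfl⟩ := g.surjective a
        obtain ⟨b, rfl⟩ := g.surjective b
        simp [hc, (isForm_zero hρ).left]) t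
    simp only [Pi.zero_apply, sg_zero, Units.val_one, mul_one, one_mul] at this
    exact this

end Unitary

end Pauli

theorem PL.two {K : Type u} [Field K] [Finite K] (hK : ∀ A : AddSubgroup K, (1 : K) ∈ A → A = ⊤) :
    PL.{u, v, w} K 2 := fun _ _ _ _ _ _ _ _ P hW _ hX =>
  (Pauli.centN_or_SLV hK hW (hX.h2 _)).imp_left (endgame1 P (by omega) hX)

theorem PU.two {K : Type u} [Field K] [Finite K] {σ : K →+* K}
    (hK : ∀ A : AddSubgroup K, (1 : K) ∈ A → ∀ a, σ a = a → a ∈ A) : PU.{u, v, w} σ 2 :=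
  fun _ _ _ _ _ _ _ _ P _ hH hρ hi hW _ hXH hX =>
    (Pauli.centN_or_SUV hK hW hH hρ hi hXH (hX.h2 _)).imp_left (endgame1 P (by omega) hX)

theorem PL.all {K : Type u} [Field K] [Finite K] (hK : ∀ A : AddSubgroup K, (1 : K) ∈ A → A = ⊤)
    {m : ℕ} (hm : 2 ≤ m) : PL.{u, v, w} K m := (PL.two hK).of_two hm

theorem PU.all {K : Type u} [Field K] [Finite K] {σ : K →+* K}
    (hK : ∀ A : AddSubgroup K, (1 : K) ∈ A → ∀ a, σ a = a → a ∈ A) {m : ℕ} (hm : 2 ≤ m) :
    PU.{u, v, w} σ m := (PU.two hK).of_two hm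

end Cfsg.Lib.Class.C6
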