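import Cfsg.Agent.Class.C6.Tower
import Cfsg.Agent.Class.OUnit
import Cfsg.Agent.Class.SpLevi
import Cfsg.Agent.Class.OrthSimple

/-!
# Class six in the symplectic and orthogonal groups of dimension at least sixteen
-/

set_option autoImplicit false
set_option linter.unusedSectionVars false

namespace Cfsg.Lib.Class.C6

open Module Form QuadraticMap Orth OMax

section Abs

variable {F V : Type*} [Field F] [AddCommGroup V] [Module F V] {B : V →ₗ[F] V →ₗ[F] F}
  {M : Subgroup (V ≃ₗ[F] V)} {θ : V ≃ₗ[F] V}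

/-- an eigenspace -/
abbrev Eg (θ : V ≃ₗ[F] V) (c : F) : Submodule F V := End.eigenspace (θ : End F V) c

theorem mem_Eg {c : F} {v : V} : v ∈ Eg θ c ↔ θ v = c • v := End.mem_eigenspace_iff

namespace Big

theorem far' (h : Big B M θ) : ∃ g ∈ M, ∀ s t : F, ¬ ∀ v, g (θ v) = s • g v + t • θ (g v) := by
  obtain ⟨g, hg, e⟩ := h.far
  refine ⟨g, hg, fun s t hc => e (LinearEquiv.ext fun v => ?_)⟩
  simp only [LinearEquiv.mul_apply, hc, apply_inv_apply, map_add, map_smul]

theorem skew (h : Big B M θ) (hM : M ≤ isomGroup B) (u v : V) : B (θ u) v = -B u (θ v) := by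
  rw [← mem_isomGroup.1 (hM h.mem) u, h.sq, map_neg, neg_neg]

variable {i : F}

theorem isCompl (h : Big B M θ) (h2 : (2 : F) ≠ 0) (hi : i * i = -1) :
    IsCompl (Eg θ i) (Eg θ (-i)) := by
  refine ⟨Submodule.disjoint_def.2 fun v h0 h1 => ?_, codisjoint_iff.2 (eq_top_iff.2 fun v _ => ?_)⟩
  · rw [mem_Eg] at h0 h1
    refine (smul_eq_zero.1 (show (2 * i) • v = 0 by
      linear_combination (norm := module) h1 - h0)).resolve_left (mul_ne_zero h2 ?_)
    rintro rfl
    simp at hi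
  · refine Submodule.mem_sup.2 ⟨(2 : F)⁻¹ • (v - i • θ v), mem_Eg.2 ?_, (2 : F)⁻¹ • (v + i • θ v),
      mem_Eg.2 ?_, ?_⟩
    · simp only [map_smul, map_sub, h.sq]
      match_scalars
      · linear_combination (2 : F)⁻¹ * hi
      · ring
    · simp only [map_smul, map_add, h.sq]
      match_scalars
      · linear_combination (2 : F)⁻¹ * hi
      · ring
    · match_scalars <;> field_simp <;> ring

theorem iso (h : Big B M θ) (hM : M ≤ isomGroup B) (h2 : (2 : F) ≠ 0) (hi : i * i = -1) :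
    ∀ u ∈ Eg θ i, ∀ v ∈ Eg θ i, B u v = 0 := fun u hu v hv => by
  have := mem_isomGroup.1 (hM h.mem) u v
  rw [mem_Eg.1 hu, mem_Eg.1 hv, map_smul, map_smul, LinearMap.smul_apply, smul_eq_mul, smul_eq_mul,
    ← mul_assoc, hi] at this
  exact eq_zero_of_eq_neg h2 (by linear_combination -this)

theorem comm_of (h : Big B M θ) (h2 : (2 : F) ≠ 0) (hi : i * i = -1) {g : V ≃ₗ[F] V} {t : F}
    (ht : t * t = 1) (h1 : ∀ v ∈ Eg θ i, g v ∈ Eg θ (t * i))
    (h1' : ∀ v ∈ Eg θ (-i), g v ∈ Eg θ (-(t * i))) (v : V) : g (θ v) = t • θ (g v) := by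
  obtain ⟨a, ha, b, hb, rfl⟩ := Submodule.mem_sup.1 ((h.isCompl h2 hi).sup_eq_top.ge
    (Submodule.mem_top (x := v)))
  simp only [map_add, mem_Eg.1 (h1 a ha), mem_Eg.1 (h1' b hb), mem_Eg.1 ha, mem_Eg.1 hb, map_smul]
  match_scalars
  · linear_combination (-i) * ht
  · linear_combination i * ht

theorem commute_of (h : Big B M θ) (h2 : (2 : F) ≠ 0) (hi : i * i = -1) {g : V ≃ₗ[F] V}
    (h1 : ∀ v ∈ Eg θ i, g v ∈ Eg θ i) (h1' : ∀ v ∈ Eg θ (-i), g v ∈ Eg θ (-i)) : Commute g θ :=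
  LinearEquiv.ext fun v => by
    simpa using h.comm_of h2 hi (t := 1) (one_mul 1) (by simpa using h1) (by simpa using h1') v

theorem far_pair (h : Big B M θ) (h2 : (2 : F) ≠ 0) (hi : i * i = -1) : ∃ g ∈ M,
    ¬ ((∀ v ∈ Eg θ i, g v ∈ Eg θ i) ∧ ∀ v ∈ Eg θ (-i), g v ∈ Eg θ (-i)) ∧
    ¬ ((∀ v ∈ Eg θ i, g v ∈ Eg θ (-i)) ∧ ∀ v ∈ Eg θ (-i), g v ∈ Eg θ i) := by
  obtain ⟨g, hg, e⟩ := h.far'
  exact ⟨g, hg, fun hc => e 0 1 fun v => by
    simpa using h.comm_of h2 hi (t := 1) (one_mul 1) (by simpa using hc.1) (by simpa using hc.2) v,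
    fun hc => e 0 (-1) fun v => by
      simpa using h.comm_of h2 hi (t := -1) (by simp) (by simpa using hc.1) (by simpa using hc.2) v⟩

variable [FiniteDimensional F V]

theorem swap_pair (h : Big B M θ) (i : F) : ∃ s ∈ M, (Eg θ i).map (s : V →ₗ[F] V) = Eg θ (-i) ∧
    (Eg θ (-i)).map (s : V →ₗ[F] V) = Eg θ i := by
  obtain ⟨s, hs, e⟩ := h.swap
  have key : ∀ c : F, ∀ v ∈ Eg θ c, s v ∈ Eg θ (-c) := fun c v hv => mem_Eg.2 (by
    rw [← neg_neg (θ _), ← e, mem_Eg.1 hv, map_smul, neg_smul])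
  have key' : ∀ v ∈ Eg θ (-i), s v ∈ Eg θ i := by simpa using key (-i)
  exact ⟨s, hs, map_eq_of_forall_mem s (key i) (finrank_le_of_forall_mem s key'),
    map_eq_of_forall_mem s key' (finrank_le_of_forall_mem s (key i))⟩

theorem lagPair (h : Big B M θ) (hM : M ≤ isomGroup B) (h2 : (2 : F) ≠ 0) (hi : i * i = -1) :
    LagPair B (Eg θ i) (Eg θ (-i)) :=
  ⟨h.iso hM h2 hi, h.iso hM h2 (by simpa using hi), h.isCompl h2 hi⟩

theorem hasShort (h : Big B M θ) (hA : LinearMap.BilinForm.IsAlt B) (hM : M ≤ isomGroup B)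
    (h2 : (2 : F) ≠ 0) (hi : i * i = -1) : HasShort hA M (Eg θ i) (Eg θ (-i)) := fun u hu w hw e => by
  have h1 := (h.lagPair hM h2 hi).altR_mem_stab hA hu hw e
  refine h.unip _ (altR_mem_SpB hA _ _) (h.commute_of h2 hi h1.1 h1.2) fun v => ?_
  simp [altR_apply hA e, e, alt_eq_zero_comm hA e, hA.self_eq_zero]

theorem skewRoot (h : Big B M θ) (hB : LinearMap.BilinForm.Nondegenerate B) (hM : M ≤ isomGroup B)
    (h2 : (2 : F) ≠ 0) (hi : ¬ ∃ i : F, i * i = -1) : SkewRoot B θ (-1) :=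
  ⟨hB, h2, by simpa using h.sq, fun s e => hi ⟨s, by rwa [← pow_two]⟩, h.skew hM⟩

theorem SpB_le [Finite F] (h : Big B M θ) (hB : LinearMap.BilinForm.Nondegenerate B)
    (hA : LinearMap.BilinForm.IsAlt B) (h2 : (2 : F) ≠ 0) (hM : M ≤ SpB B)
    (hd : 11 ≤ finrank F V) : SpB B ≤ M := by
  by_cases hi : ∃ i : F, i * i = -1
  · obtain ⟨i, hi⟩ := hi
    have hL := h.lagPair hM h2 hi
    have h6 := hL.finrank_eq hB
    obtain ⟨s, hs, h1, h1'⟩ := h.swap_pair i
    obtain ⟨g, hg, h3, h3'⟩ := h.far_pair h2 hi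
    exact SpB_le_of_hasShort hB h2 hL (h.hasShort hA hM h2 hi) (by omega) hs (hM hs) h1 h1' hg
      (hM hg) (fun e => h3 ⟨fun v hv => e.1.le ⟨v, hv, rfl⟩, fun v hv => e.2.le ⟨v, hv, rfl⟩⟩)
      fun e => h3' ⟨fun v hv => e.1.le ⟨v, hv, rfl⟩, fun v hv => e.2.le ⟨v, hv, rfl⟩⟩
  have hS := h.skewRoot hB hM h2 hi
  obtain ⟨g, hg, h3⟩ := h.far'
  refine hS.le_of_not_mem hA hd (fun p r hp hr hpr hpr' => ?_) hM hg fun ⟨s, t, _, e⟩ => h3 s t e
  obtain ⟨k, hk, e⟩ := hS.exists_uE hA p r hp hr hpr hpr'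
  have e1 := alt_eq_zero_comm hA hpr
  have e2 : B r (θ p) = 0 := (hS.symm hA r p).trans hpr'
  simp only [LinearEquiv.coe_coe] at hp hr hpr' e
  refine ⟨k, h.unip k hk.2 (LinearEquiv.ext fun v => ?_) fun v => ?_, e⟩
  · simp only [LinearEquiv.mul_apply, e, map_add, map_sub, map_smul, h.sq, h.skew hM, map_neg]
    module
  · simp only [e, map_add, map_sub, map_smul, h.sq, h.skew hM, map_neg, LinearMap.add_apply,
      LinearMap.sub_apply, LinearMap.smul_apply, hp, hr, hpr, hpr', e1, e2, hA.self_eq_zero,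
      smul_eq_mul]
    module

theorem commutator_le [Finite F] {Q : QuadraticForm F V} {X : Subgroup (O Q)}
    (h : Big (polarBilin Q) (X.map (O Q).subtype) θ) (hQ : (polarBilin Q).Nondegenerate)
    (h2 : (2 : F) ≠ 0) (hd : 10 ≤ finrank F V) : commutator (O Q) ≤ X := by
  have hM : X.map (O Q).subtype ≤ isomGroup (polarBilin Q) := by
    rintro _ ⟨g, -, rfl⟩
    exact O_polar g
  have hu : ∀ a b, Q a = 0 → Q b = 0 → Commute (eich Q a b).1 θ → eich Q a b ∈ X := by
    intro a b ha hb hc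
    by_cases hab : polar Q a b = 0
    · refine (Subgroup.mem_map_iff_mem (O Q).subtype_injective).1 (h.unip _ (O_polar _) hc
        fun v => ?_)
      rw [Subgroup.subtype_apply, eich_apply_long ha hb hab v, add_sub_cancel_left]
      exact eich_apply_of_orth_orth (by qsimp; rw [ha, pc hab]; ring) (by qsimp; rw [hb, hab]; ring)
    · rw [eich_of_not fun h' => hab h'.2]; exact X.one_mem
  by_contra hX
  by_cases hi : ∃ i : F, i * i = -1
  · obtain ⟨i, hi⟩ := hi
    have h0 : ∀ {i : F}, i * i = -1 → ∀ v ∈ Eg θ i, Q v = 0 := fun hi v hv =>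
      (mul_eq_zero.1 ((polar_self' v).symm.trans (h.iso hM h2 hi v hv v hv))).resolve_left h2
    have hP : SingPair Q (Eg θ i) (Eg θ (-i)) := ⟨h.isCompl h2 hi, h0 hi, h0 (by simpa using hi)⟩
    have h6 := hP.finrank_eq hQ
    obtain ⟨_, ⟨s, hs, rfl⟩, h1, h1'⟩ := h.swap_pair i
    obtain ⟨_, ⟨g, hg, rfl⟩, h3, h3'⟩ := h.far_pair h2 hi
    have key : ∀ {A A' : Submodule F V}, SingPair Q A A' → 5 ≤ finrank F A →
        (∀ k : O Q, k ∈ stab Q A → k ∈ stab Q A' → Commute k.1 θ) →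
        A.map s.1.toLinearMap = A' → A'.map s.1.toLinearMap = A →
        (∀ v ∈ A, g.1 v ∈ A) ∨ ∀ v ∈ A, g.1 v ∈ A' := fun {A A'} hP h5 hc h1 h1' => by
      by_contra! hcon
      obtain ⟨u, hu', h3, h4⟩ := exists_mem_notMem_notMem (U := A) (A := A.comap g.1.toLinearMap)
        (A' := A'.comap g.1.toLinearMap) (fun e => let ⟨v, hv, e'⟩ := hcon.1; e' (e hv))
        fun e => let ⟨v, hv, e'⟩ := hcon.2; e' (e hv)
      exact (hP.apply_mem_or hQ h5 (fun a ha b hb => hu a b (hP.left a ha) (hP.right b hb)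
        (hc _ (hP.eich_mem_stab ha hb).1 (hP.eich_mem_stab ha hb).2)) ⟨s, hs, h1, h1'⟩ hX hg
        hu').elim h3 h4
    have hc : ∀ k : O Q, k ∈ stab Q (Eg θ i) → k ∈ stab Q (Eg θ (-i)) → Commute k.1 θ :=
      fun k hk hk' => h.commute_of h2 hi (fun v => (hk v).1) fun v => (hk' v).1
    have nt : ∀ {A A' C : Submodule F V}, IsCompl A A' → (∀ v ∈ A, g.1 v ∈ C) →
        (∀ v ∈ A', g.1 v ∈ C) → finrank F V ≤ finrank F C := fun {A A' C} hP e e' => by
      rw [← finrank_top F V]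
      refine finrank_le_of_forall_mem g.1 fun v hv => ?_
      obtain ⟨a, ha, b, hb, rfl⟩ := Submodule.mem_sup.1 (hP.sup_eq_top.ge hv)
      rw [map_add]
      exact add_mem (e a ha) (e' b hb)
    rcases key hP (by omega) hc h1 h1' with e | e <;>
      rcases key hP.symm (by omega) (fun k hk hk' => hc k hk' hk) h1' h1 with e' | e'
    · exact h3 ⟨e, e'⟩
    · have := nt hP.compl e e'
      omega
    · have := nt hP.compl e e'
      omega
    · exact h3' ⟨e, e'⟩
  have hU : UStr Q (θ : V →ₗ[F] V) 0 1 := ⟨hQ, fun v => mul_left_cancel₀ h2 (by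
      rw [one_mul, ← polar_self', ← polar_self']; exact hM h.mem v v),
    fun v => (eq_zero_of_eq_neg h2 ((polar_comm _ _ _).trans (h.skew hM v v))).trans
      (zero_mul _).symm, fun v hv a b e => root_indep_one (δ := -1) (by simpa using h.sq)
      (fun s e => hi ⟨s, by rwa [← pow_two]⟩) hv e⟩
  have hT : ∀ a, Q a = 0 → (θ : V →ₗ[F] V) a ∈ rootSp X a := fun a ha =>
    ⟨hU.tr_zero ha, fun c => hu _ _ ha (by rw [Q_smul, hU.norm_zero ha, mul_zero])
      (LinearEquiv.ext fun v => (hU.tv_apply ha c _).trans (by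
        rw [LinearEquiv.mul_apply, hU.tv_apply ha, map_add, map_smul]
        exact congrArg (fun z => θ v + c • z) (hU.map_tv a v).symm))⟩
  obtain ⟨_, ⟨g, hg, rfl⟩, h3⟩ := h.far'
  obtain ⟨r, s, hrs⟩ := hU.exists_eq_of_forall (by omega)
    (φ := g.1.toLinearMap ∘ₗ θ ∘ₗ (g⁻¹).1.toLinearMap) fun a ha => by
      by_cases ha0 : a = 0
      · simp [ha0]
      have h1 := hU.mem_span_of_long (by omega) hT hX (u := (g⁻¹).1 a) (v := (g⁻¹).1 (θ a))
        (by simpa using ha0)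
        (fun hc => by
          obtain ⟨c, hc⟩ := Submodule.mem_span_singleton.1 hc
          rw [← map_smul, (g⁻¹).1.injective.eq_iff] at hc
          exact one_ne_zero (neg_eq_zero.1 (hU.indep a ha0 c (-1) (by rw [hc]; simp)).2))
        (by rw [O_map, ha]) (by rw [O_map]; exact hU.norm_zero ha)
        (by rw [O_polar]; exact hU.tr_zero ha)
        (eich_mem_of_mem_rootSp (apply_mem_rootSp (inv_mem hg) (hT a ha)))
      obtain ⟨r, s, h2⟩ := Submodule.mem_span_pair.1 h1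
      refine mem_kl.2 ⟨r, s, ?_⟩
      change _ = g.1 ((θ : V →ₗ[F] V) ((g⁻¹).1 a))
      rw [← h2, map_add, map_smul, map_smul, O_apply_inv, O_apply_inv]
      rfl
  exact h3 r s fun v => by simpa using hrs (g.1 v)

end Big

variable {K W V' : Type*} [Field K] [AddCommGroup V'] [Module K V'] [AddCommGroup W]
  [Module (ZMod 2) W] [Finite W] {b : BC F V K V'} {P : Pauli K V' W} {q : W → ZMod 2}
  {B' : V' →ₗ[K] V' →ₗ[K] K} {R G : Subgroup (V ≃ₗ[F] V)}

theorem Dsc.exists_sq (h : Dsc b P q B B' R G) : ∃ x ∈ R, ∀ v, x (x v) = -v := by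
  obtain ⟨u, hu⟩ := h.quad.exists_one (by have := h.dim; omega)
  obtain ⟨x, hx, -, e⟩ := h.lift_one hu
  exact ⟨x, hx, fun v => by simpa using congrArg (fun g : V ≃ₗ[F] V => g v) e⟩

theorem Dsc.not_mem (h : Dsc b P q B B' R G) {T : V ≃ₗ[F] V} (hT : ∀ v, T (T v - v) = T v - v)
    {w : V} (hw : T w ≠ w) : T ∉ R := fun hR => by
  obtain ⟨a, ha⟩ := h.ov.sq _ ⟨T, hR, rfl⟩
  rw [← map_mul, ← b.ext_sg] at ha
  have h1 : ∀ v, T (T v) = (sg F a : F) • v := fun v =>
    congrArg (fun g : V ≃ₗ[F] V => g v) (b.ext_inj ha)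
  have h2 := hT w
  have h3 := h1 (T w - w)
  rw [hT, hT] at h3
  rw [map_sub, h1] at h2
  refine hw (sub_eq_zero.1 ((smul_eq_zero.1 (?_ : (2 : F) • (T w - w) = 0)).resolve_left h.two))
  rcases zmod2_cases a with rfl | rfl
  · linear_combination (norm := (simp; module)) -h2
  · linear_combination (norm := (simp; module)) h3

theorem Dsc.not_SpB_le [FiniteDimensional F V] (h : Dsc b P q B B' R (SpB B))
    (hB : LinearMap.BilinForm.Nondegenerate B) (hA : LinearMap.BilinForm.IsAlt B)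
    (hd : 4 ≤ finrank F V) : ¬ SpB B ≤ Subgroup.normalizer (R : Set (V ≃ₗ[F] V)) := fun hle => by
  have := Subgroup.normal_subgroupOf_of_le_normalizer hle
  have : Nontrivial V := Module.nontrivial_of_finrank_pos (R := F) (by omega)
  obtain ⟨w, hw⟩ := exists_ne (0 : V)
  rcases SpB_normal_le_center_or hB hA (R.subgroupOf (SpB B)) with hc | hc
  · obtain ⟨x, hx, e⟩ := h.exists_sq
    refine hw ((smul_eq_zero.1 (?_ : (2 : F) • w = 0)).resolve_left h.two)
    have e1 := e w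
    rcases (mem_center_SpB_iff hB hA _).1 (hc (x := ⟨x, h.hR hx⟩) hx) with e' | e' <;>
      simp only [e', neg_neg] at e1 <;> linear_combination (norm := module) e1
  · rw [SpB_commutator_eq_top hB hA (Or.inr (Or.inl ⟨hd, h.two⟩))] at hc
    obtain ⟨y, hy⟩ := exists_alt_eq_one hB.flip hw
    rw [LinearMap.BilinForm.flip_apply] at hy
    exact h.not_mem (T := altTEquiv hA w 1) (fun v => by simp [altTEquiv_apply', hA.self_eq_zero])
      (w := y) (by simpa [altTEquiv_apply', hy] using hw) (hc (Subgroup.mem_top (spT hA w 1)))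

theorem Dsc.exists_notMem [Finite F] [FiniteDimensional F V] {Q : QuadraticForm F V}
    (h : Dsc b P q (polarBilin Q) B' R ((commutator (O Q)).map (O Q).subtype))
    (hQ : (polarBilin Q).Nondegenerate) (hd : 7 ≤ finrank F V) :
    ∃ g ∈ commutator (O Q), g.1 ∉ Subgroup.normalizer (R : Set (V ≃ₗ[F] V)) := by
  by_contra! hle
  obtain ⟨p, -, hp, hp0⟩ := exists_singular_mem Q (S := ⊤) (by rw [finrank_top]; omega)
  rcases normal_le_center_or_eq_top hQ (by omega)
    (R.comap ((O Q).subtype.comp (commutator (O Q)).subtype))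
    ⟨fun n hn g => (Subgroup.mem_normalizer_iff.1 (hle g g.2) _).1 hn⟩ with hc | hc
  · obtain ⟨x, hx, e⟩ := h.exists_sq
    obtain ⟨x, hx', rfl⟩ := h.R_le hx
    refine hp ((smul_eq_zero.1 (?_ : (2 : F) • p = 0)).resolve_left h.two)
    have e1 := e p
    rcases (mem_center_commutator_iff hQ (not_exc_of_finrank (by omega)) (by omega)).1
      (hc (x := ⟨x, hx'⟩) hx) with e' | e' <;> obtain rfl : x = _ := e' <;>
      simp only [Subgroup.subtype_apply, O_one_apply, negO_apply, neg_neg] at e1 <;>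
      linear_combination (norm := module) e1
  · obtain ⟨a, ha, hap, ha0⟩ := exists_singular_notMem Q (S := orth Q (Submodule.span F {p}))
      (T := Submodule.span F {p}) (by
        have := finrank_orth hQ (Submodule.span F {p})
        rw [finrank_span_singleton hp] at this ⊢
        omega)
    have h1 := mem_orth_singleton.1 ha
    obtain ⟨w, hw1, hw2⟩ := exists_orth_ne hQ hap
    refine h.not_mem (T := (eich Q p a).1) (fun v => ?_) (w := w) ?_
      (hc.ge (Subgroup.mem_top ⟨_, eich_mem_Om hQ (by omega) p a⟩))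
    · rw [eich_apply_long hp0 ha0 h1 v, add_sub_cancel_left]
      exact eich_apply_of_orth_orth (by qsimp; rw [hp0, pc h1]; ring) (by qsimp; rw [ha0, h1]; ring)
    · rw [eich_apply_of_orth hp0 h1 (pc hw1)]
      simpa using ⟨pc' hw2, hp⟩

end Abs

section Mat

open Cfsg.Geo Asch
open scoped MatrixGroups

universe u

variable {F : Type u} [Field F] [Fintype F] {p : ℕ}

theorem eight_le_of_card {K W ι : Type*} [Field K] [AddCommGroup W] [Module (ZMod 2) W] [Finite W]
    [Fintype ι] (P : Pauli K (ι → K) W) (h : 9 ≤ Fintype.card ι) :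
    8 ≤ finrank (ZMod 2) W ∧ 16 ≤ Fintype.card ι := by
  obtain ⟨m, hm, hm'⟩ := P.exists_finrank
  rw [finrank_fintype_fun_eq_card] at hm'
  have := (Nat.pow_lt_pow_iff_right one_lt_two).1 (show 2 ^ 3 < 2 ^ m by omega)
  have : 2 ^ 4 ≤ 2 ^ m := Nat.pow_le_pow_right two_pos this
  omega

theorem sp_exists_dsc (hp : p.Prime) (hF : Fintype.card F = p) {m : ℕ} (hm : 2 ≤ m)
    {R : Subgroup (GL (Fin m ⊕ Fin m) F)} (hR : IsSymplecticTypeGroup 2 R)
    (hirr : ActsAbsolutelyIrreducibly (matrixSet R)) (hRD : R ≤ spGL m F) :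
    ∃ (K : Type u) (_ : Field K) (_ : Finite K) (b : BC F _ K (Fin m ⊕ Fin m → K))
      (W : Type u) (_ : AddCommGroup W) (_ : Module (ZMod 2) W) (_ : Finite W)
      (P : Pauli K _ W) (Q : W → ZMod 2) (B : _), Dsc b P Q (sympBilin m F) B
        (R.map (glLin _ F).toMonoidHom) (SpB (sympBilin m F)) ∧
      (6 ≤ finrank (ZMod 2) W → Tw b P (sympBilin m F)) := by
  have : Nontrivial (Fin m ⊕ Fin m → F) := Module.nontrivial_of_finrank_pos (R := F) (by simp; omega)
  refine exists_dsc hp hF (cl2_of_symplecticType (by simp; omega) hR hirr) (by simp; omega)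
    (sympBilin_nondegenerate m).ne_zero
    (Or.inr fun u v => ((sympBilin_isAlt m).neg_eq v u).symm) ?_ le_rfl (Or.inl rfl)
  rintro _ ⟨g, hg, rfl⟩
  exact (glLin_mem_SpB_iff m g).2 (hRD hg)

theorem isMaximalIn_sp (hp : p.Prime) (hF : Fintype.card F = p) {m : ℕ} (hm : 5 ≤ m)
    {R : Subgroup (GL (Fin m ⊕ Fin m) F)} (hR : IsSymplecticTypeGroup 2 R)
    (hirr : ActsAbsolutelyIrreducibly (matrixSet R)) (hRD : R ≤ spGL m F) :
    IsMaximalIn (spGL m F) (subgroupNormalizer R ⊓ spGL m F) := by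
  obtain ⟨K, _, _, b, W, _, _, _, P, Q, B, h, hT⟩ := sp_exists_dsc hp hF (by omega) hR hirr hRD
  obtain ⟨h8, h16⟩ := eight_le_of_card P (by simp; omega)
  refine isMaximalIn_spGL_of m (mem_normalizer_iff_glLin R) (isMaximalIn_of_forall inf_le_right
    (fun e => h.not_SpB_le (sympBilin_nondegenerate m) (sympBilin_isAlt m) (by simp; omega)
      (e.trans inf_le_left)) fun M hN hM g hg hgN => ?_)
  obtain ⟨θ, hθ⟩ := (h.le_or (hT (by omega)) (Or.inl h8) hN hM).resolve_left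
    fun e => hgN ⟨e hg, hM hg⟩
  exact hθ.SpB_le (sympBilin_nondegenerate m) (sympBilin_isAlt m) h.two hM
    (by rw [finrank_fintype_fun_eq_card]; omega)

theorem maxOm_normalizer (hp : p.Prime) (hF : Fintype.card F = p) {ι : Type} [Fintype ι]
    [DecidableEq ι] (hn : 9 ≤ Fintype.card ι) {Q : QuadraticForm F (ι → F)}
    (hQ : (polarBilin Q).Nondegenerate) {R : Subgroup (GL ι F)} (hR : IsSymplecticTypeGroup 2 R)
    (hirr : ActsAbsolutelyIrreducibly (matrixSet R)) (hRD : ∀ g ∈ R, glLin ι F g ∈ O Q) :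
    MaxOm Q (Subgroup.normalizer (R.map (glLin ι F).toMonoidHom : Set _)) := by
  have : Nontrivial (ι → F) := Module.nontrivial_of_finrank_pos (R := F) (by simp; omega)
  have hC := cl2_of_symplecticType (by omega) hR hirr
  have h2 := Cl2.two_ne hC
  obtain ⟨K, _, _, b, W, _, _, _, P, q, B, h, hT⟩ := exists_dsc hp hF hC (by omega)
    (B₀ := polarBilin Q) (LinearMap.BilinForm.Nondegenerate.ne_zero hQ)
    (Or.inl fun u v => polar_comm _ _ _) (by
      rintro _ ⟨g, hg, rfl⟩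
      exact O_polar ⟨_, hRD g hg⟩) (G := (commutator (O Q)).map (O Q).subtype) (by
      rintro _ ⟨g, -, rfl⟩
      exact O_polar g) (Or.inr ⟨by omega, fun g hg => ⟨_, mul_self_mem_commutator hQ h2
        ⟨g, mem_O.2 fun v => mul_left_cancel₀ h2 (by
          rw [← polar_self', ← polar_self']; exact hg v v)⟩, rfl⟩⟩)
  obtain ⟨h8, h16⟩ := eight_le_of_card P hn
  refine ⟨h.exists_notMem hQ (by simp; omega), fun X hX hN hX' g hg => ?_⟩
  refine (h.le_or (M := X.map (O Q).subtype) (hT (by omega)) (Or.inl h8) ?_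
    (Subgroup.map_mono hX)).elim (fun e => e ⟨g, hg, rfl⟩)
    fun ⟨θ, hθ⟩ => absurd (hθ.commutator_le hQ h2 (by simp; omega)) hX'
  rintro _ ⟨h1, k, hk, rfl⟩
  exact ⟨k, hN k hk h1, rfl⟩

end Mat

end Cfsg.Lib.Class.C6
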