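import Cfsg.Agent.Class.OFrameFive
import Cfsg.Agent.Class.C6.Pauli

/-!
# Anticommuting involutions and the orthogonal group of their span
-/

set_option autoImplicit false
set_option linter.unusedSectionVars false

namespace Cfsg.Lib.Class.C6

open Module QuadraticMap Cfsg.Lib.Class.Orth Cfsg.Lib.Class.OMax

variable {F K V : Type*} [Field F] [Field K] [AddCommGroup V] [Module K V]
  {ι : Type*} [Fintype ι] [DecidableEq ι]

/-- the sum of squares -/
noncomputable def sumSq (F ι : Type*) [Field F] [Fintype ι] : QuadraticForm F (ι → F) :=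
  QuadraticMap.weightedSumSquares F fun _ : ι => (1 : F)

theorem sumSq_apply (v : ι → F) : sumSq F ι v = ∑ i, v i * v i := by
  simp [sumSq, weightedSumSquares_apply]

theorem polar_sumSq (v w : ι → F) : polar (sumSq F ι) v w = ∑ i, 2 * (v i * w i) := by
  simp only [polar, sumSq_apply, Pi.add_apply, ← Finset.sum_sub_distrib]
  exact Finset.sum_congr rfl fun i _ => by ring

/-- the standard basis -/
def stdE (F : Type*) [Field F] (i : ι) : ι → F := Pi.single i 1

theorem frame_sumSq (h2 : (2 : F) ≠ 0) : Frame (sumSq F ι) (stdE F) where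
  two := h2
  norm i := by simp [sumSq_apply, stdE, Pi.single_apply]
  perp i j hij := by
    rw [polar_sumSq]
    refine Finset.sum_eq_zero fun k _ => ?_
    by_cases hk : k = i
    · subst hk; simp [stdE, hij]
    · simp [stdE, hk]
  span := by
    rw [← (Pi.basisFun F ι).span_eq]
    exact Submodule.span_mono (by rintro _ ⟨i, rfl⟩; exact ⟨i, by simp [stdE]⟩)

/-- `v ↦ ∑ v k • γ k` -/
def clif (f : F →+* K) (γ : ι → V ≃ₗ[K] V) : (ι → F) →ₛₗ[f] End K V where
  toFun v := ∑ k, f (v k) • (γ k : End K V)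
  map_add' v w := by simp [add_smul, Finset.sum_add_distrib]
  map_smul' c v := by simp [Finset.smul_sum, smul_smul]

theorem clif_apply (f : F →+* K) (γ : ι → V ≃ₗ[K] V) (v : ι → F) :
    clif f γ v = ∑ k, f (v k) • (γ k : End K V) := rfl

theorem clif_stdE (f : F →+* K) (γ : ι → V ≃ₗ[K] V) (i : ι) : clif f γ (stdE F i) = γ i := by
  rw [clif_apply, Finset.sum_eq_single i] <;> simp +contextual [stdE]

theorem eq_sum_stdE (v : ι → F) : v = ∑ k, v k • stdE F k := by
  ext j; simp [stdE, Pi.single_apply]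

/-- anticommuting involutions -/
structure Cl (γ : ι → V ≃ₗ[K] V) : Prop where
  two : (2 : K) ≠ 0
  nontriv : Nontrivial V
  sq : ∀ i, (γ i : End K V) * γ i = 1
  anti : ∀ i j, i ≠ j → (γ i : End K V) * γ j = -(γ j * γ i)

/-- `g` induces `± φ` on the span of the `γ k` -/
def Act (f : F →+* K) (γ : ι → V ≃ₗ[K] V) (g : V ≃ₗ[K] V) (a : ZMod 2) (φ : O (sumSq F ι)) : Prop :=
  ∀ v, (g : End K V) * clif f γ v = (sg K a : K) • (clif f γ (φ.1 v) * g)

variable {f : F →+* K} {γ : ι → V ≃ₗ[K] V}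

theorem act_of_basis {g : V ≃ₗ[K] V} {a : ZMod 2} {φ : O (sumSq F ι)}
    (h : ∀ j, (g : End K V) * γ j = (sg K a : K) • (clif f γ (φ.1 (stdE F j)) * g)) :
    Act f γ g a φ := fun v => by
  rw [eq_sum_stdE v]
  simp only [map_sum, map_smul, map_smulₛₗ, Finset.mul_sum, Finset.sum_mul, Finset.smul_sum,
    mul_smul_comm, smul_mul_assoc, clif_stdE, h]
  exact Finset.sum_congr rfl fun k _ => smul_comm _ _ _

theorem Act.mul {g h : V ≃ₗ[K] V} {a b : ZMod 2} {φ ψ : O (sumSq F ι)} (hg : Act f γ g a φ)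
    (hh : Act f γ h b ψ) : Act f γ (g * h) (a + b) (φ * ψ) := fun v => by
  rw [LinearEquiv.coe_toLinearMap_mul, mul_assoc, hh, mul_smul_comm, ← mul_assoc, hg, O_mul_apply,
    smul_mul_assoc, smul_smul, sg_add, Units.val_mul, mul_comm (sg K a : K), mul_assoc]

theorem coe_mul_inv (g : V ≃ₗ[K] V) : (g : End K V) * ((g⁻¹ : V ≃ₗ[K] V) : End K V) = 1 := by
  rw [← LinearEquiv.coe_toLinearMap_mul, mul_inv_cancel]; rfl

theorem coe_inv_mul (g : V ≃ₗ[K] V) : ((g⁻¹ : V ≃ₗ[K] V) : End K V) * (g : End K V) = 1 := by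
  rw [← LinearEquiv.coe_toLinearMap_mul, inv_mul_cancel]; rfl

theorem Act.inv {g : V ≃ₗ[K] V} {a : ZMod 2} {φ : O (sumSq F ι)} (hg : Act f γ g a φ) :
    Act f γ g⁻¹ a φ⁻¹ := fun v => by
  have h := hg ((φ⁻¹).1 v)
  rw [O_apply_inv] at h
  have h' := congrArg (fun x => (sg K a : K) • (((g⁻¹ : V ≃ₗ[K] V) : End K V) * x *
    ((g⁻¹ : V ≃ₗ[K] V) : End K V))) h
  simp only [mul_smul_comm, smul_mul_assoc, smul_smul, sg_val_mul_self, one_smul] at h'
  rw [← mul_assoc, coe_inv_mul, one_mul, ← mul_assoc, mul_assoc _ (g : End K V), coe_mul_inv,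
    mul_one] at h'
  exact h'.symm

theorem act_sc (c : Kˣ) : Act f γ (sc V c) 0 1 := fun v => by
  ext x; simp

namespace Cl

theorem two' (h : Cl γ) (f : F →+* K) : (2 : F) ≠ 0 := fun e => h.two (by
  rw [← map_ofNat f 2, e, map_zero])

theorem anticomm (h : Cl γ) (v w : ι → F) :
    clif f γ v * clif f γ w + clif f γ w * clif f γ v = f (polar (sumSq F ι) v w) • 1 := by
  rw [clif_apply, clif_apply, Finset.sum_mul_sum, Finset.sum_mul_sum,
    Finset.sum_comm (f := fun i j => (f (w i) • (γ i : End K V)) * (f (v j) • (γ j : End K V))),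
    ← Finset.sum_add_distrib, polar_sumSq, map_sum, Finset.sum_smul]
  refine Finset.sum_congr rfl fun k _ => ?_
  rw [← Finset.sum_add_distrib, Finset.sum_eq_single k]
  · simp only [mul_smul_comm, smul_mul_assoc, h.sq, map_mul, map_ofNat]
    module
  · intro l _ hl
    simp only [mul_smul_comm, smul_mul_assoc, h.anti l k hl]
    module
  · simp

theorem clif_sq (h : Cl γ) (v : ι → F) : clif f γ v * clif f γ v = f (sumSq F ι v) • 1 := by
  have := h.anticomm (f := f) v v
  rw [polar_self', map_mul, map_ofNat, mul_smul, ← two_smul K] at this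
  exact smul_right_injective _ h.two this

theorem smul_one_inj (h : Cl γ) {a b : K} (e : a • (1 : End K V) = b • 1) : a = b := by
  have := h.nontriv
  exact smul_left_injective K one_ne_zero e

theorem clif_injective (h : Cl γ) : Function.Injective (clif f γ) := by
  rw [injective_iff_map_eq_zero]
  intro v hv
  refine (frame_sumSq (h.two' f)).ext fun i => f.injective (h.smul_one_inj ?_)
  rw [← h.anticomm, hv]
  simp

theorem exists_act (h : Cl γ) {g : V ≃ₗ[K] V}
    (hg : ∀ j, ∃ w, (g : End K V) * γ j = clif f γ w * g) : ∃ φ, Act f γ g 0 φ := by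
  choose w hw using hg
  let φ : (ι → F) →ₗ[F] (ι → F) := (Pi.basisFun F ι).constr F w
  have h1 : ∀ v, (g : End K V) * clif f γ v = clif f γ (φ v) * g := fun v => by
    rw [eq_sum_stdE v]
    have : ∀ k, φ (stdE F k) = w k := fun k => by
      rw [← (Pi.basisFun F ι).constr_basis F w k, Pi.basisFun_apply]; rfl
    simp only [map_sum, map_smul, map_smulₛₗ, Finset.mul_sum, Finset.sum_mul,
      mul_smul_comm, smul_mul_assoc, clif_stdE, hw, this]
  have hinj : Function.Injective φ := by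
    rw [injective_iff_map_eq_zero]
    intro v hv
    refine h.clif_injective (f := f) ?_
    have := h1 v
    rw [hv, map_zero, zero_mul] at this
    rw [map_zero, ← one_mul (clif f γ v), ← coe_inv_mul g, mul_assoc, this, mul_zero]
  refine ⟨⟨LinearEquiv.ofInjectiveEndo φ hinj, mem_O.2 fun v => f.injective (h.smul_one_inj ?_)⟩,
    fun v => by simpa using h1 v⟩
  change f (sumSq F ι (φ v)) • _ = _
  rw [← h.clif_sq, ← mul_one (_ * _), ← coe_mul_inv g, ← mul_assoc, mul_assoc _ _ (g : End K V),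
    ← h1, ← mul_assoc, ← h1, mul_assoc (g : End K V), h.clif_sq, mul_smul_comm, smul_mul_assoc,
    mul_one, coe_mul_inv]

theorem act_self (h : Cl γ) (i : ι) : Act f γ (γ i) 1 (refl _ (stdE F i)) := by
  have hf := frame_sumSq (ι := ι) (h.two' f)
  refine act_of_basis fun j => ?_
  by_cases hij : j = i
  · subst hij
    rw [refl_apply_self (hf.norm_ne j), map_neg, clif_stdE]; simp
  · rw [refl_apply_of_orth (hf.perp j i hij), clif_stdE, h.anti j i hij]; simp

theorem act_swap (h : Cl γ) {i j : ι} (hij : i ≠ j) {t : V ≃ₗ[K] V} {c : K}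
    (ht : (t : End K V) = c • (1 + γ i * γ j)) :
    Act f γ t 0 ((frame_sumSq (h.two' f)).perm (Equiv.swap i j) * refl _ (stdE F i)) := by
  have hf := frame_sumSq (ι := ι) (h.two' f)
  refine act_of_basis fun k => ?_
  rw [O_mul_apply, ht, sg_zero, Units.val_one, one_smul, smul_mul_assoc, mul_smul_comm]
  congr 1
  by_cases hk : k = i
  · subst hk
    rw [refl_apply_self (hf.norm_ne k), map_neg, hf.perm_apply, map_neg, clif_stdE,
      Equiv.swap_apply_left, add_mul, mul_assoc, h.anti j k hij.symm, mul_neg, ← mul_assoc, h.sq,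
      neg_mul, mul_add, ← mul_assoc, h.anti j k hij.symm, neg_mul, mul_assoc, h.sq]
    simp
  rw [refl_apply_of_orth (hf.perp k i hk), hf.perm_apply, clif_stdE]
  by_cases hk' : k = j
  · subst hk'
    rw [Equiv.swap_apply_right, add_mul, mul_assoc, h.sq, mul_add, ← mul_assoc, h.sq]
    simp [add_comm]
  · rw [Equiv.swap_apply_of_ne_of_ne hk hk', add_mul, mul_add, mul_assoc, h.anti j k (Ne.symm hk'),
      mul_neg, ← mul_assoc, h.anti i k (Ne.symm hk)]
    simp [mul_assoc]

end Cl

/-- the group induced by `X`, together with `-1` -/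
def actG (f : F →+* K) (γ : ι → V ≃ₗ[K] V) (X : Subgroup (V ≃ₗ[K] V)) :
    Subgroup (O (sumSq F ι)) where
  carrier := {φ | ∃ g ∈ X, ∃ a, Act f γ g a φ}
  one_mem' := ⟨1, one_mem _, 0, by simpa using act_sc (f := f) (γ := γ) 1⟩
  mul_mem' := by
    rintro _ _ ⟨g, hg, a, h⟩ ⟨g', hg', a', h'⟩
    exact ⟨_, mul_mem hg hg', _, h.mul h'⟩
  inv_mem' := by
    rintro _ ⟨g, hg, a, h⟩
    exact ⟨_, inv_mem hg, _, h.inv⟩

theorem mem_of_sign_eq_one {S : Subgroup (Equiv.Perm ι)}
    (h : ∀ i j k l, i ≠ j → k ≠ l → Equiv.swap i j * Equiv.swap k l ∈ S) {σ : Equiv.Perm ι}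
    (hσ : Equiv.Perm.sign σ = 1) : σ ∈ S := by
  have : (Equiv.Perm.sign σ = 1 → σ ∈ S) ∧
      (Equiv.Perm.sign σ = -1 → ∀ i j, i ≠ j → Equiv.swap i j * σ ∈ S) := by
    clear hσ
    induction σ using Equiv.Perm.swap_induction_on with
    | one => exact ⟨fun _ => one_mem _, fun e => absurd e (by simp)⟩
    | swap_mul τ x y hxy ih =>
      refine ⟨fun e => ih.2 ?_ x y hxy, fun e i j hij => ?_⟩
      · simpa [hxy, neg_eq_iff_eq_neg] using e
      · rw [← mul_assoc]
        exact mul_mem (h i j x y hij hxy) (ih.1 (by simpa [hxy] using e))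
  exact this.1 hσ

theorem mul_self_mem_commutator {F E : Type*} [Field F] [AddCommGroup E] [Module F E]
    [FiniteDimensional F E] {Q : QuadraticForm F E} (hQ : (polarBilin Q).Nondegenerate)
    (h2 : (2 : F) ≠ 0) (φ : O Q) : φ * φ ∈ commutator (O Q) := by
  rw [← Abelianization.ker_of, MonoidHom.mem_ker, map_mul]
  induction φ using refl_induction hQ (not_exc_of_two_ne_zero h2) with
  | h1 => simp
  | hmul g v _ ih => rw [map_mul, mul_mul_mul_comm, ih, ← map_mul, refl_mul_self, map_one, mul_one]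

theorem Cl.dichotomy [Finite F] (h : Cl γ) (hF : ∀ A : AddSubgroup F, (1 : F) ∈ A → A = ⊤)
    (h5 : 5 ≤ Fintype.card ι) {X : Subgroup (V ≃ₗ[K] V)} (hγ : ∀ i, γ i ∈ X)
    (t : ι → ι → V ≃ₗ[K] V) (ht : ∀ i j, i ≠ j → ∃ c : K, (t i j : End K V) = c • (1 + γ i * γ j))
    (htX : ∀ i j k l, i ≠ j → k ≠ l → t i j * (t k l)⁻¹ ∈ X) :
    (∀ φ : O (sumSq F ι), ∃ g ∈ X, ∃ a, Act f γ g a (φ * φ)) ∨
      ∀ g ∈ X, (∀ j, ∃ w, (g : End K V) * γ j = clif f γ w * g) →
        ∀ j, ∃ k a, g * γ j * g⁻¹ = sc V (sg K a) * γ k := by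
  have hf := frame_sumSq (ι := ι) (h.two' f)
  have hr : ∀ i, refl _ (stdE F i) ∈ actG f γ X := fun i => ⟨_, hγ i, _, h.act_self i⟩
  have H : ROver5 (sumSq F ι) (stdE F) (actG f γ X) :=
    { frame := hf
      prime := hF
      card := h5
      refl := hr
      perm := fun σ hσ => mem_of_sign_eq_one (S := (actG f γ X).comap hf.perm)
        (fun i j k l hij hkl => by
          obtain ⟨c, hc⟩ := ht i j hij
          obtain ⟨d, hd⟩ := ht k l hkl
          have h1 : _ ∈ actG f γ X :=
            ⟨_, htX i j k l hij hkl, _, (h.act_swap hij hc).mul (h.act_swap hkl hd).inv⟩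
          have h2 := mul_mem (mul_mem (mul_mem (inv_mem (hr j)) h1) (hr l)) (one_mem _)
          rw [Subgroup.mem_comap, map_mul]
          convert h2 using 1
          have e : ∀ {i j : ι}, hf.perm (Equiv.swap i j) * refl _ (stdE F i) =
              refl _ (stdE F j) * hf.perm (Equiv.swap i j) := fun {i j} => by
            rw [mul_refl, hf.perm_apply, Equiv.swap_apply_left]
          rw [e, e, mul_inv_rev, ← map_inv, Equiv.swap_inv]
          group) hσ }
  rcases H.le_or_le with h1 | h1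
  · exact Or.inl fun φ => h1 (mul_self_mem_commutator hf.nondeg hf.two φ)
  · refine Or.inr fun g hg hg' j => ?_
    obtain ⟨φ, hφ⟩ := h.exists_act hg'
    obtain ⟨σ, hσ⟩ := hf.exists_perm_of_mem_Mon (h1 ⟨g, hg, 0, hφ⟩)
    have e := hφ (stdE F j)
    rw [clif_stdE] at e
    rcases hσ j with e' | e'
    · refine ⟨σ j, 0, mul_inv_eq_iff_eq_mul.2 (LinearEquiv.ext fun v => ?_)⟩
      rw [e', clif_stdE] at e
      simpa using LinearMap.congr_fun e v
    · refine ⟨σ j, 1, mul_inv_eq_iff_eq_mul.2 (LinearEquiv.ext fun v => ?_)⟩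
      rw [e', map_neg, clif_stdE] at e
      simpa using LinearMap.congr_fun e v

end Cfsg.Lib.Class.C6
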