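import Cfsg.Agent.Class.C6.Res
import Cfsg.Agent.Class.C6.Cl5

/-!
# Coefficients with respect to the Pauli basis, invariant forms, and two local lemmas
-/

set_option autoImplicit false
set_option linter.unusedSectionVars false

namespace Cfsg.Lib.Class.C6

open Module

variable {K V W : Type*} [Field K] [AddCommGroup V] [Module K V] [AddCommGroup W]
  [Module (ZMod 2) W]

theorem coe_sc_mul (c : Kˣ) (g : V ≃ₗ[K] V) :
    ((sc V c * g : V ≃ₗ[K] V) : End K V) = (c : K) • (g : End K V) := rfl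

theorem coe_mul' (g h : V ≃ₗ[K] V) :
    ((g * h : V ≃ₗ[K] V) : End K V) = (g : End K V) * (h : End K V) := rfl

theorem coe_inj {g h : V ≃ₗ[K] V} (e : (g : End K V) = (h : End K V)) : g = h :=
  LinearEquiv.toLinearMap_injective e

theorem eq_zero_of_eq_neg (h2 : (2 : K) ≠ 0) {a : K} (h : a = -a) : a = 0 :=
  (mul_eq_zero.1 (show 2 * a = 0 by linear_combination h)).resolve_left h2

namespace Pauli

variable (P : Pauli K V W)

theorem coe_sq (u : W) : (P.ρ u : End K V) * P.ρ u = 1 := by rw [← coe_mul', P.sq]; rfl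

theorem coe_zero : (P.ρ 0 : End K V) = 1 := by rw [P.zero]; rfl

theorem coe_comm (u v : W) :
    (P.ρ u : End K V) * P.ρ v = (sg K (P.β u v) : K) • ((P.ρ v : End K V) * P.ρ u) := by
  rw [← coe_mul', P.comm]; rfl

theorem coe_conj (u v : W) :
    (P.ρ u : End K V) * P.ρ v * P.ρ u = (sg K (P.β u v) : K) • (P.ρ v : End K V) := by
  rw [P.coe_comm, smul_mul_assoc, mul_assoc, P.coe_sq, mul_one]

theorem coe_s (u : W) : (P.s u : End K V) = P.α • 1 + P.α' • (P.ρ u : End K V) := rfl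

theorem coe_s_inv (u : W) :
    (((P.s u)⁻¹ : V ≃ₗ[K] V) : End K V) = P.α' • 1 + P.α • (P.ρ u : End K V) := rfl

theorem mul_of_β_one {u v : W} (h : P.β u v = 1) :
    ∃ a, P.ρ u * P.ρ v = sc V (P.i * sg K a) * P.ρ (u + v) := by
  obtain ⟨c, hc⟩ := P.mul u v
  have h1 : sc V (c * c) = sc V (-1) := by
    have e : sc V c * P.ρ (u + v) * (sc V c * P.ρ (u + v)) = sc V (-1) := by
      rw [← hc, mul_assoc, ← mul_assoc (P.ρ v), P.comm v u, P.β_comm, h, sg_one, mul_assoc,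
        mul_assoc, P.sq, mul_one, ← mul_assoc, sc_comm, mul_assoc, P.sq, mul_one]
    rwa [sc_mul_sc_mul, P.sq, mul_one] at e
  obtain ⟨a, ha⟩ := exists_sg_of_mul_self (c := P.i⁻¹ * c) (by
    rw [mul_mul_mul_comm, P.sc_inj h1, ← mul_inv, P.i_sq]; simp)
  exact ⟨a, by rw [← ha, mul_inv_cancel_left, hc]⟩

variable [FiniteDimensional K V] [Finite W]

theorem trace_ρ {u : W} (hu : u ≠ 0) : LinearMap.trace K V (P.ρ u : End K V) = 0 := by
  obtain ⟨y, hy⟩ := P.exists_β_eq_one hu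
  have h := congrArg (LinearMap.trace K V) (P.coe_conj y u)
  rw [LinearMap.trace_mul_comm, ← mul_assoc, P.coe_sq, one_mul, P.β_comm, hy] at h
  exact eq_zero_of_eq_neg P.two (by simpa using h)

include P in
theorem finrank_ne_zero : (finrank K V : K) ≠ 0 := fun h => by
  have := congrArg (Nat.cast : ℕ → K) P.finrank_sq
  push_cast at this
  rw [h, zero_pow two_ne_zero] at this
  exact pow_ne_zero _ P.two this.symm

/-- the coefficient of `ρ t` -/
noncomputable def co (t : W) : End K V →ₗ[K] K :=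
  (finrank K V : K)⁻¹ • (LinearMap.trace K V ∘ₗ LinearMap.mulLeft K (P.ρ t : End K V))

theorem co_apply (t : W) (f : End K V) :
    P.co t f = (finrank K V : K)⁻¹ * LinearMap.trace K V (P.ρ t * f) := rfl

theorem co_self (t : W) : P.co t (P.ρ t) = 1 := by
  rw [co_apply, P.coe_sq, LinearMap.trace_one, inv_mul_cancel₀ P.finrank_ne_zero]

theorem co_of_ne {t u : W} (h : t ≠ u) : P.co t (P.ρ u) = 0 := by
  obtain ⟨c, hc⟩ := P.mul t u
  rw [co_apply, ← coe_mul', hc, coe_sc_mul, map_smul,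
    P.trace_ρ fun e => h (add_eq_zero_iff'.1 e), smul_zero, mul_zero]

theorem co_one {t : W} (h : t ≠ 0) : P.co t 1 = 0 := by rw [← P.coe_zero, P.co_of_ne h]

theorem co_zero_one : P.co 0 1 = 1 := by rw [← P.coe_zero, P.co_self]

theorem co_sum [Fintype W] (c : W → K) (t : W) : P.co t (∑ u, c u • (P.ρ u : End K V)) = c t := by
  rw [map_sum, Finset.sum_eq_single t]
  · rw [map_smul, P.co_self, smul_eq_mul, mul_one]
  · intro u _ hu
    rw [map_smul, P.co_of_ne hu.symm, smul_zero]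
  · simp

theorem sum_co [Fintype W] (f : End K V) : ∑ t, P.co t f • (P.ρ t : End K V) = f := by
  induction P.span f using Submodule.span_induction with
  | mem x hx =>
    obtain ⟨u, rfl⟩ := hx
    rw [Finset.sum_eq_single u]
    · rw [P.co_self, one_smul]
    · intro t _ ht
      rw [P.co_of_ne ht, zero_smul]
    · simp
  | zero => simp
  | add x y _ _ hx hy => simp only [map_add, add_smul, Finset.sum_add_distrib, hx, hy]
  | smul a x _ hx => simp only [map_smul, smul_eq_mul, mul_smul, ← Finset.smul_sum, hx]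

theorem co_conj_ρ (x t : W) (f : End K V) :
    P.co t (P.ρ x * f * P.ρ x) = sg K (P.β x t) * P.co t f := by
  rw [co_apply, co_apply, ← mul_assoc, LinearMap.trace_mul_comm, ← mul_assoc, ← mul_assoc,
    P.coe_conj, smul_mul_assoc, map_smul, smul_eq_mul, mul_left_comm]

theorem co_eq_zero_of_commute {x t : W} {f : End K V} (h : f * P.ρ x = P.ρ x * f)
    (ht : P.β x t = 1) : P.co t f = 0 := by
  have := P.co_conj_ρ x t f
  rw [← h, mul_assoc, P.coe_sq, mul_one, ht] at this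
  exact eq_zero_of_eq_neg P.two (by simpa using this)

theorem co_conj {g : V ≃ₗ[K] V} {t : W} (h : Commute g (P.ρ t)) (f : End K V) :
    P.co t (g * f * ((g⁻¹ : V ≃ₗ[K] V) : End K V)) = P.co t f := by
  rw [co_apply, co_apply, ← mul_assoc, LinearMap.trace_mul_comm, ← mul_assoc, ← mul_assoc,
    ← coe_mul', ← coe_mul', mul_assoc g⁻¹, ← h.eq, inv_mul_cancel_left]

/-- the form `B` is invariant under the `ρ u` up to the signs given by `Q` -/
def IsForm {σ : K →+* K} (Q : W → ZMod 2) (B : V →ₛₗ[σ] V →ₗ[K] K) : Prop :=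
  ∀ u a b, B (P.ρ u a) (P.ρ u b) = sg K (Q u) * B a b

variable {P}

omit [FiniteDimensional K V] [Finite W] in
theorem IsForm.left {σ : K →+* K} {Q : W → ZMod 2} {B : V →ₛₗ[σ] V →ₗ[K] K} (h : P.IsForm Q B)
    (u : W) (a b : V) : B (P.ρ u a) b = sg K (Q u) * B a (P.ρ u b) := by
  rw [← h, ρ_ρ]

theorem IsForm.co_adj {σ : K →+* K} {Q : W → ZMod 2} {B : V →ₛₗ[σ] V →ₗ[K] K} (h : P.IsForm Q B)
    (hB : ∀ b, (∀ a, B a b = 0) → b = 0) {f : End K V} {ε : K}
    (hf : ∀ a b, B (f a) b = ε * B a (f b)) (t : W) :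
    σ (P.co t f) * sg K (Q t) = ε * P.co t f := by
  have := Fintype.ofFinite W
  have e : ∑ u, (σ (P.co u f) * sg K (Q u)) • (P.ρ u : End K V) = ε • f := by
    ext b
    refine sub_eq_zero.1 (hB _ fun a => ?_)
    rw [map_sub, LinearMap.smul_apply, map_smul, smul_eq_mul, ← hf]
    nth_rw 2 [← P.sum_co f]
    simp only [LinearMap.sum_apply, LinearMap.smul_apply, map_sum, map_smul, map_smulₛₗ,
      LinearEquiv.coe_coe, h.left, smul_eq_mul, mul_assoc, sub_self]
  rw [← P.co_sum (fun u => σ (P.co u f) * sg K (Q u)) t, e, map_smul, smul_eq_mul]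

variable (P)

theorem exists_isForm {Q : W → ZMod 2} (hQ : P.IsQuad Q) :
    ∃ B : V →ₗ[K] V →ₗ[K] K, B ≠ 0 ∧ P.IsForm Q B := by
  have := Fintype.ofFinite W
  have := P.nontriv
  let B : Dual K V → Dual K V → V →ₗ[K] V →ₗ[K] K := fun l m => ∑ u, (sg K (Q u) : K) •
    (LinearMap.mul K K).compl₁₂ (l ∘ₗ (P.ρ u : End K V)) (m ∘ₗ (P.ρ u : End K V))
  have hB : ∀ l m a b, B l m a b = ∑ u, sg K (Q u) * (l (P.ρ u a) * m (P.ρ u b)) := fun l m a b => by
    simp [B, LinearMap.sum_apply]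
  obtain ⟨l, m, h⟩ : ∃ l m, B l m ≠ 0 := by
    by_contra! hc
    obtain ⟨a, ha⟩ := exists_ne (0 : V)
    refine ha ((forall_dual_apply_eq_zero_iff K a).1 fun l => ?_)
    have e : ∑ u, (sg K (Q u) * l (P.ρ u a)) • (P.ρ u : End K V) = 0 := by
      ext b
      refine (forall_dual_apply_eq_zero_iff K _).1 fun m => ?_
      have := hB l m a b
      rw [hc] at this
      simpa [LinearMap.sum_apply, mul_assoc] using this.symm
    have := P.co_sum (fun u => sg K (Q u) * l (P.ρ u a)) 0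
    rw [e, map_zero, P.zero] at this
    exact (mul_eq_zero.1 this.symm).resolve_left (sg K _).ne_zero
  refine ⟨B l m, h, fun w a b => ?_⟩
  rw [hB, hB, ← Equiv.sum_comp (Equiv.addRight w) , Finset.mul_sum]
  refine Finset.sum_congr rfl fun u _ => ?_
  obtain ⟨c, hc⟩ := P.mul (u + w) w
  rw [add_add_self] at hc
  have hc' : ∀ v, P.ρ (u + w) (P.ρ w v) = (c : K) • P.ρ u v := fun v =>
    congrArg (fun g : V ≃ₗ[K] V => g v) hc
  have hcc : (c : K) * c = sg K (P.β u w) := by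
    have e : sc V c * P.ρ u * (sc V c * P.ρ u) = sc V (sg K (P.β u w)) := by
      rw [← hc, mul_assoc, ← mul_assoc (P.ρ w), P.comm w, P.β_add_right, P.alt, add_zero,
        P.β_comm, mul_assoc, mul_assoc, P.sq, mul_one, ← mul_assoc, sc_comm, mul_assoc, P.sq,
        mul_one]
    rw [sc_mul_sc_mul, P.sq, mul_one] at e
    rw [← Units.val_mul, P.sc_inj e]
  rw [Equiv.coe_addRight, hc', hc', hQ, sg_add, sg_add, map_smul, map_smul]
  simp only [smul_eq_mul, Units.val_mul]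
  linear_combination (sg K (Q u) * sg K (Q w) * sg K (P.β u w) * l (P.ρ u a) * m (P.ρ u b)) * hcc +
    (sg K (Q u) * sg K (Q w) * l (P.ρ u a) * m (P.ρ u b)) * sg_val_mul_self (K := K) (P.β u w)

omit [FiniteDimensional K V] [Finite W] in
theorem eq_top_of_invariant {S : Submodule K V} (h : ∀ u, ∀ v ∈ S, P.ρ u v ∈ S) {a : V}
    (ha : a ∈ S) (ha0 : a ≠ 0) (b : V) : b ∈ S := by
  obtain ⟨f, -, hf⟩ := LinearMap.exists_extend_of_notMem (0 : (⊥ : Submodule K V) →ₗ[K] V)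
    (by simpa using ha0) b
  rw [← hf]
  clear hf
  induction P.span f using Submodule.span_induction with
  | mem x hx => obtain ⟨u, rfl⟩ := hx; exact h u a ha
  | zero => exact S.zero_mem
  | add x y _ _ hx hy => exact S.add_mem hx hy
  | smul c x _ hx => exact S.smul_mem c hx

variable {P}

omit [FiniteDimensional K V] [Finite W] in
theorem IsForm.sep_right {σ : K →+* K} {Q : W → ZMod 2} {B : V →ₛₗ[σ] V →ₗ[K] K}
    (h : P.IsForm Q B) (hB : B ≠ 0) (b : V) (hb : ∀ a, B a b = 0) : b = 0 := by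
  by_contra hb0
  refine hB (LinearMap.ext fun a => LinearMap.ext fun c => ?_)
  have := P.eq_top_of_invariant (S := ⨅ a, LinearMap.ker (B a)) (fun u v hv => by
    simp only [Submodule.mem_iInf, LinearMap.mem_ker] at hv ⊢
    intro a
    rw [← P.ρ_ρ u a, h, hv, mul_zero]) (by simpa using hb) hb0 c
  simp only [Submodule.mem_iInf, LinearMap.mem_ker] at this
  exact this a

omit [FiniteDimensional K V] [Finite W] in
theorem IsForm.sep_left {σ : K →+* K} {Q : W → ZMod 2} {B : V →ₛₗ[σ] V →ₗ[K] K}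
    (h : P.IsForm Q B) (hB : B ≠ 0) (a : V) (ha : ∀ b, B a b = 0) : a = 0 := by
  by_contra ha0
  refine hB (LinearMap.ext fun c => ?_)
  exact P.eq_top_of_invariant (S := LinearMap.ker B) (fun u v hv => by
    rw [LinearMap.mem_ker] at hv ⊢
    ext b
    rw [h.left, hv]; simp) (LinearMap.ext ha) ha0 c

variable (P)

/-- a conjugate of `s w` normalising `R` comes from a conjugate of `ρ w` lying in `R` -/
theorem conj_ρ_mem_R {y : V ≃ₗ[K] V} {w : W} (h : y * P.s w * y⁻¹ ∈ P.N) :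
    y * P.ρ w * y⁻¹ ∈ P.R := by
  set b := y * P.ρ w * y⁻¹ with hb
  let g : P.N := ⟨_, h⟩
  have hg : (g * g).1 = b := by
    rw [hb, ← P.s_mul_s]; simp only [g, Subgroup.coe_mul]; group
  have hbb : (b : End K V) * b = 1 := by
    rw [← coe_mul', hb, show y * P.ρ w * y⁻¹ * (y * P.ρ w * y⁻¹) = y * (P.ρ w * P.ρ w) * y⁻¹ by group,
      P.sq, mul_one, mul_inv_cancel]; rfl
  have e1 : (g.1 : End K V) = P.α • 1 + P.α' • (b : End K V) := by
    simp only [g, hb, coe_mul', coe_s, mul_add, add_mul, mul_smul_comm, smul_mul_assoc, mul_one,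
      coe_mul_inv]
  have e2 : ((g.1⁻¹ : V ≃ₗ[K] V) : End K V) = P.α' • 1 + P.α • (b : End K V) := by
    rw [show g.1⁻¹ = y * (P.s w)⁻¹ * y⁻¹ by simp only [g]; group]
    simp only [hb, coe_mul', coe_s_inv, mul_add, add_mul, mul_smul_comm, smul_mul_assoc, mul_one,
      coe_mul_inv]
  rw [← hg, ← P.act_eq_one_iff]
  refine LinearEquiv.ext fun v => ?_
  by_cases hv : P.act g v = v
  · rw [map_mul, LinearEquiv.mul_apply, hv, hv]; rfl
  have hv' : P.act g⁻¹ v ≠ v := fun e => hv (by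
    conv_lhs => rw [← e, ← LinearEquiv.mul_apply, ← map_mul, mul_inv_cancel, map_one]
    rfl)
  obtain ⟨a1, h1⟩ := P.act_spec g v
  obtain ⟨a2, h2⟩ := P.act_spec g⁻¹ v
  obtain ⟨a3, h3⟩ := P.act_spec (g * g) v
  have hbi : b⁻¹ = b := inv_eq_of_mul_eq_one_right (coe_inj hbb)
  rw [hg, hbi] at h3
  have key : ((g.1 * P.ρ v * g.1⁻¹ : V ≃ₗ[K] V) : End K V) +
      ((g⁻¹.1 * P.ρ v * (g⁻¹.1)⁻¹ : V ≃ₗ[K] V) : End K V) = P.ρ v + (b * P.ρ v * b : V ≃ₗ[K] V) := by
    rw [Subgroup.coe_inv, inv_inv]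
    simp only [coe_mul', e1, e2, mul_add, add_mul, mul_smul_comm, smul_mul_assoc, mul_one, one_mul]
    match_scalars
    · linear_combination P.two_α_mul
    · linear_combination P.α_sq_add
    · linear_combination P.α_sq_add
    · linear_combination P.two_α_mul
  rw [h1, h2, h3] at key
  by_contra h4
  have := congrArg (P.co v) key
  simp only [coe_sc_mul, map_add, map_smul, P.co_of_ne (Ne.symm hv), P.co_of_ne (Ne.symm hv'),
    P.co_self] at this
  rw [P.co_of_ne (t := v) (fun e => h4 e.symm)] at this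
  simp at this

/-- the centraliser of `ρ x` in `X` normalises the centraliser of `ρ x` in `R` -/
def Nrm (X : Subgroup (V ≃ₗ[K] V)) (x : W) : Prop :=
  ∀ y ∈ X, Commute y (P.ρ x) → ∀ w, P.β x w = 0 → y * P.ρ w * y⁻¹ ∈ P.R

variable {P}

omit [FiniteDimensional K V] in
theorem mem_N_of_nrm {X : Subgroup (V ≃ₗ[K] V)} {y : V ≃ₗ[K] V} (hy : y ∈ X) {x y₀ b₀ : W}
    (hc : Commute y (P.ρ x)) (hn : P.Nrm X x) (h1 : P.β x y₀ = 1) (h2 : P.β x b₀ = 0)
    (h3 : P.β y₀ b₀ = 0) (hk : P.s y₀ * (P.s b₀)⁻¹ ∈ X)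
    (hb : ∀ c b, y * P.ρ b₀ * y⁻¹ = sc V c * P.ρ b → P.Nrm X b) : y ∈ P.N := by
  obtain ⟨c, b, hcb⟩ := hn y hy hc b₀ h2
  have hx : y * P.ρ x * y⁻¹ = sc V 1 * P.ρ x := by
    rw [hc.eq, mul_inv_cancel_right, map_one, one_mul]
  have hk0 : Commute (P.s y₀ * (P.s b₀)⁻¹) (P.ρ b₀) :=
    (P.commute_ρ_s (by rw [P.β_comm, h3])).symm.mul_left (P.commute_ρ_s (P.alt b₀)).symm.inv_left
  have h4 := hb c b hcb _ (mul_mem (mul_mem hy hk) (inv_mem hy)) (by
    have : P.ρ b = sc V c⁻¹ * (y * P.ρ b₀ * y⁻¹) := by rw [hcb, map_inv, inv_mul_cancel_left]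
    rw [this]
    exact (commute_sc _ _).mul_right (hk0.conj y)) x (by
    rw [P.β_of_conj hcb hx, P.β_comm, h2])
  have h5 : y * P.ρ y₀ * y⁻¹ ∈ P.R := by
    have e1 : (P.s b₀)⁻¹ * P.ρ x * P.s b₀ = P.ρ x := by
      rw [mul_assoc, (P.commute_ρ_s h2).eq, inv_mul_cancel_left]
    have e2 : y * (P.s y₀ * (P.s b₀)⁻¹) * y⁻¹ * P.ρ x * (y * (P.s y₀ * (P.s b₀)⁻¹) * y⁻¹)⁻¹ =
        sc V P.i * (P.ρ x * (y * P.ρ y₀ * y⁻¹)) := by
      calc _ = y * (P.s y₀ * ((P.s b₀)⁻¹ * (y⁻¹ * P.ρ x * y) * P.s b₀) * (P.s y₀)⁻¹) * y⁻¹ := by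
            group
        _ = _ := by
          rw [mul_assoc y⁻¹, ← hc.eq, inv_mul_cancel_left, e1, P.s_conj_ρ h1, conj_sc_mul,
            ← mul_assoc y, hc.eq]
          group
    rw [e2] at h4
    exact (P.R.mul_mem_cancel_left (P.ρ_mem_R x)).1 ((P.R.mul_mem_cancel_left (P.sc_mem_R _)).1 h4)
  refine P.mem_N_of_forall fun w => ?_
  rcases zmod2_cases (P.β x w) with h | h
  · exact hn y hy hc w h
  · obtain ⟨d, hd⟩ := P.mul y₀ (y₀ + w)
    rw [self_add_add] at hd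
    have : P.ρ w = sc V d⁻¹ * (P.ρ y₀ * P.ρ (y₀ + w)) := by rw [hd, map_inv, inv_mul_cancel_left]
    rw [this, conj_sc_mul, show y * (P.ρ y₀ * P.ρ (y₀ + w)) * y⁻¹ =
      y * P.ρ y₀ * y⁻¹ * (y * P.ρ (y₀ + w) * y⁻¹) by group]
    exact mul_mem (P.sc_mem_R _) (mul_mem h5 (hn y hy hc _ (by
      rw [P.β_add_right, h1, h]; rfl)))

end Pauli

end Cfsg.Lib.Class.C6
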