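import Cfsg.Agent.Class.C6.Endgame

/-!
# The endgame for `r = 2`, `dim W = 4`, when only the `s a (s b)⁻¹` are available
-/

namespace Cfsg.Lib.Class.C6

open Module

variable {K V W : Type*} [Field K] [AddCommGroup V] [Module K V] [AddCommGroup W]
  [Module (ZMod 2) W]

namespace Fr

variable {G : Type*} [Group G] {P : Pauli K V W} {e e' : W → G} [Finite W]

theorem exists_ac_eq (F : Fr P e) (F' : Fr P e') (hd : Dis e e') {w : W} (hw : e' w ∈ F.M)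
    (hw0 : w ≠ 0) {v b : W} (hv : v ∉ F.S F') (hb : b ∈ F.S F') :
    ∃ (z : W) (hz : e' z ∈ F.M), F.ac hz v = b + v := by
  have h2 := F.dim_eq F' hd hw hw0
  have h3 := P.eg_finrank_orth (F.S F')
  have e2 : LinearMap.range (F.phi F' hd v) = P.β.orthogonal (F.S F') :=
    Submodule.eq_of_le_of_finrank_eq (F.range_phi_le F' hd v) (by
      rw [F.finrank_range_phi F' hd hv]; omega)
  rw [← F.orth_eq F' hd hw hw0, ← e2] at hb
  obtain ⟨z, hz⟩ := hb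
  exact ⟨z, (F'.mem_S F).1 z.2, by rw [← hz, phi_apply, add_add_self]⟩

theorem β_eq_zero_of_mem_S (F : Fr P e) (F' : Fr P e') (hd : Dis e e') {w : W} (hw : e' w ∈ F.M)
    (hw0 : w ≠ 0) {b c : W} (hb : b ∈ F.S F') (hc : c ∈ F.S F') : P.β b c = 0 := by
  rw [← F.orth_eq F' hd hw hw0] at hc
  exact P.eg_mem_orth.1 hc b hb

theorem exists_pair_act (F : Fr P e) (F' : Fr P e') (hd : Dis e e') (hW : finrank (ZMod 2) W = 4)
    {w : W} (hw : e' w ∈ F.M) (hw0 : w ≠ 0) {b b' : W} (hb : b ∈ F.S F') (hb' : b' ∈ F.S F')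
    (h0 : b ≠ 0) (h0' : b' ≠ 0) (hne : b ≠ b') : ∃ z, z ≠ 0 ∧ e' z ∈ F.M ∧
      ∀ v, e' z * e v * (e' z)⁻¹ = e (v + P.β b v • b + P.β b' v • b') := by
  have hiso := fun {b c} => F.β_eq_zero_of_mem_S F' hd hw hw0 (b := b) (c := c)
  have hL : ∀ l ∈ F.S F', l = 0 ∨ l = b ∨ l = b' ∨ l = b + b' := fun l hl => by
    have h2 := (F.dim_eq F' hd hw hw0).1
    have hle : Submodule.span (ZMod 2) {b, b'} ≤ F.S F' :=
      Submodule.span_le.2 (by rintro x (rfl | rfl) <;> assumption)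
    have hli : LinearIndependent (ZMod 2) ![b, b'] := by
      rw [LinearIndependent.pair_iff]
      intro s t h
      rcases zmod2_cases s with rfl | rfl <;> rcases zmod2_cases t with rfl | rfl
      · exact ⟨rfl, rfl⟩
      · exact absurd (by simpa using h) h0'
      · exact absurd (by simpa using h) h0
      · exact absurd (add_eq_zero_iff'.1 (by simpa using h)) hne
    have h3 := finrank_span_eq_card hli
    rw [show Set.range ![b, b'] = {b, b'} by simp [Set.pair_comm], Fintype.card_fin] at h3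
    rw [← Submodule.eq_of_le_of_finrank_eq hle (by omega), Submodule.mem_span_pair] at hl
    obtain ⟨s, t, rfl⟩ := hl
    rcases zmod2_cases s with rfl | rfl <;> rcases zmod2_cases t with rfl | rfl <;> simp
  obtain ⟨v1, h11, h12⟩ := P.exists_β_two h0 hne
  obtain ⟨v2, h22, h21⟩ := P.exists_β_two h0' hne.symm
  have hv1 : v1 ∉ F.S F' := fun h => by rw [hiso h hb] at h11; exact absurd h11 (by decide)
  have hv2 : v2 ∉ F.S F' := fun h => by rw [hiso h hb'] at h22; exact absurd h22 (by decide)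
  obtain ⟨z, hz, hz1⟩ := F.exists_ac_eq F' hd hw hw0 hv1 hb
  have hz0 : z ≠ 0 := by
    rintro rfl
    have : F.ac hz v1 = v1 := F.ac_eq _ (by rw [F'.zero]; group)
    rw [this] at hz1
    exact h0 (right_eq_add.1 hz1)
  have hn : F.ac hz v2 + v2 ∈ F.S F' := F.range_le F' hz hz0 ⟨v2, rfl⟩
  have hz2 : F.ac hz v2 = b' + v2 := by
    obtain ⟨n, hn'⟩ : ∃ n, n = F.ac hz v2 + v2 := ⟨_, rfl⟩
    rw [← hn'] at hn
    have e1 : F.ac hz v2 = n + v2 := by rw [hn', add_add_self]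
    have e2 := F.β_ac hz v1 v2
    rw [hz1, e1, P.β_add_left, P.β_add_right, P.β_add_right, hiso hb hn, P.β_comm b, h21, add_zero,
      zero_add, add_eq_right] at e2
    rcases hL n hn with rfl | rfl | rfl | rfl
    · exact absurd (F.mem_S_of_ac F' hz hz0 (by rw [e1, zero_add])) hv2
    · rw [h11] at e2; exact absurd e2 (by decide)
    · exact e1
    · rw [P.β_add_right, h11, h12] at e2; exact absurd e2 (by decide)
  refine ⟨z, hz0, hz, fun v => ?_⟩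
  have hl : v + P.β b v • v1 + P.β b' v • v2 ∈ F.S F' := by
    rw [← F.orth_eq F' hd hw hw0]
    have k1 : P.β b (v + P.β b v • v1 + P.β b' v • v2) = 0 := by
      rw [map_add, map_add, map_smul, map_smul, P.β_comm b v1, P.β_comm b v2, h11, h21, smul_zero,
        add_zero, smul_eq_mul, mul_one, zmod2_add_self]
    have k2 : P.β b' (v + P.β b v • v1 + P.β b' v • v2) = 0 := by
      rw [map_add, map_add, map_smul, map_smul, P.β_comm b' v1, P.β_comm b' v2, h12, h22, smul_zero,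
        add_zero, smul_eq_mul, mul_one, zmod2_add_self]
    refine P.eg_mem_orth.2 fun l hl => ?_
    rcases hL l hl with rfl | rfl | rfl | rfl
    · exact P.β_zero_left _
    · exact k1
    · exact k2
    · rw [P.β_add_left, k1, k2, add_zero]
  have e1 := F.ac_of_mem_S F' hd hz hl
  rw [map_add, map_add, map_smul, map_smul, hz1, hz2, smul_add, smul_add] at e1
  rw [F.ac_spec hz]
  congr 1
  calc F.ac hz v = F.ac hz v + (P.β b v • b + P.β b v • v1) + (P.β b' v • b' + P.β b' v • v2) +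
        (P.β b v • v1 + P.β b' v • v2) + (P.β b v • b + P.β b' v • b') := by
        calc _ = F.ac hz v + ((P.β b v • b + P.β b v • v1) + (P.β b' v • b' + P.β b' v • v2) +
            ((P.β b v • b + P.β b v • v1) + (P.β b' v • b' + P.β b' v • v2))) := by
              rw [add_self, add_zero]
          _ = _ := by abel
    _ = v + (P.β b v • v1 + P.β b' v • v2 + (P.β b v • v1 + P.β b' v • v2)) +
        (P.β b v • b + P.β b' v • b') := by rw [e1]; abel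
    _ = _ := by rw [add_self, add_zero, add_assoc]

variable [Finite G]

/-- an involution whose action `T` has characteristic vector `u` normalises no other frame -/
theorem SC.mem_M_of_char {F : Fr P e} (h : F.SC) {t : G} {T : W → W} {u c : W} (hu : u ≠ 0)
    (hc0 : c ≠ 0) (hcu : c ≠ u) (hTu : T u = u) (hTc : T c = c)
    (hT : ∀ v, P.β (T v) v = P.β u v) (ht : t * t = 1) (hc : ∀ v, t * e v * t⁻¹ = e (T v)) {g : G}
    (hg : g⁻¹ * t * g ∈ F.M) : g ∈ F.M := by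
  by_contra hgM
  obtain ⟨y, hy0, hy⟩ : ∃ y, y ≠ 0 ∧ Commute t (g * e y * g⁻¹) := by
    have key : ∀ y, F.ac hg y = y → Commute t (g * e y * g⁻¹) := fun y hy => by
      have := F.ac_spec hg y
      rw [hy] at this
      calc t * (g * e y * g⁻¹) = g * (g⁻¹ * t * g * e y * (g⁻¹ * t * g)⁻¹) * g⁻¹ * t := by group
        _ = _ := by rw [this]
    by_cases h0 : F.ac hg u = u
    · exact ⟨u, hu, key u h0⟩
    · refine ⟨F.ac hg u + u, fun h => h0 (add_eq_zero_iff'.1 h), key _ ?_⟩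
      have : F.ac hg (F.ac hg u) = u := F.ac_eq hg (by
        rw [← F.ac_spec hg]
        calc _ = g⁻¹ * (t * t) * g * e u * (g⁻¹ * (t * t) * g)⁻¹ := by group
          _ = e u := by rw [ht]; group)
      rw [map_add, this, add_comm]
  obtain ⟨σ, h1, h1'⟩ := h.exists_conj hgM hy0 hu
  obtain ⟨τ, h2, h2'⟩ := h.exists_conj hgM hy0 hc0
  have hcom : ∀ v, T v = v → Commute t (e v) := fun v hv => by
    have := hc v
    rw [hv] at this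
    exact mul_inv_eq_iff_eq_mul.1 this
  have hk : Commute t (τ⁻¹ * σ) := (h2' t (hcom c hTc) hy).inv_right.mul_right
    (h1' t (hcom u hTu) hy)
  have hku : τ⁻¹ * σ * e u * (τ⁻¹ * σ)⁻¹ = e c := by
    rw [show τ⁻¹ * σ * e u * (τ⁻¹ * σ)⁻¹ = τ⁻¹ * (σ * e u * σ⁻¹) * τ by group, h1, ← h2]; group
  generalize τ⁻¹ * σ = k at hk hku
  have hkM : k ∈ F.M := h k u hu (hku ▸ F.e_mem_M c)
  refine hcu (P.eq_of_β fun z => ?_)
  obtain ⟨v, hv⟩ := F.mem_M.1 (inv_mem hkM) z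
  have hz : F.ac hkM v = z := F.ac_eq _ (by rw [← hv]; group)
  have e1 : k * (t * e v * t⁻¹) * k⁻¹ = t * (k * e v * k⁻¹) * t⁻¹ := by
    calc k * (t * e v * t⁻¹) * k⁻¹ = (k * t) * e v * (k * t)⁻¹ := by group
      _ = _ := by rw [← hk.eq]; group
  rw [hc, F.ac_spec hkM, F.ac_spec hkM, hc, hz] at e1
  rw [← hT z, ← F.injective e1, ← F.ac_eq hkM hku, ← hz, F.β_ac, F.β_ac, hT]

theorem SC.mem_M_of_char_invol {F : Fr P e} (h : F.SC) {t : G} {T : W → W} {u c : W} (hu : u ≠ 0)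
    (hc0 : c ≠ 0) (hcu : c ≠ u) (hTu : T u = u) (hTc : T c = c)
    (hT : ∀ v, P.β (T v) v = P.β u v) (ht : t * t = 1) (hc : ∀ v, t * e v * t⁻¹ = e (T v))
    (g : G) : g ∈ F.M := by
  by_contra hg
  have htM : t ∈ F.M := fun v => ⟨_, hc v⟩
  have hy := (F.conj g).sq u
  have hcent : ∀ t' : G, t' * t' = 1 → (∀ v, t' * e v * t'⁻¹ = e (T v)) →
      ∀ k, Commute k t' → k ∈ F.M := fun t' h1 h2 k hk =>
    h.mem_M_of_char hu hc0 hcu hTu hTc hT h1 h2 (by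
      rw [mul_assoc, ← hk.eq, inv_mul_cancel_left]; exact fun v => ⟨_, h2 v⟩)
  rcases Nat.even_or_odd (orderOf (t * (g * e u * g⁻¹))) with he | ho
  · obtain ⟨w, hw1, hww, hwt, hwy, hcs⟩ := dih_even ht hy he
    have hwM : w ∈ F.M := hcent t ht hc w hwt
    rcases hcs with ⟨-, j, hj⟩ | ⟨⟨j, hj⟩, -⟩
    · have e1 : g⁻¹ * j * g * e u * (g⁻¹ * j * g)⁻¹ = g⁻¹ * w * g * e u := by
        calc _ = g⁻¹ * (j * (g * e u * g⁻¹) * j⁻¹) * g := by group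
          _ = _ := by rw [hj]; group
      have h1 : g⁻¹ * w * g ∈ F.M := F.mem_conj_M.1 ((F.conj g).mem_M_of_commute hu hwy)
      obtain ⟨z, hz⟩ := h.exists_eq hu (e1 ▸ mul_mem h1 (F.e_mem_M u))
      have hw : w = g * e (z + u) * g⁻¹ := by
        rw [F.add, ← hz, e1, mul_assoc _ (e u), F.sq]; group
      exact hg (h g (z + u) (fun h0 => hw1 (by rw [hw, h0, F.zero]; group)) (hw ▸ hwM))
    · have e1 : j * g * e u * (j * g)⁻¹ = w * t := by rw [← hj]; group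
      obtain ⟨z, hz⟩ := h.exists_eq hu (e1 ▸ mul_mem hwM htM)
      have hw : w = e z * t := by rw [← hz, e1, mul_assoc, ht, mul_one]
      refine hg (h g u hu (hcent w hww (fun v => ?_) _ hwy.symm))
      rw [hw, show e z * t * e v * (e z * t)⁻¹ = e z * (t * e v * t⁻¹) * (e z)⁻¹ by group, hc,
        F.conj_self]
  · obtain ⟨σ, h1, -⟩ := dih_odd ht hy ho
    have e1 : σ⁻¹ * g * e u * (σ⁻¹ * g)⁻¹ = t := by
      calc _ = σ⁻¹ * (g * e u * g⁻¹) * σ := by group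
        _ = t := by rw [← h1]; group
    obtain ⟨z, hz⟩ := h.exists_eq hu (e1 ▸ htM)
    obtain ⟨v, hv⟩ := P.exists_β_eq_one hu
    have := hc v
    rw [← e1, hz, F.conj_self] at this
    rw [← hT, ← F.injective this, P.alt] at hv
    exact absurd hv (by decide)

end Fr

namespace Pauli

variable (P : Pauli K V W)

theorem ss_conj {b b' : W} (h : P.β b b' = 0) (v : W) : ∃ c,
    P.s b * (P.s b')⁻¹ * P.ρ v * (P.s b * (P.s b')⁻¹)⁻¹ =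
      sc V c * P.ρ (v + P.β b v • b + P.β b' v • b') := by
  obtain ⟨c, hc⟩ := P.s_conj_ρ' b' (v + P.β v b' • b')
  rw [P.β_add_left, map_smul, LinearMap.smul_apply, P.alt, smul_zero, add_zero, add_add_self] at hc
  obtain ⟨d, hd⟩ := P.s_conj_ρ' b (v + P.β v b' • b')
  rw [P.β_add_left, map_smul, LinearMap.smul_apply, P.β_comm b' b, h, smul_zero, add_zero] at hd
  refine ⟨c⁻¹ * d, ?_⟩
  have e1 : (P.s b')⁻¹ * P.ρ v * P.s b' = sc V c⁻¹ * P.ρ (v + P.β v b' • b') := by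
    rw [map_inv, eq_inv_mul_iff_mul_eq, ← mul_assoc, ← mul_assoc, ← sc_comm, mul_assoc _ (sc V c),
      ← hc]
    group
  rw [show P.s b * (P.s b')⁻¹ * P.ρ v * (P.s b * (P.s b')⁻¹)⁻¹ =
    P.s b * ((P.s b')⁻¹ * P.ρ v * P.s b') * (P.s b)⁻¹ by group, e1, conj_sc_mul, hd, map_mul,
    mul_assoc, P.β_comm v, P.β_comm v, add_right_comm]

theorem ρ_mul_s (r b : W) : P.ρ r * P.s b =
    (if P.β r b = 0 then 1 else sc V P.i * P.ρ b) * P.s b * P.ρ r := by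
  split_ifs with h
  · rw [one_mul, (P.commute_ρ_s h).eq]
  · rw [← P.ρ_conj_s (zmod2_eq_one h), inv_mul_cancel_right]

theorem ρ_mul_s_one {r b : W} (h : P.β r b = 1) :
    P.ρ r * P.s b = sc V P.i * P.ρ b * P.s b * P.ρ r := by
  rw [← P.ρ_conj_s h, inv_mul_cancel_right]

theorem ρ_mul_s_inv_one {r b : W} (h : P.β r b = 1) :
    P.ρ r * (P.s b)⁻¹ = sc V P.i⁻¹ * P.ρ b * (P.s b)⁻¹ * P.ρ r := by
  have e : P.ρ r * (P.s b)⁻¹ * (P.ρ r)⁻¹ = (sc V P.i * P.ρ b * P.s b)⁻¹ := by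
    rw [← P.ρ_conj_s h]; group
  rw [← mul_inv_eq_iff_eq_mul, e, mul_inv_rev, mul_inv_rev, P.ρ_inv, ← map_inv, ← mul_assoc, sc_comm,
    mul_assoc, (P.commute_ρ_s (P.alt b)).inv_right.eq]

/-- an involution acting like `s b (s b')⁻¹` -/
theorem exists_eq_ss [Finite W] {a : V ≃ₗ[K] V} (ha : a * a = 1) {b b' : W} (h : P.β b b' = 0)
    (h0 : b ≠ 0) (h0' : b' ≠ 0) (hne : b ≠ b')
    (hc : ∀ v, ∃ c, a * P.ρ v * a⁻¹ = sc V c * P.ρ (v + P.β b v • b + P.β b' v • b')) :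
    ∃ c r, a = sc V c * (P.s b * (P.s b')⁻¹ * P.ρ r) ∧ P.β r b = 1 ∧ P.β r b' = 1 := by
  obtain ⟨c, r, hr⟩ := P.mem_R_of_forall (g := (P.s b * (P.s b')⁻¹)⁻¹ * a) fun v => by
    obtain ⟨c, hc⟩ := hc v
    obtain ⟨d, hd⟩ := P.ss_conj h v
    refine ⟨c * d⁻¹, ?_⟩
    have : P.ρ (v + P.β b v • b + P.β b' v • b') =
        sc V d⁻¹ * (P.s b * (P.s b')⁻¹ * P.ρ v * (P.s b * (P.s b')⁻¹)⁻¹) := by
      rw [hd, map_inv, inv_mul_cancel_left]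
    rw [show (P.s b * (P.s b')⁻¹)⁻¹ * a * P.ρ v * ((P.s b * (P.s b')⁻¹)⁻¹ * a)⁻¹ =
      (P.s b * (P.s b')⁻¹)⁻¹ * (a * P.ρ v * a⁻¹) * (P.s b * (P.s b')⁻¹)⁻¹⁻¹ by group, hc, this,
      conj_sc_mul, conj_sc_mul, map_mul]
    group
  have e : a = sc V c * (P.s b * (P.s b')⁻¹ * P.ρ r) := by
    rw [inv_mul_eq_iff_eq_mul] at hr
    rw [hr, ← mul_assoc, sc_comm, mul_assoc]
  refine ⟨c, r, e, ?_⟩
  have c1 := P.commute_s_s h
  have c2 := P.commute_ρ_s h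
  have c3 := P.commute_ρ_s ((P.β_comm b' b).trans h)
  have c4 := P.commute_ρ_s (P.alt b)
  have c5 := P.commute_ρ_s (P.alt b')
  have hss : P.s b * (P.s b')⁻¹ * (P.s b * (P.s b')⁻¹) = P.ρ b * P.ρ b' := by
    rw [mul_assoc, ← mul_assoc _ (P.s b), ← c1.inv_right.eq, ← P.s_mul_s b, ← P.ρ_inv b',
      ← P.s_mul_s b']
    group
  have key : ∀ (d : Kˣ) (x : V ≃ₗ[K] V), Commute x (P.s b * (P.s b')⁻¹) →
      P.ρ r * (P.s b * (P.s b')⁻¹) = sc V d * x * (P.s b * (P.s b')⁻¹) * P.ρ r →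
      ∃ d', x * (P.ρ b * P.ρ b') = sc V d' := fun d x hx e1 => by
    refine ⟨(c * c * d)⁻¹, ?_⟩
    rw [e, sc_mul_sc_mul, mul_assoc _ (P.ρ r), ← mul_assoc (P.ρ r), e1, mul_assoc _ (P.ρ r), P.sq,
      mul_one, mul_assoc (sc V d), ← mul_assoc _ (sc V d), sc_comm, mul_assoc (sc V d),
      ← mul_assoc _ x, ← hx.eq, mul_assoc x, hss, ← mul_assoc, ← map_mul] at ha
    rw [map_inv, eq_inv_of_mul_eq_one_right ha]
  obtain ⟨m, hm⟩ := P.mul b b'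
  rcases zmod2_cases (P.β r b) with h1 | h1 <;> rcases zmod2_cases (P.β r b') with h2 | h2
  · obtain ⟨d, hd⟩ := key 1 1 (Commute.one_left _) (by
      rw [map_one, one_mul, one_mul]
      exact ((P.commute_ρ_s h1).mul_right (P.commute_ρ_s h2).inv_right).eq)
    rw [one_mul, hm] at hd
    exact absurd (add_eq_zero_iff'.1 (P.eq_zero_of_sc_ρ hd)) hne
  · obtain ⟨d, hd⟩ := key P.i⁻¹ (P.ρ b') (c3.mul_right c5.inv_right) (by
      rw [← mul_assoc, (P.commute_ρ_s h1).eq, mul_assoc, P.ρ_mul_s_inv_one h2]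
      simp only [← mul_assoc]
      rw [sc_comm, mul_assoc (sc V _) (P.s b), ← c3.eq, ← mul_assoc])
    rw [(P.commute_ρ h).eq, ← mul_assoc, P.sq, one_mul] at hd
    exact absurd (P.eq_zero_of_sc_ρ (c := 1) (d := d) (by rw [map_one, one_mul]; exact hd)) h0
  · obtain ⟨d, hd⟩ := key P.i (P.ρ b) (c4.mul_right c2.inv_right) (by
      rw [← mul_assoc, P.ρ_mul_s_one h1, mul_assoc _ (P.ρ r), (P.commute_ρ_s h2).inv_right.eq]
      simp only [mul_assoc])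
    rw [← mul_assoc, P.sq, one_mul] at hd
    exact absurd (P.eq_zero_of_sc_ρ (c := 1) (d := d) (by rw [map_one, one_mul]; exact hd)) h0'
  · exact ⟨h1, h2⟩

omit P in
theorem eg_mul_sc_mul (g : V ≃ₗ[K] V) (c : Kˣ) (h : V ≃ₗ[K] V) :
    g * (sc V c * h) = sc V c * (g * h) := by rw [← mul_assoc, sc_comm, mul_assoc]

theorem ss_conj' {b b' : W} (h : P.β b b' = 0) (d : Kˣ) (z v : W) : ∃ c,
    sc V d * (P.s b * (P.s b')⁻¹ * P.ρ z) * P.ρ v * (sc V d * (P.s b * (P.s b')⁻¹ * P.ρ z))⁻¹ =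
      sc V c * P.ρ (v + P.β b v • b + P.β b' v • b') := by
  obtain ⟨c, hc⟩ := P.ss_conj h v
  refine ⟨sg K (P.β z v) * c, ?_⟩
  rw [show sc V d * (P.s b * (P.s b')⁻¹ * P.ρ z) * P.ρ v * (sc V d * (P.s b * (P.s b')⁻¹ * P.ρ z))⁻¹
    = sc V d * (P.s b * (P.s b')⁻¹ * (P.ρ z * P.ρ v * (P.ρ z)⁻¹) * (P.s b * (P.s b')⁻¹)⁻¹) *
      (sc V d)⁻¹ by group, P.conj_ρ, conj_sc_mul, hc, ← sc_comm, mul_inv_cancel_right, map_mul,
      mul_assoc]

theorem conj_s' {g : V ≃ₗ[K] V} {u w : W} {c : Kˣ} (h : g * P.ρ u * g⁻¹ = sc V c * P.ρ w) :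
    g * P.s u * g⁻¹ = P.s w ∨ g * P.s u * g⁻¹ = sc V P.i * P.ρ w * P.s w := by
  obtain ⟨a, w', ha⟩ := P.exists_sg_of_conj_mem (g := g) (u := u) ⟨c, w, h⟩
  obtain ⟨rfl, -⟩ := P.eq_of_sc_ρ (h.symm.trans ha)
  rcases zmod2_cases a with rfl | rfl
  · exact Or.inl (P.conj_s_pos (by rwa [sg_zero, map_one, one_mul] at ha))
  · exact Or.inr (P.conj_s_neg ha)

/-- the product of the two involutions -/
theorem ss_mul_ss {b₁ b₂ b₃ r₁ r₃ : W} (h12 : P.β b₁ b₂ = 0) (h23 : P.β b₂ b₃ = 0)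
    (h13 : P.β b₁ b₃ = 0) (h1 : P.β r₁ b₁ = 0) (h2 : P.β r₁ b₂ = 1) :
    P.s b₂ * (P.s b₃)⁻¹ * P.ρ r₁ * (P.s b₁ * (P.s b₂)⁻¹ * P.ρ r₃) =
      sc V P.i⁻¹ * (P.s b₁ * (P.s b₃)⁻¹ * P.ρ b₂ * (P.ρ r₁ * P.ρ r₃)) := by
  have c1 := (P.commute_s_s h12).eq
  have c2 := (P.commute_s_s h23).inv_right.eq
  have c3 := (P.commute_s_s h13).inv_right.eq
  have c4 := (P.commute_ρ_s (P.alt b₂)).eq
  calc _ = P.s b₂ * (P.s b₃)⁻¹ * (P.ρ r₁ * P.s b₁) * (P.s b₂)⁻¹ * P.ρ r₃ := by group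
    _ = P.s b₂ * ((P.s b₃)⁻¹ * P.s b₁) * (P.ρ r₁ * (P.s b₂)⁻¹) * P.ρ r₃ := by
      rw [(P.commute_ρ_s h1).eq]; group
    _ = (P.s b₂ * P.s b₁) * (P.s b₃)⁻¹ * sc V P.i⁻¹ * P.ρ b₂ * (P.s b₂)⁻¹ * P.ρ r₁ * P.ρ r₃ := by
      rw [P.ρ_mul_s_inv_one h2, ← c3]; group
    _ = sc V P.i⁻¹ * (P.s b₁ * (P.s b₂ * (P.s b₃)⁻¹) * P.ρ b₂ * (P.s b₂)⁻¹ * P.ρ r₁ * P.ρ r₃) := by
      rw [sc_comm, ← c1]; group
    _ = sc V P.i⁻¹ * (P.s b₁ * (P.s b₃)⁻¹ * (P.s b₂ * P.ρ b₂) * (P.s b₂)⁻¹ * P.ρ r₁ * P.ρ r₃) := by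
      rw [c2]; group
    _ = _ := by rw [← c4]; group

theorem ss_mul_ss' {b₁ b₂ b₃ r₁ r₃ : W} (h23 : P.β b₂ b₃ = 0) (h2 : P.β r₃ b₂ = 1)
    (h3 : P.β r₃ b₃ = 0) :
    P.s b₁ * (P.s b₂)⁻¹ * P.ρ r₃ * (P.s b₂ * (P.s b₃)⁻¹ * P.ρ r₁) =
      sc V P.i * (P.s b₁ * (P.s b₃)⁻¹ * P.ρ b₂ * (P.ρ r₃ * P.ρ r₁)) := by
  have c2 := (P.commute_ρ_s h23).inv_right.eq
  have c4 := (P.commute_ρ_s (P.alt b₂)).eq
  calc _ = P.s b₁ * (P.s b₂)⁻¹ * (P.ρ r₃ * P.s b₂) * (P.s b₃)⁻¹ * P.ρ r₁ := by group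
    _ = P.s b₁ * (P.s b₂)⁻¹ * sc V P.i * (P.ρ b₂ * P.s b₂) * (P.ρ r₃ * (P.s b₃)⁻¹) * P.ρ r₁ := by
      rw [P.ρ_mul_s_one h2]; group
    _ = sc V P.i * (P.s b₁ * (P.ρ b₂ * (P.s b₃)⁻¹) * P.ρ r₃ * P.ρ r₁) := by
      rw [sc_comm, c4, (P.commute_ρ_s h3).inv_right.eq]; group
    _ = _ := by rw [c2]; group

/-- the key computation for (E2) in dimension four -/
theorem exists_swap {X : Subgroup (V ≃ₗ[K] V)} (hX : P.H2 {u | u ≠ 0} X) {a₁ a₃ : V ≃ₗ[K] V}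
    {c₁ c₃ : Kˣ} {b₁ b₂ r₁ r₃ : W} (h12 : P.β b₁ b₂ = 0) (hb2 : b₂ ≠ 0) (hne : b₁ ≠ b₂)
    (e₁ : a₁ = sc V c₁ * (P.s b₂ * (P.s (b₁ + b₂))⁻¹ * P.ρ r₁))
    (e₃ : a₃ = sc V c₃ * (P.s b₁ * (P.s b₂)⁻¹ * P.ρ r₃)) (h12' : P.β r₁ b₂ = 1)
    (h13' : P.β r₁ (b₁ + b₂) = 1) (h31 : P.β r₃ b₁ = 1) (h32 : P.β r₃ b₂ = 1)
    (ha : a₃ * a₃ = 1) (hc : Commute a₁ a₃) :
    ∃ h ∈ X, Commute h a₃ ∧ ∃ c z, z ≠ 0 ∧ h * a₁ * h⁻¹ = sc V c * (a₁ * a₃ * P.ρ z) := by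
  obtain ⟨b₃, hb₃⟩ : ∃ b₃, b₃ = b₁ + b₂ := ⟨_, rfl⟩
  rw [← hb₃] at e₁ h13'
  have h23 : P.β b₂ b₃ = 0 := by rw [hb₃, P.β_add_right, P.β_comm b₂, h12, P.alt, add_zero]
  have h13 : P.β b₁ b₃ = 0 := by rw [hb₃, P.β_add_right, h12, P.alt, add_zero]
  have h11' : P.β r₁ b₁ = 0 := by
    rw [hb₃, P.β_add_right, h12'] at h13'
    exact add_eq_right.1 h13'
  have h33 : P.β r₃ b₃ = 0 := by rw [hb₃, P.β_add_right, h31, h32]; rfl
  have e13 : a₁ * a₃ = sc V (c₁ * c₃ * P.i⁻¹) *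
      (P.s b₁ * (P.s b₃)⁻¹ * P.ρ b₂ * (P.ρ r₁ * P.ρ r₃)) := by
    rw [e₁, e₃, sc_mul_sc_mul, P.ss_mul_ss h12 h23 h13 h11' h12', ← mul_assoc, ← map_mul]
  have hr : P.β r₁ r₃ = 1 := by
    refine zmod2_eq_one fun h0 => ?_
    have e31 := hc.eq
    rw [e13, e₁, e₃, sc_mul_sc_mul, P.ss_mul_ss' h23 h32 h33, ← mul_assoc (sc V (c₃ * c₁)),
      ← map_mul, (P.commute_ρ h0).eq] at e31
    have := P.sc_inj (mul_right_cancel e31)
    rw [mul_comm c₃, mul_right_inj, inv_eq_iff_mul_eq_one, P.i_sq] at this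
    exact neg_one_ne_one_of_two P.two this
  obtain ⟨c', hc'⟩ : ∃ c', c' = r₃ + b₃ := ⟨_, rfl⟩
  have hrc : P.β r₃ c' = 0 := by rw [hc', P.β_add_right, P.alt, h33, add_zero]
  have hr0 : r₃ ≠ 0 := by rintro rfl; rw [P.β_zero_left] at h31; exact absurd h31 (by decide)
  have hc2 : P.β c' b₂ = 1 := by rw [hc', P.β_add_left, h32, P.β_comm, h23, add_zero]
  have hc0 : c' ≠ 0 := by rintro rfl; rw [P.β_zero_left] at hc2; exact absurd hc2 (by decide)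
  obtain ⟨σ, hσ⟩ : ∃ σ, σ = a₃ * P.s r₃ * a₃⁻¹ := ⟨_, rfl⟩
  obtain ⟨d, z, hz, hσ'⟩ : ∃ d z, P.β z c' = 0 ∧ P.β z r₃ = 0 ∧ P.β z b₃ = 0 ∧
      σ = sc V d * ((P.s c')⁻¹ * P.ρ z) := by
    obtain ⟨c, hc⟩ := P.ss_conj' h12 c₃ r₃ r₃
    rw [← e₃, P.β_comm b₁, P.β_comm b₂, h31, h32, one_smul, one_smul, add_assoc, ← hb₃,
      ← hc'] at hc
    rcases P.conj_s' hc with h | h
    · refine ⟨1, c', P.alt _, (P.β_comm _ _).trans hrc, ?_, ?_⟩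
      · rw [hc', P.β_add_left, h33, P.alt, add_zero]
      · rw [hσ, h, ← P.s_mul_s, map_one, one_mul, inv_mul_cancel_left]
    · exact ⟨P.i, 0, P.β_zero_left _, P.β_zero_left _, P.β_zero_left _, by
        rw [hσ, h, P.zero, mul_one, P.s_inv, mul_assoc]⟩
  obtain ⟨hz1, hz2, hσ'⟩ := hσ'
  have eh : P.s r₃ * σ = sc V d * (P.s r₃ * (P.s c')⁻¹ * P.ρ z) := by
    rw [hσ', ← mul_assoc, sc_comm]; group
  have hcσ : Commute (P.s r₃) σ := by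
    rw [hσ']
    exact (commute_sc _ _).mul_right ((P.commute_s_s hrc).inv_right.mul_right
      (P.commute_ρ_s hz1).symm)
  refine ⟨P.s r₃ * σ, ?_, ?_, ?_⟩
  · rw [eh]
    exact mul_mem (hX.1 (P.sc_mem_R _)) (mul_mem (hX.2 _ hr0 _ hc0) (hX.1 (P.ρ_mem_R _)))
  · have h1 : a₃ * σ * a₃⁻¹ = P.s r₃ := by
      rw [hσ, show a₃ * (a₃ * P.s r₃ * a₃⁻¹) * a₃⁻¹ = (a₃ * a₃) * P.s r₃ * (a₃ * a₃)⁻¹ by group, ha]
      group
    refine (mul_inv_eq_iff_eq_mul.1 ?_ : Commute a₃ _).symm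
    rw [show a₃ * (P.s r₃ * σ) * a₃⁻¹ = a₃ * P.s r₃ * a₃⁻¹ * (a₃ * σ * a₃⁻¹) by group, h1, ← hσ,
      hcσ.eq]
  · obtain ⟨m, hm⟩ := P.ss_conj' hrc d z b₂
    obtain ⟨n, hn⟩ := P.ss_conj' hrc d z r₁
    rw [← eh, h32, hc2, one_smul, one_smul, hc', add_assoc, self_add_add, hb₃, add_comm b₁,
      self_add_add] at hm
    rw [← eh, P.β_comm r₃, hr, hc', P.β_add_left, P.β_comm r₃, P.β_comm b₃, hr, h13',
      zmod2_add_self, one_smul, zero_smul, add_zero] at hn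
    have h3 : Commute (P.s r₃ * σ) (P.s b₃) := by
      rw [eh]
      refine (commute_sc _ _).symm.mul_left (((P.commute_s_s h33).mul_left
        (P.commute_s_s ?_).inv_left).mul_left (P.commute_ρ_s hz2))
      rw [hc', P.β_add_left, h33, P.alt, add_zero]
    generalize P.s r₃ * σ = h at hm hn h3
    have e : h * a₁ * h⁻¹ = sc V c₁ * (h * P.s b₂ * h⁻¹ * (P.s b₃)⁻¹ * (h * P.ρ r₁ * h⁻¹)) := by
      rw [e₁, conj_sc_mul, show h * (P.s b₂ * (P.s b₃)⁻¹ * P.ρ r₁) * h⁻¹ =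
        h * P.s b₂ * h⁻¹ * (h * (P.s b₃)⁻¹ * h⁻¹) * (h * P.ρ r₁ * h⁻¹) by group, h3.inv_right.eq,
        mul_inv_cancel_right]
    have key : ∀ (j : Kˣ) (y : W), y ≠ b₂ → h * a₁ * h⁻¹ =
        sc V j * (P.s b₁ * (P.s b₃)⁻¹ * (P.ρ y * P.ρ (r₁ + r₃))) →
        ∃ c z, z ≠ 0 ∧ h * a₁ * h⁻¹ = sc V c * (a₁ * a₃ * P.ρ z) := fun j y hy hj => by
      obtain ⟨m1, hm1⟩ := P.mul y (r₁ + r₃)
      obtain ⟨m2, hm2⟩ := P.mul r₁ r₃
      obtain ⟨m3, hm3⟩ := P.mul b₂ (r₁ + r₃)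
      obtain ⟨m4, hm4⟩ := P.mul (b₂ + (r₁ + r₃)) (y + b₂)
      have e4 : b₂ + (r₁ + r₃) + (y + b₂) = y + (r₁ + r₃) := by
        calc _ = y + (r₁ + r₃) + b₂ + b₂ := by abel
          _ = _ := add_add_self _ _
      refine ⟨j * m1 * (c₁ * c₃ * P.i⁻¹ * m2 * m3 * m4)⁻¹, y + b₂,
        fun h0 => hy (add_eq_zero_iff'.1 h0), ?_⟩
      have : a₁ * a₃ * P.ρ (y + b₂) = sc V (c₁ * c₃ * P.i⁻¹ * m2 * m3 * m4) *
          (P.s b₁ * (P.s b₃)⁻¹ * P.ρ (y + (r₁ + r₃))) := by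
        rw [e13, hm2, mul_assoc _ (P.ρ b₂), eg_mul_sc_mul, hm3, eg_mul_sc_mul _ m2,
          eg_mul_sc_mul _ m3, mul_assoc (sc V _), mul_assoc (sc V m2), mul_assoc (sc V m3),
          mul_assoc _ _ (P.ρ (y + b₂)), hm4, e4, eg_mul_sc_mul _ m4]
        simp only [map_mul, mul_assoc]
      rw [this, hj, hm1, ← mul_assoc (sc V (j * m1 * _)), ← map_mul, inv_mul_cancel_right, map_mul,
        mul_assoc (sc V j), ← mul_assoc (_ * _) (sc V m1), sc_comm, mul_assoc (sc V m1)]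
    rcases P.conj_s' hm with h2 | h2
    · refine key (c₁ * n) 0 hb2.symm ?_
      rw [e, h2, hn, P.zero, one_mul, ← mul_assoc (_ * _) (sc V n), sc_comm, map_mul]; group
    · refine key (c₁ * P.i * n) b₁ hne ?_
      rw [e, h2, hn, ← mul_assoc (_ * _) (sc V n), sc_comm, map_mul, map_mul,
        mul_assoc (sc V P.i) (P.ρ b₁), (P.commute_ρ_s (P.alt b₁)).eq, mul_assoc (sc V P.i),
        mul_assoc (P.s b₁), (P.commute_ρ_s h13).inv_right.eq, mul_assoc (sc V c₁),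
        mul_assoc (sc V c₁), mul_assoc (sc V P.i), ← eg_mul_sc_mul (sc V n) P.i]
      group

/-- **Endgame under (H2) for all nonzero vectors**, `dim W = 4`, finite `X`. -/
theorem endgame4' [Finite W] {X : Subgroup (V ≃ₗ[K] V)} [Finite X]
    (hW : finrank (ZMod 2) W = 4) (h : P.H2 {u | u ≠ 0} X) (hC : P.CentN X) : X ≤ P.N := by
  have F := P.fr h.1 hC
  have two : ∀ (S : Submodule (ZMod 2) W), finrank (ZMod 2) S = 2 →
      ∃ b ∈ S, ∃ b' ∈ S, b ≠ 0 ∧ b' ≠ 0 ∧ b ≠ b' := fun S hS => by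
    obtain ⟨b, hb, hb0, -⟩ := eg_exists_ne_single (T := S) hS.ge 0
    obtain ⟨c, hc, hc0, hcb⟩ := eg_exists_ne_single (T := S) hS.ge b
    exact ⟨b, hb, c, hc, hb0, hc0, hcb.symm⟩
  have hsc : F.SC := by
    refine F.sc_of (by omega) (fun x d hx0 hd0 hxd _ => ?_) fun k hd w hw => ?_
    · obtain ⟨a, ha, ha'⟩ := P.exists_β_two hd0 hxd.symm
      have ha0 : a ≠ 0 := by rintro rfl; rw [P.β_zero_left] at ha; exact absurd ha (by decide)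
      have hxd' : P.β x d = 0 := ‹_›
      refine ⟨((⟨_, h.2 a ha0 x hx0⟩ : X) : X ⧸ Zs X), d + a, ?_, ?_, ?_⟩
      · have := P.ss_conj ha' x
        rw [ha', P.alt, zero_smul, zero_smul, add_zero, add_zero] at this
        exact (P.conj_eb_iff h.1 _ _ _).2 this
      · have := P.ss_conj ha' d
        rw [ha, hxd', one_smul, zero_smul, add_zero] at this
        exact (P.conj_eb_iff h.1 _ _ _).2 this
      · rw [P.β_add_left, P.alt, ha, zero_add]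
    · by_contra hw0
      obtain ⟨k, rfl⟩ := QuotientGroup.mk_surjective k
      have F' := F.conj (k : X ⧸ Zs X)
      have hdim := (F.dim_eq F' hd hw hw0).1
      obtain ⟨b₁, hb₁, b₂, hb₂, h1, h2, hne⟩ := two (F.S F') (by omega)
      have h12 := F.β_eq_zero_of_mem_S F' hd hw hw0 hb₁ hb₂
      have hb₃ := add_mem hb₁ hb₂
      have h3 : b₁ + b₂ ≠ 0 := fun h0 => hne (add_eq_zero_iff'.1 h0)
      have hne' : b₂ ≠ b₁ + b₂ := fun h0 => h1 (right_eq_add.1 h0)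
      obtain ⟨w₃, hw₃, hM₃, hc₃⟩ := F.exists_pair_act F' hd hW hw hw0 hb₁ hb₂ h1 h2 hne
      obtain ⟨w₁, hw₁, hM₁, hc₁⟩ := F.exists_pair_act F' hd hW hw hw0 hb₂ hb₃ h2 h3 hne'
      have hβ : P.β w₁ w₃ = 0 := F'.β_eq_zero_of_mem_S F (hd.symm' F F') hb₁ h1 hM₁ hM₃
      let a : W → X := fun w => k * ⟨P.ρ w, h.1 (P.ρ_mem_R w)⟩ * k⁻¹
      have ha : ∀ w, (k : X ⧸ Zs X) * P.eb h.1 w * (k : X ⧸ Zs X)⁻¹ = a w := fun w => rfl
      have ha1 : ∀ w, (a w).1 = k.1 * P.ρ w * k.1⁻¹ := fun w => rfl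
      have hsq : ∀ w, (a w).1 * (a w).1 = 1 := fun w => by
        rw [ha1, show k.1 * P.ρ w * k.1⁻¹ * (k.1 * P.ρ w * k.1⁻¹) = k.1 * (P.ρ w * P.ρ w) * k.1⁻¹ by
          group, P.sq]
        group
      simp only [ha] at hc₁ hc₃
      obtain ⟨c₃, r₃, e₃, h31, h32⟩ := P.exists_eq_ss (hsq w₃) h12 h1 h2 hne
        fun v => (P.conj_eb_iff h.1 _ _ _).1 (hc₃ v)
      obtain ⟨c₁, r₁, e₁, h12', h13'⟩ := P.exists_eq_ss (hsq w₁)
        (F.β_eq_zero_of_mem_S F' hd hw hw0 hb₂ hb₃) h2 h3 hne'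
        fun v => (P.conj_eb_iff h.1 _ _ _).1 (hc₁ v)
      obtain ⟨g, hg, hcom, c, z, hz0, hz⟩ := P.exists_swap h h12 h2 hne e₁ e₃ h12' h13' h31 h32
        (hsq w₃) (by
          rw [ha1, ha1]
          exact (P.commute_ρ hβ).map (MulAut.conj k.1))
      have hM : ((⟨g, hg⟩ : X) : X ⧸ Zs X) ∈ F'.M := F'.mem_M_of_commute hw₃ (by
        rw [ha]
        exact (show Commute (⟨g, hg⟩ : X) (a w₃) from Subtype.ext hcom.eq).map
          (QuotientGroup.mk' (Zs X)))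
      obtain ⟨y, hy⟩ := F'.mem_M.1 hM w₁
      have e : ((⟨g, hg⟩ : X) : X ⧸ Zs X) * (a w₁ : X ⧸ Zs X) * ((⟨g, hg⟩ : X) : X ⧸ Zs X)⁻¹ =
          (a w₁ : X ⧸ Zs X) * (a w₃ : X ⧸ Zs X) * P.eb h.1 z := by
        rw [eb, ← QuotientGroup.mk_inv, ← QuotientGroup.mk_mul, ← QuotientGroup.mk_mul,
          ← QuotientGroup.mk_mul, ← QuotientGroup.mk_mul, mk_eq_iff]
        exact ⟨c, hz⟩
      rw [ha, e, ← ha, ← ha] at hy
      refine hz0 (hd z (w₁ + w₃ + y) ?_)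
      beta_reduce
      rw [F'.add, ← hy, ← F'.add, ← mul_assoc, F'.sq, one_mul]
  obtain ⟨b₁, -, hb₁, -⟩ := eg_exists_ne_single (T := (⊤ : Submodule (ZMod 2) W))
    (by rw [finrank_top]; omega) 0
  obtain ⟨b₂, hb₂, hne, h12⟩ := P.eg_exists_perp (by omega) b₁
  have h3 : b₁ + b₂ ≠ 0 := fun h0 => hne (add_eq_zero_iff'.1 h0).symm
  obtain ⟨r₁, hr₁, hr₁'⟩ := P.exists_β_two hb₁ hne.symm
  obtain ⟨r₂, hr₂, hr₂'⟩ := P.exists_β_two hb₂ hne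
  have h1 : P.β (r₁ + r₂) b₁ = 1 := by rw [P.β_add_left, hr₁, hr₂', add_zero]
  have h2 : P.β (r₁ + r₂) b₂ = 1 := by rw [P.β_add_left, hr₂, hr₁', zero_add]
  generalize r₁ + r₂ = r at h1 h2
  have h21 : P.β b₂ b₁ = 0 := (P.β_comm _ _).trans h12
  refine P.le_N_of_forall h.1 hC (hsc.mem_M_of_char_invol
    (t := ((⟨P.s b₁ * (P.s b₂)⁻¹ * P.ρ r, mul_mem (h.2 _ hb₁ _ hb₂) (h.1 (P.ρ_mem_R r))⟩ : X) :
      X ⧸ Zs X)) (T := fun v => v + P.β b₁ v • b₁ + P.β b₂ v • b₂) (c := b₁) h3 hb₁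
    (fun h0 => hb₂ (left_eq_add.1 h0)) ?_ ?_ (fun v => ?_) ?_ fun v => ?_)
  · simp only [P.β_add_right, P.alt, h12, h21, add_zero, zero_smul]
  · simp only [P.alt, h21, add_zero, zero_smul]
  · simp only [map_add, map_smul, LinearMap.add_apply, LinearMap.smul_apply, P.alt, smul_eq_mul,
      zmod2_mul_self, zero_add]
  · rw [← QuotientGroup.mk_mul, ← QuotientGroup.mk_one, mk_eq_iff]
    refine ⟨P.i * P.i⁻¹, ?_⟩
    change P.s b₁ * (P.s b₂)⁻¹ * P.ρ r * (P.s b₁ * (P.s b₂)⁻¹ * P.ρ r) = _ * 1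
    have c1 := (P.commute_s_s h12).inv_right.eq
    have c2 := (P.commute_ρ_s h12).inv_right.eq
    have c3 := (P.commute_ρ_s (P.alt b₁)).eq
    have c4 := (P.commute_ρ_s (P.alt b₂)).inv_right.eq
    calc _ = P.s b₁ * (P.s b₂)⁻¹ * (P.ρ r * P.s b₁) * (P.s b₂)⁻¹ * P.ρ r := by group
      _ = P.s b₁ * (P.s b₂)⁻¹ * sc V P.i * P.ρ b₁ * P.s b₁ * (P.ρ r * (P.s b₂)⁻¹) * P.ρ r := by
        rw [P.ρ_mul_s_one h1]; group
      _ = sc V P.i * (P.s b₁ * ((P.s b₂)⁻¹ * P.ρ b₁) * P.s b₁ * sc V P.i⁻¹) * P.ρ b₂ *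
          (P.s b₂)⁻¹ * (P.ρ r * P.ρ r) := by
        rw [P.ρ_mul_s_inv_one h2, sc_comm]; group
      _ = sc V P.i * sc V P.i⁻¹ * ((P.s b₁ * P.ρ b₁) * ((P.s b₂)⁻¹ * P.s b₁) *
          (P.ρ b₂ * (P.s b₂)⁻¹)) := by
        rw [sc_comm, ← c2, P.sq]; group
      _ = _ := by
        rw [← c1, ← c3, c4, ← P.s_inv, ← P.s_mul_s b₂, ← map_mul]
        group
  · have := P.ss_conj' h12 1 r v
    rw [map_one, one_mul] at this
    exact (P.conj_eb_iff h.1 _ _ _).2 this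

end Pauli

/-- **Endgame under (H2) for all nonzero vectors**, `dim W = 4`. -/
theorem endgame4 [Finite K] [FiniteDimensional K V] [Finite W] (P : Pauli K V W)
    (hW : finrank (ZMod 2) W = 4) {X : Subgroup (V ≃ₗ[K] V)} (h : P.H2 {u | u ≠ 0} X)
    (hC : P.CentN X) : X ≤ P.N :=
  haveI := eg_finite_linearEquiv (K := K) (V := V)
  P.endgame4' hW h hC

end Cfsg.Lib.Class.C6
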