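import Cfsg.Agent.Class.C6.Base
import Cfsg.Agent.Class.C6.Endgame4
import Cfsg.Agent.Class.C6.BridgeGL

/-! C6 for `r = 2`, linear and unitary types: the final matrix-level theorems. -/

namespace Cfsg.Lib.Class.C6
open Module Form Cfsg.Geo Asch
open scoped MatrixGroups

universe u
variable {F : Type u} [Field F]

theorem addSubgroup_eq_top_of_card_prime [Fintype F] {p : ℕ} (hp : p.Prime)
    (hF : Fintype.card F = p) (A : AddSubgroup F) (h1 : (1 : F) ∈ A) : A = ⊤ := by
  have : Fact p.Prime := ⟨hp⟩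
  have hc : Nat.card F = p := by rw [Nat.card_eq_fintype_card, hF]
  rcases A.eq_bot_or_eq_top_of_prime_card (hp := ⟨by rw [hc]; exact hp⟩) with h | h
  · rw [h, AddSubgroup.mem_bot] at h1
    exact absurd h1 one_ne_zero
  · exact h

theorem mem_of_fixed_of_prime [Fintype F] {q : ℕ} (hF : Fintype.card F = q ^ 2) (hq : q.Prime)
    (A : AddSubgroup F) (h1 : (1 : F) ∈ A) (a : F) (ha : frobq hF a = a) : a ∈ A := by
  have : Fact q.Prime := ⟨hq⟩
  have hc : CharP F q := by
    obtain ⟨p, hp, n, hpp, hn⟩ := FiniteField.card' F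
    have : q ∣ p ^ (n : ℕ) := by rw [← hn, hF]; exact dvd_pow_self q two_ne_zero
    have := (Nat.prime_dvd_prime_iff_eq hq hpp).1 (hq.dvd_of_dvd_pow this)
    subst this; exact hp
  have ha' : a ^ q = a := by simpa using ha
  have hb : a ∈ (⊥ : Subfield F) := (Subfield.mem_bot_iff_pow_eq_self F q).2 ha'
  rw [← Subfield.closure_empty] at hb
  rw [Subfield.closure_empty, mem_bot_iff_intCast q F] at hb
  obtain ⟨k, rfl⟩ := hb
  have := A.zsmul_mem h1 k
  simpa using this

variable {ι : Type} [Fintype ι] [DecidableEq ι]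

theorem isMaximalIn_SL_two [Fintype F] {p : ℕ} (hp : p.Prime) (hF : Fintype.card F = p)
    {R : Subgroup (GL ι F)} (hR : IsLinearSymplecticTypeData 2 R) {m : ℕ}
    (hn : Fintype.card ι = 2 ^ m) (hm : 2 ≤ m) :
    IsMaximalIn (specialLinear ι F) (subgroupNormalizer R ⊓ specialLinear ι F) := by
  have hK := addSubgroup_eq_top_of_card_prime hp hF
  rcases hm.eq_or_lt with rfl | hm
  · refine isMaximalIn_SL_four (fun W _ _ _ P hW X hX => ?_) hR hn
    exact (Pauli.centN_or_SLV hK hW hX).imp_left (endgame4 P hW hX)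
  · exact isMaximalIn_SL_of_PL (PL.two hK) hR hn hm

theorem isMaximalIn_SU_two [Fintype F] {q n : ℕ} (hF : Fintype.card F = q ^ 2) (hp : q.Prime)
    (hq : q % 4 = 3) {R : Subgroup (GL (Fin n) F)} (hR : IsSymplecticTypeGroup 2 R)
    (hirr : ActsAbsolutelyIrreducibly (matrixSet R)) (hRU : R ≤ GU n F q)
    (hZ : Nat.card (Subgroup.center R) = 4) {m : ℕ} (hn : n = 2 ^ m) (hm : 2 ≤ m) :
    IsMaximalIn (GU n F q ⊓ specialLinear (Fin n) F)
      (subgroupNormalizer R ⊓ (GU n F q ⊓ specialLinear (Fin n) F)) := by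
  have hK := mem_of_fixed_of_prime hF hp
  rcases hm.eq_or_lt with rfl | hm
  · subst hn
    refine isMaximalIn_SU_four hF hq (fun W _ _ _ P hρ hi hW X hXH hX => ?_) hR hirr hRU hZ
    exact (Pauli.centN_or_SUV hK hW (herm_hermSesq hF 4) hρ hi hXH hX).imp_left
      (endgame4 P hW hX)
  · exact isMaximalIn_SU_of_PU hF hq (PU.two hK) hR hirr hRU hZ hn hm

end Cfsg.Lib.Class.C6
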