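import Cfsg.Agent.Class.C6.Quad
import Cfsg.Agent.Class.C6.Final

/-!
# Symplectic and orthogonal types: descent to the prime field
-/

set_option autoImplicit false
set_option linter.unusedSectionVars false

namespace Cfsg.Lib.Class.C6

open Module Form

variable {F V₀ K V W : Type*} [Field F] [AddCommGroup V₀] [Module F V₀] [Field K] [AddCommGroup V]
  [Module K V] [AddCommGroup W] [Module (ZMod 2) W]

/-- extension of scalars -/
structure BC (F V₀ K V : Type*) [Field F] [AddCommGroup V₀] [Module F V₀] [Field K]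
    [AddCommGroup V] [Module K V] where
  f : F →+* K
  j : V₀ →ₛₗ[f] V
  span : ∀ v, v ∈ Submodule.span K (Set.range j)
  ext : (V₀ ≃ₗ[F] V₀) →* (V ≃ₗ[K] V)
  ext_j : ∀ g v, ext g (j v) = j (g v)
  inj : Function.Injective j
  tr : ∀ g, ∃ a, LinearMap.trace K V (ext g : End K V) = f a
  rank : finrank K V = finrank F V₀

namespace BC

variable (b : BC F V₀ K V)

theorem induct {p : V → Prop} (h1 : ∀ v, p (b.j v)) (h2 : ∀ u v, p u → p v → p (u + v))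
    (h3 : ∀ (c : K) v, p v → p (c • v)) (v : V) : p v := by
  induction b.span v using Submodule.span_induction with
  | mem x hx => obtain ⟨u, rfl⟩ := hx; exact h1 u
  | zero => simpa using h1 0
  | add x y _ _ hx hy => exact h2 _ _ hx hy
  | smul c x _ hx => exact h3 _ _ hx

theorem ext_eq {g h : V ≃ₗ[K] V} (e : ∀ v, g (b.j v) = h (b.j v)) : g = h :=
  LinearEquiv.ext (b.induct e (fun u v hu hv => by rw [map_add, map_add, hu, hv])
    fun c v hv => by rw [map_smul, map_smul, hv])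

theorem ext_inj : Function.Injective b.ext := fun g h e =>
  LinearEquiv.ext fun v => b.inj (by rw [← b.ext_j, ← b.ext_j, e])

theorem ext_sg (a : ZMod 2) : b.ext (sc V₀ (sg F a)) = sc V (sg K a) := b.ext_eq fun v => by
  rcases zmod2_cases a with rfl | rfl <;> simp [b.ext_j]

theorem ext_neg : b.ext (sc V₀ (-1)) = sc V (-1) := by simpa using b.ext_sg 1

theorem commute_iff {g h : V₀ ≃ₗ[F] V₀} : Commute (b.ext g) (b.ext h) ↔ Commute g h :=
  ⟨fun e => b.ext_inj (by rw [map_mul, map_mul, e.eq]), fun e => e.map _⟩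

end BC

/-- `1 + x` for a square root `x` of `-1` -/
def tau (h2 : (2 : F) ≠ 0) (x : V₀ ≃ₗ[F] V₀) (hx : ∀ v, x (x v) = -v) : V₀ ≃ₗ[F] V₀ where
  toFun v := v + x v
  invFun v := (2 : F)⁻¹ • (v - x v)
  map_add' u v := by simp only [map_add]; module
  map_smul' c v := by simp only [map_smul, RingHom.id_apply]; module
  left_inv v := by
    simp only [map_add, hx]
    match_scalars <;> field_simp <;> ring
  right_inv v := by
    simp only [map_smul, map_sub, hx]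
    match_scalars <;> field_simp <;> ring

theorem Pauli.exists_finrank [FiniteDimensional K V] [Finite W] (P : Pauli K V W) :
    ∃ m, finrank (ZMod 2) W = 2 * m ∧ finrank K V = 2 ^ m := by
  have h := P.finrank_sq
  obtain ⟨m, -, hm⟩ := (Nat.dvd_prime_pow Nat.prime_two).1 (h ▸ dvd_pow_self _ two_ne_zero)
  rw [hm, ← pow_mul'] at h
  exact ⟨m, (Nat.pow_right_injective le_rfl h).symm, hm⟩

theorem Pauli.IsForm.isQuad {P : Pauli K V W} {Q : W → ZMod 2} {B : V →ₗ[K] V →ₗ[K] K}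
    (h : P.IsForm Q B) (hB : B ≠ 0) : P.IsQuad Q := fun u v => by
  obtain ⟨x, y, hxy⟩ : ∃ x y, B x y ≠ 0 := by
    by_contra! hc
    exact hB (LinearMap.ext fun x => LinearMap.ext (hc x))
  obtain ⟨c, hc, e⟩ : ∃ c : Kˣ, (c : K) * c = sg K (P.β u v) ∧
      P.ρ u * P.ρ v = sc V c * P.ρ (u + v) := by
    rcases zmod2_cases (P.β u v) with e | e
    · obtain ⟨a, ha⟩ := P.mul_of_β_zero e
      exact ⟨_, by rw [e, sg_val_mul_self]; rfl, ha⟩
    · obtain ⟨a, ha⟩ := P.mul_of_β_one e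
      exact ⟨_, by
        rw [e, Units.val_mul, mul_mul_mul_comm, sg_val_mul_self, P.i_mul_i]; simp, ha⟩
  have h1 := h u (P.ρ v x) (P.ρ v y)
  rw [h v, ← LinearEquiv.mul_apply, ← LinearEquiv.mul_apply, e] at h1
  simp only [LinearEquiv.mul_apply, sc_apply, map_smul, LinearMap.smul_apply, smul_eq_mul,
    h (u + v), ← mul_assoc, hc] at h1
  have h2 := sg_injective P.two (a₁ := P.β u v + Q (u + v)) (a₂ := Q u + Q v)
    (Units.ext (by rw [sg_add, sg_add]; exact mul_right_cancel₀ hxy h1))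
  rw [← h2, add_right_comm, zmod2_add_self, zero_add]

theorem Pauli.cube (P : Pauli K V W) {a b : W} (h : P.β a b = 1) :
    P.s a * (P.s b)⁻¹ * (P.s a * (P.s b)⁻¹) * (P.s a * (P.s b)⁻¹) = sc V (-1) := by
  have h1 := P.two_α_mul
  have h2 := P.α_sq_add
  have h3 := P.two
  have e : ∀ v, (P.s a * (P.s b)⁻¹) ((P.s a * (P.s b)⁻¹) v) = (P.s a * (P.s b)⁻¹) v - v := fun v => by
    simp only [LinearEquiv.mul_apply, P.s_apply, P.s_inv_apply, map_add, map_smul, P.ρ_ρ,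
      P.ρ_ρ_comm b a, P.β_comm b a, h, sg_one, Units.val_neg, Units.val_one]
    match_scalars <;> grind
  ext v
  rw [LinearEquiv.mul_apply, LinearEquiv.mul_apply, e, e]
  simp

theorem det_eq_one_of_unip [Finite K] {k : V ≃ₗ[K] V} (h : ∀ v, k (k v - v) = k v - v) :
    LinearEquiv.det k = 1 := by
  have := Fintype.ofFinite K
  have h1 : ∀ n : ℕ, ∀ v, (k ^ n) v = v + (n : K) • (k v - v) := fun n v => by
    induction n with
    | zero => simp
    | succ n ih => rw [pow_succ', LinearEquiv.mul_apply, ih, map_add, map_smul, h]; push_cast; module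
  have h2 : k ^ Fintype.card K = 1 := LinearEquiv.ext fun v => by simp [h1]
  refine Units.ext ?_
  rw [← FiniteField.pow_card (LinearEquiv.det k : K), ← Units.val_pow_eq_pow_val, ← map_pow, h2,
    map_one]

theorem Pauli.resX_scMul (P : Pauli K V W) (X : Subgroup (V ≃ₗ[K] V)) (u : W) (ε : ZMod 2) :
    P.resX (scMul X) u ε ≤ scMul (P.resX X u ε) := by
  rintro k ⟨_, ⟨c, m, hm, rfl⟩, hc, e⟩
  have hc' : Commute m (P.ρ u) := by
    simpa using (commute_sc c⁻¹ _).symm.mul_left hc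
  exact ⟨c, _, P.resE_mem_resX ε hm hc', LinearEquiv.ext fun v => Subtype.ext (e v)⟩

theorem scMul_le_simG {σ : K →+* K} {B : V →ₛₗ[σ] V →ₗ[K] K} {X : Subgroup (V ≃ₗ[K] V)}
    (h : X ≤ isomGroup B) : scMul X ≤ simG B := by
  rintro _ ⟨c, k, hk, rfl⟩
  refine ⟨Units.map (σ : K →* K) c * c, fun x y => ?_⟩
  simp only [LinearEquiv.mul_apply, sc_apply, map_smulₛₗ, LinearMap.smul_apply, smul_eq_mul,
    RingHom.id_apply, mem_isomGroup.1 (h hk), Units.val_mul, Units.coe_map, MonoidHom.coe_coe]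
  ring

/-- the setting of the descent -/
structure Dsc (b : BC F V₀ K V) (P : Pauli K V W) (Q : W → ZMod 2) (B₀ : V₀ →ₗ[F] V₀ →ₗ[F] F)
    (B : V →ₗ[K] V →ₗ[K] K) (R G : Subgroup (V₀ ≃ₗ[F] V₀)) : Prop where
  frm : ∀ u v, B (b.j u) (b.j v) = b.f (B₀ u v)
  ne : B ≠ 0
  ov : P.Over (R.map b.ext)
  form : P.IsForm Q B
  hR : R ≤ isomGroup B₀
  hG : G ≤ isomGroup B₀
  dim : 4 ≤ finrank (ZMod 2) W
  sq : G = isomGroup B₀ ∨ 5 ≤ finrank (ZMod 2) W ∧ ∀ g ∈ isomGroup B₀, g * g ∈ G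

theorem BC.isom (b : BC F V₀ K V) {B₀ : V₀ →ₗ[F] V₀ →ₗ[F] F} {B : V →ₗ[K] V →ₗ[K] K}
    (frm : ∀ u v, B (b.j u) (b.j v) = b.f (B₀ u v)) {g : V₀ ≃ₗ[F] V₀} (hg : g ∈ isomGroup B₀) :
    b.ext g ∈ isomGroup B := fun u v => by
  refine b.induct (p := fun u => B (b.ext g u) (b.ext g v) = B u v) (fun u => ?_)
    (fun _ _ h h' => by simp [h, h']) (fun _ _ h => by simp [h]) u
  refine b.induct (p := fun v => B (b.ext g (b.j u)) (b.ext g v) = B (b.j u) v) (fun v => ?_)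
    (fun _ _ h h' => by simp [h, h']) (fun _ _ h => by simp [h]) v
  simp only [b.ext_j, frm, mem_isomGroup.1 hg]

theorem BC.exists_isForm (b : BC F V₀ K V) {P : Pauli K V W} {B₀ : V₀ →ₗ[F] V₀ →ₗ[F] F}
    {B : V →ₗ[K] V →ₗ[K] K} (frm : ∀ u v, B (b.j u) (b.j v) = b.f (B₀ u v))
    {R : Subgroup (V₀ ≃ₗ[F] V₀)} (hR : R ≤ isomGroup B₀) (h : P.Over (R.map b.ext)) :
    ∃ Q, P.IsForm Q B := by
  have : ∀ u, ∃ a, ∀ x y, B (P.ρ u x) (P.ρ u y) = sg K a * B x y := fun u => by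
    obtain ⟨_, ⟨x, hx, rfl⟩, e | e⟩ := h.lift u
    · exact ⟨0, fun y z => by simp [e, mem_isomGroup.1 (b.isom frm (hR hx))]⟩
    · exact ⟨1, fun y z => by
        simp [e, mem_isomGroup.1 (b.isom frm (hR hx)), ← mul_assoc, P.i_mul_i]⟩
  choose Q hQ using this
  exact ⟨Q, hQ⟩

/-- what is left of a proper overgroup of the normaliser -/
structure Big (B₀ : V₀ →ₗ[F] V₀ →ₗ[F] F) (M : Subgroup (V₀ ≃ₗ[F] V₀)) (θ : V₀ ≃ₗ[F] V₀) : Prop where
  mem : θ ∈ M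
  sq : ∀ v, θ (θ v) = -v
  unip : ∀ T ∈ isomGroup B₀, Commute T θ → (∀ v, T (T v - v) = T v - v) → T ∈ M
  invol : finrank F V₀ = 8 → ∀ T ∈ isomGroup B₀, Commute T θ → T * T = 1 → T ∈ M
  swap : ∃ s ∈ M, ∀ v, s (θ v) = -θ (s v)
  far : ∃ g ∈ M, ¬ Commute (g * θ * g⁻¹) θ

/-- the linear or unitary tower applies to the fixed spaces -/
def Tw (b : BC F V₀ K V) (P : Pauli K V W) (B₀ : V₀ →ₗ[F] V₀ →ₗ[F] F) : Prop :=
  ∀ M ≤ isomGroup B₀, ∀ x y (hy : P.β x y = 1), (P.res hy 0).H1 (P.resX (scMul (M.map b.ext)) x 0) →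
    ∀ a ≠ 0, sc _ (-P.i) * (P.res hy 0).ρ a ∈ P.resX (M.map b.ext) x 0 →
    P.resX (scMul (M.map b.ext)) x 0 ≤ (P.res hy 0).N ∨ ∀ T ∈ isomGroup B₀,
      ∀ hc : Commute (b.ext T) (P.ρ x), LinearEquiv.det (P.resE 0 _ hc) = 1 →
        P.resE 0 _ hc ∈ P.resX (M.map b.ext) x 0

namespace Dsc

variable {b : BC F V₀ K V} {P : Pauli K V W} {Q : W → ZMod 2} {B₀ : V₀ →ₗ[F] V₀ →ₗ[F] F}
  {B : V →ₗ[K] V →ₗ[K] K} {R G M : Subgroup (V₀ ≃ₗ[F] V₀)}

theorem quad (h : Dsc b P Q B₀ B R G) : P.IsQuad Q := h.form.isQuad h.ne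

theorem two (_ : Dsc b P Q B₀ B R G) : (2 : F) ≠ 0 := fun e =>
  P.two (by rw [← map_ofNat b.f, e, map_zero])

theorem eq_one_of_isom (h : Dsc b P Q B₀ B R G) {c : Kˣ} (hc : sc V c ∈ isomGroup B) :
    c * c = 1 := by
  obtain ⟨x, y, hxy⟩ : ∃ x y, B x y ≠ 0 := by
    by_contra! hc
    exact h.ne (LinearMap.ext fun x => LinearMap.ext (hc x))
  have := hc x y
  simp only [sc_apply, map_smul, LinearMap.smul_apply, smul_eq_mul, ← mul_assoc] at this
  exact Units.ext (mul_right_cancel₀ hxy (by simpa using this))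

theorem lift (h : Dsc b P Q B₀ B R G) (u : W) :
    ∃ x ∈ R, P.ρ u = sc V (if Q u = 0 then 1 else P.i) * b.ext x := by
  obtain ⟨_, ⟨x, hx, rfl⟩, e⟩ := h.ov.lift u
  have h1 := b.isom h.frm (h.hR hx)
  refine ⟨x, hx, ?_⟩
  have hi : P.i * P.i ≠ 1 := by rw [P.i_sq]; exact neg_one_ne_one_of_two P.two
  split_ifs with hu
  · rw [map_one, one_mul]
    refine e.resolve_right fun e => hi (h.eq_one_of_isom ?_)
    rw [eq_mul_inv_of_mul_eq e.symm]
    exact mul_mem (fun y z => by simpa [hu] using h.form u y z) (inv_mem h1)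
  · refine e.resolve_left fun e => hi (h.eq_one_of_isom fun y z => ?_)
    have := h.form u y z
    rw [e, mem_isomGroup.1 h1, zmod2_eq_one hu] at this
    simpa [← mul_assoc, P.i_mul_i] using this.symm

theorem lift_one (h : Dsc b P Q B₀ B R G) {u : W} (hu : Q u = 1) :
    ∃ x ∈ R, P.ρ u = sc V P.i * b.ext x ∧ x * x = sc V₀ (-1) := by
  obtain ⟨x, hx, e⟩ := h.lift u
  rw [hu, if_neg one_ne_zero] at e
  refine ⟨x, hx, e, b.ext_inj ?_⟩
  have := P.sq u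
  rw [e, sc_mul_sc_mul, P.i_sq] at this
  rw [map_mul, b.ext_neg, eq_inv_of_mul_eq_one_right this, ← map_inv]
  simp

theorem exists_tau (h : Dsc b P Q B₀ B R G) {u : W} (hu : Q u = 1) :
    ∃ t, P.s u = sc V (Units.mk0 _ P.α_ne_zero) * b.ext t ∧
      ∀ v w, B₀ (t v) (t w) = 2 * B₀ v w := by
  obtain ⟨x, hx, e, e'⟩ := h.lift_one hu
  have h1 : ∀ v, x (x v) = -v := fun v => by simpa using congrArg (fun g : V₀ ≃ₗ[F] V₀ => g v) e'
  refine ⟨tau h.two x h1, b.ext_eq fun v => ?_, fun v w => ?_⟩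
  · rw [P.s_apply, e, LinearEquiv.mul_apply, LinearEquiv.mul_apply, b.ext_j, b.ext_j, sc_apply,
      sc_apply, smul_smul, mul_comm, P.i_mul_α']
    exact (congrArg _ (map_add b.j v (x v))).trans (smul_add _ _ _) |>.symm
  · have h2 := h.hR hx v w
    have h3 := h.hR hx v (x w)
    change B₀ (v + x v) (w + x w) = _
    simp only [h1, map_neg] at h3
    simp only [map_add, LinearMap.add_apply, h2]
    linear_combination -h3

theorem exists_pair (h : Dsc b P Q B₀ B R G) {u w : W} (hu : Q u = 1) (hw : Q w = 1) :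
    ∃ g ∈ isomGroup B₀, b.ext g = P.s u * (P.s w)⁻¹ := by
  obtain ⟨t, e, ht⟩ := h.exists_tau hu
  obtain ⟨t', e', ht'⟩ := h.exists_tau hw
  refine ⟨t * t'⁻¹, fun x y => ?_, ?_⟩
  · have := ht' (t'⁻¹ x) (t'⁻¹ y)
    rw [apply_inv_apply, apply_inv_apply] at this
    exact (ht _ _).trans this.symm
  · rw [e, e', map_mul, map_inv, show ∀ c : Kˣ, ∀ g k : V ≃ₗ[K] V, sc V c * g * (sc V c * k)⁻¹ =
      sc V c * (g * k⁻¹) * (sc V c)⁻¹ from fun c g k => by group, ← sc_comm, mul_inv_cancel_right]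

theorem sq_mem (h : Dsc b P Q B₀ B R G) {g : V₀ ≃ₗ[F] V₀} (hg : g ∈ isomGroup B₀) : g * g ∈ G :=
  h.sq.elim (fun e => e ▸ mul_mem hg hg) fun e => e.2 g hg

variable [Finite W]

theorem mem_of_eq_sc (h : Dsc b P Q B₀ B R G) {g : V₀ ≃ₗ[F] V₀} (hg : g ∈ isomGroup B₀) {c : Kˣ}
    (e : b.ext g = sc V c) : g ∈ R ⊓ G := by
  obtain ⟨a, rfl⟩ := exists_sg_of_mul_self (h.eq_one_of_isom (e ▸ b.isom h.frm hg))
  obtain ⟨u, hu⟩ := h.quad.exists_one (by have := h.dim; omega)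
  obtain ⟨x, hx, -, e'⟩ := h.lift_one hu
  rw [b.ext_inj (e.trans (b.ext_sg a).symm)]
  rcases zmod2_cases a with rfl | rfl
  · simp
  · rw [sg_one, ← e']
    exact ⟨mul_mem hx hx, h.sq_mem (h.hR hx)⟩

theorem mem_normalizer (h : Dsc b P Q B₀ B R G) {g : V₀ ≃ₗ[F] V₀} (hg : g ∈ isomGroup B₀)
    (hN : b.ext g ∈ P.N) : g ∈ Subgroup.normalizer (R : Set (V₀ ≃ₗ[F] V₀)) := by
  have key : ∀ g ∈ isomGroup B₀, b.ext g ∈ P.N → ∀ r ∈ R, g * r * g⁻¹ ∈ R := fun g hg hN r hr => by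
    obtain ⟨c, _, ⟨x, hx, rfl⟩, e⟩ := h.ov.exists_eq (P.conj_mem_R hN (h.ov.le ⟨r, hr, rfl⟩))
    refine (R.mul_mem_cancel_right (inv_mem hx)).1 (h.mem_of_eq_sc (mul_mem (mul_mem (mul_mem hg
      (h.hR hr)) (inv_mem hg)) (inv_mem (h.hR hx))) (c := c) ?_).1
    rw [map_mul, map_mul, map_mul, map_inv, e, map_inv, mul_inv_cancel_right]
  refine Subgroup.mem_normalizer_iff.2 fun r => ⟨key g hg hN r, fun hr => ?_⟩
  simpa [mul_assoc] using key _ (inv_mem hg) (by rw [map_inv]; exact inv_mem hN) _ hr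

theorem pair_mem (h : Dsc b P Q B₀ B R G) {u w : W} (hu : Q u = 1) (hw : Q w = 1) :
    ∃ g ∈ Subgroup.normalizer (R : Set (V₀ ≃ₗ[F] V₀)) ⊓ G, b.ext g = P.s u * (P.s w)⁻¹ := by
  obtain ⟨g, hg, e⟩ := h.exists_pair hu hw
  refine ⟨g, ⟨h.mem_normalizer hg (e ▸ mul_mem (P.s_mem_N u) (inv_mem (P.s_mem_N w))), ?_⟩, e⟩
  rcases h.sq with e' | ⟨h5, -⟩
  · exact e' ▸ hg
  have key : ∀ u w, Q u = 1 → Q w = 1 → P.β u w = 1 →
      ∃ g ∈ G, b.ext g = P.s u * (P.s w)⁻¹ := fun u w hu hw huw => by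
    obtain ⟨g, hg, e⟩ := h.exists_pair hu hw
    refine ⟨g, (G.mul_mem_cancel_left (h.sq_mem hg)).1 (h.mem_of_eq_sc
      (mul_mem (mul_mem hg hg) hg) (c := -1) ?_).2, e⟩
    rw [map_mul, map_mul, e, P.cube huw]
  obtain ⟨c, hc, hcu, hcw⟩ : ∃ c, Q c = 1 ∧ P.β c u = 1 ∧ P.β c w = 1 := by
    obtain ⟨a, hau, haw⟩ : ∃ a, P.β a u = 1 ∧ P.β a w = 1 := by
      by_cases huw : u = w
      · obtain ⟨a, ha⟩ := P.exists_β_eq_one (h.quad.ne_zero hu)
        exact ⟨a, by rwa [P.β_comm], by rwa [P.β_comm, ← huw]⟩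
      obtain ⟨a, ha, ha'⟩ := P.exists_β_two (h.quad.ne_zero hu) huw
      obtain ⟨d, hd, hd'⟩ := P.exists_β_two (h.quad.ne_zero hw) (Ne.symm huw)
      exact ⟨a + d, by rw [P.β_add_left, ha, hd', add_zero], by
        rw [P.β_add_left, ha', hd, zero_add]⟩
    obtain ⟨c, hc, h1, h2⟩ := P.eg_exists_Q_eq_one h5 h.quad a u w
    exact ⟨c, hc, h1.trans hau, h2.trans haw⟩
  obtain ⟨k, hk, e1⟩ := key u c hu hc (by rwa [P.β_comm])
  obtain ⟨l, hl, e2⟩ := key c w hc hw hcw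
  rw [b.ext_inj (show b.ext g = b.ext (k * l) by rw [map_mul, e, e1, e2]; group)]
  exact mul_mem hk hl

theorem R_le (h : Dsc b P Q B₀ B R G) : R ≤ G := by
  rcases h.sq with e' | ⟨h5, -⟩
  · exact e' ▸ h.hR
  have key : ∀ u, ∃ x ∈ G, ∃ c, P.ρ u = sc V c * b.ext x := by
    refine h.quad.induct h.dim (fun a ha => ?_) ?_
    · obtain ⟨y, hy⟩ := P.exists_β_eq_one (h.quad.ne_zero ha)
      obtain ⟨c, hc, hcy, -⟩ := P.eg_exists_Q_eq_one h5 h.quad 0 y y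
      obtain ⟨g, hg, e⟩ := h.exists_pair ha hc
      obtain ⟨v, hv, e'⟩ := h.lift y
      have hv := h.hR hv
      refine ⟨v * g * v⁻¹ * g⁻¹, ?_, P.i⁻¹, ?_⟩
      · rw [show v * g * v⁻¹ * g⁻¹ = v * g * (v * g) * (g⁻¹ * v⁻¹ * g * (g⁻¹ * v⁻¹ * g)) *
          (g⁻¹ * g⁻¹) by group]
        exact mul_mem (mul_mem (h.sq_mem (mul_mem hv hg)) (h.sq_mem (mul_mem (mul_mem (inv_mem hg)
          (inv_mem hv)) hg))) (h.sq_mem (inv_mem hg))
      · rw [map_mul, map_mul, map_mul, map_inv b.ext v, map_inv b.ext g, ← sc_mul_conj, ← e', e,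
          show P.ρ y * (P.s a * (P.s c)⁻¹) * (P.ρ y)⁻¹ =
            P.ρ y * P.s a * (P.ρ y)⁻¹ * (P.ρ y * (P.s c)⁻¹ * (P.ρ y)⁻¹) by group,
          P.ρ_conj_s (by rwa [P.β_comm]),
          (P.commute_ρ_s (by simpa [P.β_comm y] using hcy)).inv_right.eq, map_inv]
        group
    · rintro u w ⟨x, hx, c, e⟩ ⟨y, hy, d, e'⟩
      obtain ⟨k, hk⟩ := P.mul u w
      exact ⟨x * y, mul_mem hx hy, k⁻¹ * (c * d), by
        rw [map_mul, map_mul b.ext, mul_assoc, ← sc_mul_sc_mul, ← e, ← e', hk, map_inv,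
          inv_mul_cancel_left]⟩
  intro r hr
  obtain ⟨c, u, e⟩ := h.ov.le ⟨r, hr, rfl⟩
  obtain ⟨x, hx, d, e'⟩ := key u
  refine (G.mul_mem_cancel_right (inv_mem hx)).1 (h.mem_of_eq_sc (mul_mem (h.hR hr)
    (inv_mem (h.hG hx))) (c := c * d) ?_).2
  rw [map_mul, map_inv, e, e', map_mul]
  group

theorem h2 (h : Dsc b P Q B₀ B R G) (hN : Subgroup.normalizer (R : Set (V₀ ≃ₗ[F] V₀)) ⊓ G ≤ M) :
    P.H2 {u | Q u = 1} (scMul (M.map b.ext)) := by
  refine ⟨?_, fun u hu w hw => ?_⟩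
  · intro g hg
    obtain ⟨c, _, ⟨x, hx, rfl⟩, rfl⟩ := h.ov.exists_eq hg
    exact ⟨c, _, ⟨x, hN ⟨Subgroup.le_normalizer hx, h.R_le hx⟩, rfl⟩, rfl⟩
  · obtain ⟨g, hg, e⟩ := h.pair_mem hu hw
    exact le_scMul _ ⟨g, hN hg, e⟩

theorem le_of_le_N (h : Dsc b P Q B₀ B R G) (hM : M ≤ G) (hN : scMul (M.map b.ext) ≤ P.N) :
    M ≤ Subgroup.normalizer (R : Set (V₀ ≃ₗ[F] V₀)) := fun g hg =>
  h.mem_normalizer (h.hG (hM hg)) (hN (le_scMul _ ⟨g, hg, rfl⟩))

omit [Finite W] in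
theorem qf (h : Dsc b P Q B₀ B R G) (hM : M ≤ G) : P.QF Q B (scMul (M.map b.ext)) :=
  ⟨h.quad, h.form, h.ne, scMul_le_simG (by
    rintro _ ⟨g, hg, rfl⟩
    exact b.isom h.frm (h.hG (hM hg)))⟩

omit [Finite W] in
theorem mem_of_res (h : Dsc b P Q B₀ B R G) (hM : M ≤ G) {x : W} (hx : Q x = 1) {T : V₀ ≃ₗ[F] V₀}
    (hT : T ∈ isomGroup B₀) (hc : Commute (b.ext T) (P.ρ x))
    (hm : P.resE 0 _ hc ∈ P.resX (M.map b.ext) x 0) : T ∈ M := by
  obtain ⟨_, ⟨m, hm, rfl⟩, hc', e⟩ := hm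
  have e0 : ∀ v ∈ P.Ve x 0, b.ext T v = b.ext m v := fun v hv => e ⟨v, hv⟩
  rw [b.ext_inj (P.ext_Ve x (Pauli.forall_of_add_one e0 fun v hv => sub_eq_zero.1
    (h.form.sep_right h.ne _ fun a => ?_)))]
  · exact hm
  obtain ⟨a, rfl⟩ := (b.ext m).surjective a
  obtain ⟨a0, h0, a1, h1, rfl⟩ := P.exists_add_Ve x a
  rw [map_add, map_add, LinearMap.add_apply, h.form.eq_zero_of_Ve (ε := 1) (δ := 0 + 1)
    (by rw [hx, zero_add]) (Pauli.map_mem_Ve hc' h1)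
    (sub_mem (Pauli.map_mem_Ve hc hv) (Pauli.map_mem_Ve hc' hv)), add_zero, map_sub,
    mem_isomGroup.1 (b.isom h.frm (h.hG (hM hm))), ← e0 _ h0, mem_isomGroup.1 (b.isom h.frm hT),
    sub_self]

variable [Finite K] [FiniteDimensional K V]

theorem le_or (h : Dsc b P Q B₀ B R G) (hT : Tw b P B₀)
    (hW : 8 ≤ finrank (ZMod 2) W ∨ 6 ≤ finrank (ZMod 2) W ∧ ∀ z y, P.β z y = 1 → Q z = 0 →
      ∀ v ∈ P.W1 z y, ∀ w ∈ P.W1 z y, Q v = 0 → Q w = 0 → P.β v w = 0 → v = 0 ∨ w = 0 ∨ v = w)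
    (hN : Subgroup.normalizer (R : Set (V₀ ≃ₗ[F] V₀)) ⊓ G ≤ M) (hM : M ≤ G) :
    M ≤ Subgroup.normalizer (R : Set (V₀ ≃ₗ[F] V₀)) ∨ ∃ θ, Big B₀ M θ := by
  have h6 : 6 ≤ finrank (ZMod 2) W := hW.elim (by omega) And.left
  have hRM : R ≤ M := fun x hx => hN ⟨Subgroup.le_normalizer hx, h.R_le hx⟩
  refine or_iff_not_imp_left.2 fun hc => ?_
  have h1 := mt ((h.qf hM).le_N (h.h2 hN) hW) fun e => hc (h.le_of_le_N hM e)
  push Not at h1
  obtain ⟨x, y, hy, hx, h1⟩ := h1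
  have hx0 := h.quad.ne_zero hx
  obtain ⟨θ, hθ, eθ, hθ2⟩ := h.lift_one hx
  have hcomm : ∀ {T}, Commute T θ ↔ Commute (b.ext T) (P.ρ x) := fun {T} => by
    rw [eθ, ← b.commute_iff]
    exact ⟨fun e => (commute_sc _ _).mul_right e, fun e => by
      simpa using (commute_sc P.i⁻¹ _).mul_right e⟩
  obtain ⟨a, ha, hax, hay⟩ : ∃ a : W, Q a = 1 ∧ P.β x a = 0 ∧ P.β y a = 0 := by
    obtain ⟨a, ha, h1, h2⟩ := P.eg_exists_Q_eq_one (by omega) h.quad 0 x y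
    exact ⟨a, ha, by simpa [P.β_comm x] using h1, by simpa [P.β_comm y] using h2⟩
  have hbig : ∀ T ∈ isomGroup B₀, ∀ hc : Commute (b.ext T) (P.ρ x),
      LinearEquiv.det (P.resE 0 _ hc) = 1 → T ∈ M := fun T hT' hc hd => by
    obtain ⟨k, hk, ek, -⟩ := h.lift_one ha
    refine h.mem_of_res hM hx hT' hc ((hT M (hM.trans h.hG) x y hy
      ((h.h2 hN).h1_res h.quad hx hy) ⟨a, hax, hay⟩
      (fun e => h.quad.ne_zero ha (congrArg Subtype.val e)) ⟨_, ⟨k, hRM hk, rfl⟩, ?_, fun v => ?_⟩).resolve_left h1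
      T hT' hc hd)
    · simpa [ek] using (commute_sc P.i⁻¹ _).symm.mul_left
        (P.commute_ρ (u := a) (w := x) (by rw [P.β_comm, hax]))
    · change ((-P.i : Kˣ) : K) • P.ρ a v = _
      rw [ek, LinearEquiv.mul_apply, sc_apply, smul_smul, Units.val_neg, neg_mul, P.i_mul_i]
      simp
  refine ⟨θ, hRM hθ, fun v => by simpa using congrArg (fun g : V₀ ≃ₗ[F] V₀ => g v) hθ2,
    fun T hT' hc e => hbig T hT' (hcomm.1 hc) ?_, fun h8 T hT' hc e => ?_, ?_, ?_⟩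
  · refine det_eq_one_of_unip fun v => Subtype.ext ?_
    exact b.induct (p := fun v => b.ext T (b.ext T v - v) = b.ext T v - v)
      (fun v => by rw [b.ext_j, ← map_sub, b.ext_j, e])
      (fun u v hu hv => by rw [map_add, add_sub_add_comm, map_add, hu, hv])
      (fun c v hv => by rw [map_smul, ← smul_sub, map_smul, hv]) v
  · obtain ⟨m, hm, hm'⟩ := P.exists_finrank
    rw [b.rank, h8] at hm'
    have h3 : m = 3 := (Nat.pow_right_injective le_rfl (show 2 ^ 3 = 2 ^ m from hm')).symm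
    have h4 := P.finrank_W1 hy
    obtain ⟨k, hk, ek⟩ := h.pair_mem ha hx
    have hkc : Commute (b.ext k) (P.ρ x) :=
      ek ▸ (P.commute_ρ_s hax).symm.mul_left (P.commute_ρ_s (P.alt x)).symm.inv_left
    have hk1 : LinearEquiv.det (P.resE 0 _ hkc) = -1 := by
      rw [show P.resE 0 _ hkc = (P.res hy 0).s ⟨a, hax, hay⟩ from
        LinearEquiv.ext fun v => Subtype.ext (by
          rw [Pauli.resE_apply, ek, LinearEquiv.mul_apply, P.s_inv_apply, P.mem_Ve_zero.1 v.2,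
            ← add_smul, add_comm, P.α_add, one_smul]; rfl),
        Pauli.det_s _ (m := 1) (by omega) fun e => h.quad.ne_zero ha (congrArg Subtype.val e),
        pow_one, pow_two]
      exact P.i_sq
    obtain ⟨d, hd⟩ := exists_sg_of_mul_self (c := LinearEquiv.det (P.resE 0 _ (hcomm.1 hc))) (by
      rw [← map_mul, ← Pauli.resE_mul, show P.resE 0 _ _ = 1 from LinearEquiv.ext fun v =>
        Subtype.ext (by rw [Pauli.resE_apply, ← map_mul, e, map_one]; rfl), map_one])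
    rcases zmod2_cases d with rfl | rfl
    · exact hbig T hT' _ hd
    · refine (M.mul_mem_cancel_left (hN hk)).1 (hbig _ (mul_mem (h.hG hk.2) hT')
        (by rw [map_mul]; exact hkc.mul_left (hcomm.1 hc)) ?_)
      simp only [map_mul]
      rw [Pauli.resE_mul 0 hkc (hcomm.1 hc), map_mul, hk1, hd]
      simp
  · obtain ⟨s, hs, e⟩ := h.lift y
    refine ⟨s, hRM hs, fun v => b.inj ?_⟩
    have := P.ρ_ρ_comm y x (b.j v)
    rw [P.β_comm, hy, e, eθ] at this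
    simp only [LinearEquiv.mul_apply, sc_apply, map_smul, b.ext_j, sg_one, Units.val_neg,
      Units.val_one, neg_smul, one_smul] at this
    rw [smul_comm, ← smul_neg, ← smul_neg] at this
    rw [map_neg]
    exact smul_right_injective _ (Units.ne_zero _) (smul_right_injective _ (Units.ne_zero _) this)
  · obtain ⟨c, hc, hcx, -⟩ := P.eg_exists_Q_eq_one (by omega) h.quad y x x
    rw [P.β_comm y, hy, P.β_comm] at hcx
    obtain ⟨g, hg, e⟩ := h.pair_mem hc ha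
    refine ⟨g, hN hg, fun hgc => ?_⟩
    have h2 : Commute (b.ext g * P.ρ x * (b.ext g)⁻¹) (P.ρ x) := by
      nth_rw 1 [eθ]
      rw [conj_sc_mul, ← map_inv, ← map_mul, ← map_mul]
      exact (commute_sc _ _).symm.mul_left (hcomm.1 hgc)
    obtain ⟨d, hd⟩ := P.ind_s_mul c a x
    rw [e, hd, LinearEquiv.mul_apply, P.tv_of_perp (a := a) (by rw [P.β_comm, hax]), P.tv_apply, hcx,
      one_smul] at h2
    have := P.β_eq_zero_of_commute (u := x + c) (w := x)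
      (by simpa using (commute_sc d⁻¹ _).symm.mul_left h2)
    rw [P.β_add_left, P.alt, P.β_comm, hcx] at this
    simp at this

end Dsc

end Cfsg.Lib.Class.C6
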