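import Cfsg.Agent.Class.C6.Coef

/-!
# Pauli systems of degree four: ovoids and the action on the span of five involutions
-/

set_option autoImplicit false
set_option linter.unusedSectionVars false

namespace Cfsg.Lib.Class.C6

open Module Cfsg.Lib.Class.Orth

variable {F K V W : Type*} [Field F] [Field K] [AddCommGroup V] [Module K V] [AddCommGroup W]
  [Module (ZMod 2) W]

section InC

variable {ι : Type*} [Fintype ι] [DecidableEq ι] {f : F →+* K} {γ : ι → V ≃ₗ[K] V}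

/-- `g` induces an isometry on the rational span of the `γ j` -/
def Rat (f : F →+* K) (γ : ι → V ≃ₗ[K] V) (g : V ≃ₗ[K] V) : Prop := ∃ φ, Act f γ g 0 φ

theorem Rat.mul {g h : V ≃ₗ[K] V} (hg : Rat f γ g) (hh : Rat f γ h) : Rat f γ (g * h) := by
  obtain ⟨φ, hφ⟩ := hg
  obtain ⟨ψ, hψ⟩ := hh
  exact ⟨_, by simpa using hφ.mul hψ⟩

theorem Rat.inv {g : V ≃ₗ[K] V} (hg : Rat f γ g) : Rat f γ g⁻¹ := by
  obtain ⟨φ, hφ⟩ := hg
  exact ⟨_, hφ.inv⟩

theorem Cl.rat_of_lie (h : Cl γ) {n : End K V}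
    (hn : ∀ j, ∃ w, n * γ j - γ j * n = clif f γ w) {e : F} (hnn : n * n = f e • 1) (he : e ≠ 1)
    {g : V ≃ₗ[K] V} {c : K} (hg : (g : End K V) = c • (1 + n)) : Rat f γ g := by
  have hn' : ∀ v, ∃ w, n * clif f γ v - clif f γ v * n = clif f γ w := fun v => by
    choose w hw using hn
    refine ⟨∑ k, v k • w k, ?_⟩
    simp only [clif_apply f γ v, map_sum, map_smulₛₗ, ← hw, Finset.mul_sum, Finset.sum_mul,
      ← Finset.sum_sub_distrib, mul_smul_comm, smul_mul_assoc, smul_sub]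
  refine h.exists_act fun j => ?_
  obtain ⟨w₁, h1⟩ := hn j
  obtain ⟨w₂, h2⟩ := hn' w₁
  refine ⟨(1 - e)⁻¹ • ((1 - e) • stdE F j + w₁ + (2 : F)⁻¹ • w₂), ?_⟩
  have h3 : ∀ x, n * (n * x) = f e • x := fun x => by rw [← mul_assoc, hnn, smul_mul_assoc, one_mul]
  have h4 : 1 - f e ≠ 0 := fun e' => he (f.injective (by rw [map_one]; linear_combination -e'))
  have h5 := h.two
  rw [hg, map_smulₛₗ, map_add, map_add, map_smulₛₗ, map_smulₛₗ, clif_stdE, ← h2, ← h1]
  simp only [map_inv₀, map_sub, map_one, map_ofNat, mul_add, add_mul, mul_sub, sub_mul,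
    mul_smul_comm, smul_mul_assoc, mul_assoc, h3, hnn, mul_one, one_mul]
  match_scalars <;> field_simp <;> ring

end InC

namespace Pauli

variable (P : Pauli K V W)

theorem IsQuad.zero {P : Pauli K V W} {q : W → ZMod 2} (h : P.IsQuad q) : q 0 = 0 := by
  have := h 0 0
  rwa [add_zero, P.alt, add_zero, zmod2_add_self] at this

/-- five mutually anticommuting elements: the singular points of an elliptic quadric -/
structure Ovoid (q : W → ZMod 2) (u : Fin 5 → W) : Prop where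
  quad : P.IsQuad q
  zero : ∀ j, q (u j) = 0
  one : ∀ j k, j ≠ k → P.β (u j) (u k) = 1
  cases : ∀ w, w = 0 ∨ (∃ j, w = u j) ∨ ∃ j k, j ≠ k ∧ w = u j + u k

/-- a symplectic basis of a space of dimension four -/
structure SBasis (x y e f : W) : Prop where
  xy : P.β x y = 1
  ef : P.β e f = 1
  xe : P.β x e = 0
  xf : P.β x f = 0
  ye : P.β y e = 0
  yf : P.β y f = 0
  span : ∀ w, w = P.β w y • x + P.β w x • y + P.β w f • e + P.β w e • f

theorem exists_sBasis [Finite W] (hW : finrank (ZMod 2) W = 4) {x y : W} (hy : P.β x y = 1) :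
    ∃ e f, P.SBasis x y e f := by
  obtain ⟨e, he, he0⟩ := P.exists_perp_notMem ![x, y] ⊥ (by simp [hW])
  obtain ⟨f', hf'⟩ := P.exists_β_eq_one (u := e) (by simpa using he0)
  obtain ⟨xf, yf⟩ := P.mem_W1.1 (P.proj_mem_W1 hy f')
  have xe : P.β x e = 0 := he 0
  have ye : P.β y e = 0 := he 1
  have ef : P.β e (f' + P.β x f' • y + P.β y f' • x) = 1 := by
    simp [hf', P.β_comm e x, P.β_comm e y, xe, ye]
  generalize f' + P.β x f' • y + P.β y f' • x = f at xf yf ef
  refine ⟨e, f, hy, ef, xe, xf, ye, yf, fun w => ?_⟩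
  let φ : W →ₗ[ZMod 2] (Fin 4 → ZMod 2) := LinearMap.pi fun j => P.β (![x, y, e, f] j)
  have hφ : ∀ w j, φ w j = P.β (![x, y, e, f] j) w := fun _ _ => rfl
  have hs : Function.Surjective φ := fun c => ⟨c 1 • x + c 0 • y + c 3 • e + c 2 • f, by
    ext j
    fin_cases j <;>
      simp [hφ, hy, ef, xe, xf, ye, yf, P.alt, P.β_comm y x, P.β_comm e, P.β_comm f x, P.β_comm f y,
        P.β_comm f e]⟩
  refine (LinearMap.injective_iff_surjective_of_finrank_eq_finrank (by simp [hW])).2 hs ?_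
  ext j
  fin_cases j <;>
    simp [hφ, hy, ef, xe, xf, ye, yf, P.alt, P.β_comm y x, P.β_comm e x, P.β_comm e y, P.β_comm f x,
      P.β_comm f y, P.β_comm f e, P.β_comm w]

variable {P}

theorem SBasis.ovoid {x y e f : W} (h : P.SBasis x y e f) {q : W → ZMod 2} (hq : P.IsQuad q)
    (hx : q x = 0) (hy : q y = 0) (he : q e = 1) (hf : q f = 1) :
    P.Ovoid q ![x, y, x + y + e, x + y + f, x + y + e + f] where
  quad := hq
  zero j := by
    fin_cases j <;> simp [hq _ _, hx, hy, he, hf, h.xy, h.ef, h.xe, h.xf, h.ye, h.yf] <;> rfl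
  one j k hjk := by
    fin_cases j <;> fin_cases k <;> first | exact absurd rfl hjk | skip
    all_goals simp [h.xy, h.ef, h.xe, h.xf, h.ye, h.yf, P.alt, P.β_comm y x, P.β_comm e x,
      P.β_comm e y, P.β_comm f x, P.β_comm f y, P.β_comm f e, zmod2_add_self]
  cases w := by
    let φ : (Fin 4 → ZMod 2) →ₗ[ZMod 2] W := Fintype.linearCombination (ZMod 2) ![x, y, e, f]
    let U : Fin 5 → Fin 4 → ZMod 2 :=
      ![![1, 0, 0, 0], ![0, 1, 0, 0], ![1, 1, 1, 0], ![1, 1, 0, 1], ![1, 1, 1, 1]]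
    have hU : ∀ j, ![x, y, x + y + e, x + y + f, x + y + e + f] j = φ (U j) := fun j => by
      fin_cases j <;> simp [φ, U, Fintype.linearCombination_apply, Fin.sum_univ_four]
    have hw : w = φ ![P.β w y, P.β w x, P.β w f, P.β w e] := by
      simpa [φ, Fintype.linearCombination_apply, Fin.sum_univ_four] using h.span w
    have hc : ∀ a b c d : ZMod 2, ![a, b, c, d] = 0 ∨ (∃ j, ![a, b, c, d] = U j) ∨
        ∃ j k, j ≠ k ∧ ![a, b, c, d] = U j + U k := by decide
    simp only [hU]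
    rcases hc (P.β w y) (P.β w x) (P.β w f) (P.β w e) with h1 | ⟨j, h1⟩ | ⟨j, k, hjk, h1⟩
    · exact Or.inl (by rw [hw, h1, map_zero])
    · exact Or.inr (Or.inl ⟨j, by rw [← h1, ← hw]⟩)
    · exact Or.inr (Or.inr ⟨j, k, hjk, by rw [← map_add, ← h1, ← hw]⟩)

theorem exists_ovoid [Finite W] (hW : finrank (ZMod 2) W = 4) {x : W} (hx : x ≠ 0) :
    ∃ q u, P.Ovoid q u ∧ u 0 = x := by
  obtain ⟨y, hy⟩ := P.exists_β_eq_one hx
  obtain ⟨e, f, h⟩ := P.exists_sBasis hW hy
  refine ⟨fun w => P.β w x * P.β w y + P.β w e * P.β w f + P.β w e + P.β w f, _,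
    h.ovoid (fun v w => ?_) ?_ ?_ ?_ ?_, rfl⟩
  · have := congrArg (P.β v) (h.span w)
    simp only [map_add, map_smul, smul_eq_mul, LinearMap.add_apply] at this ⊢
    rw [this]; ring
  all_goals simp [h.xy, h.ef, h.xe, h.xf, h.ye, h.yf, P.alt, P.β_comm y x, P.β_comm e x,
      P.β_comm e y, P.β_comm f x, P.β_comm f y, P.β_comm f e]

namespace Ovoid

variable {q : W → ZMod 2} {u : Fin 5 → W}

theorem ne_zero (h : P.Ovoid q u) (j : Fin 5) : u j ≠ 0 := fun e => by
  obtain ⟨k, hk⟩ := exists_ne j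
  have := h.one k j hk
  simp [e] at this

theorem q_add (h : P.Ovoid q u) {j k : Fin 5} (hjk : j ≠ k) : q (u j + u k) = 1 := by
  rw [h.quad, h.zero, h.zero, h.one j k hjk]; rfl

theorem of_q_zero (h : P.Ovoid q u) {w : W} (hw : q w = 0) : w = 0 ∨ ∃ j, w = u j := by
  rcases h.cases w with e | e | ⟨j, k, hjk, rfl⟩
  exacts [Or.inl e, Or.inr e, by simp [h.q_add hjk] at hw]

theorem induct (h : P.Ovoid q u) {p : W → Prop} (h0 : p 0) (h1 : ∀ j, p (u j))
    (h2 : ∀ a b, p a → p b → p (a + b)) (w : W) : p w := by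
  rcases h.cases w with rfl | ⟨j, rfl⟩ | ⟨j, k, -, rfl⟩
  exacts [h0, h1 j, h2 _ _ (h1 j) (h1 k)]

theorem cl (h : P.Ovoid q u) : Cl fun j => P.ρ (u j) where
  two := P.two
  nontriv := P.nontriv
  sq j := P.coe_sq _
  anti j k hjk := by rw [P.coe_comm, h.one j k hjk]; simp

variable [FiniteDimensional K V] [Finite W] {f : F →+* K}

theorem rat_of_co (h : P.Ovoid q u) {n : End K V} (h0 : ∀ t, q t = 0 → P.co t n = 0)
    (h1 : ∀ t, ∃ a, P.co t n = P.i * f a) {e : F} (hnn : n * n = f e • 1) (he : e ≠ 1)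
    {g : V ≃ₗ[K] V} {c : K} (hg : (g : End K V) = c • (1 + n)) : Rat f (fun j => P.ρ (u j)) g := by
  have := Fintype.ofFinite W
  refine h.cl.rat_of_lie (fun j => ?_) hnn he hg
  have : ∀ t, ∃ w, P.co t n • ((P.ρ t : End K V) * P.ρ (u j) - P.ρ (u j) * P.ρ t) =
      clif f (fun j => P.ρ (u j)) w := fun t => by
    rcases zmod2_cases (q t) with ht | ht
    · exact ⟨0, by rw [h0 t ht, zero_smul, map_zero]⟩
    rcases zmod2_cases (P.β t (u j)) with hb | hb
    · exact ⟨0, by rw [P.coe_comm, hb]; simp⟩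
    obtain ⟨a, ha⟩ := h1 t
    obtain ⟨b, hb'⟩ := P.mul_of_β_one hb
    obtain ⟨k, hk⟩ := (h.of_q_zero (w := t + u j) (by rw [h.quad, ht, h.zero, hb]; rfl)).resolve_left
      fun e => by simp [add_eq_zero_iff'.1 e, P.alt] at hb
    refine ⟨(-2 * a * sg F b) • stdE F k, ?_⟩
    have hs : f (sg F b) = sg K b := by rcases zmod2_cases b with rfl | rfl <;> simp
    rw [P.coe_comm (u j), P.β_comm, hb, ← coe_mul', hb', hk, map_smulₛₗ, clif_stdE, coe_sc_mul, ha]
    simp only [map_mul, map_neg, map_ofNat, hs, sg_one, Units.val_neg, Units.val_one, Units.val_mul]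
    match_scalars
    linear_combination (2 * f a * sg K b) * P.i_mul_i
  choose w hw using this
  refine ⟨∑ t, w t, ?_⟩
  nth_rw 1 [← P.sum_co n]
  nth_rw 2 [← P.sum_co n]
  simp only [map_sum, ← hw, Finset.sum_mul, Finset.mul_sum, smul_sub, Finset.sum_sub_distrib,
    mul_smul_comm, smul_mul_assoc]

theorem dichotomy [Finite F] (h : P.Ovoid q u) (hF : ∀ A : AddSubgroup F, (1 : F) ∈ A → A = ⊤)
    {X : Subgroup (V ≃ₗ[K] V)} (hX : P.H2 {a | q a = 1} X) :
    (∀ g, Rat f (fun j => P.ρ (u j)) g → g * g ∈ X) ∨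
      ∀ g ∈ X, Rat f (fun j => P.ρ (u j)) g → g ∈ P.N := by
  have ht : ∀ i j, ∃ r ∈ P.R, i ≠ j → ∃ c : K, ((r * P.s (u i + u j) : V ≃ₗ[K] V) : End K V) =
      c • (1 + (P.ρ (u i) : End K V) * P.ρ (u j)) := fun i j => by
    by_cases hij : i = j
    · exact ⟨1, one_mem _, fun e => absurd hij e⟩
    obtain ⟨a, ha⟩ := P.mul_of_β_one (h.one i j hij)
    rcases zmod2_cases a with rfl | rfl
    · refine ⟨_, P.ρ_mem_R (u i + u j), fun _ => ⟨P.α', ?_⟩⟩
      rw [← P.s_inv, coe_s_inv, ← coe_mul', ha, coe_sc_mul]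
      simp only [sg_zero, mul_one]
      match_scalars
      · rfl
      · linear_combination -P.i_mul_α'
    · refine ⟨1, one_mem _, fun _ => ⟨P.α, ?_⟩⟩
      rw [one_mul, coe_s, ← coe_mul', ha, coe_sc_mul]
      simp only [sg_one, mul_neg, mul_one, Units.val_neg]
      match_scalars
      · rfl
      · linear_combination P.i_mul_α
  choose r hr ht using ht
  rcases h.cl.dichotomy (f := f) hF (by simp) (fun j => hX.1 (P.ρ_mem_R _))
    (fun i j => r i j * P.s (u i + u j)) ht (fun i j k l hij hkl => by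
      rw [mul_inv_rev, mul_assoc, ← mul_assoc (P.s _)]
      exact mul_mem (hX.1 (hr i j)) (mul_mem (hX.2 _ (h.q_add hij) _ (h.q_add hkl))
        (inv_mem (hX.1 (hr k l))))) with h1 | h1
  · refine Or.inl ?_
    rintro g ⟨φ, hφ⟩
    obtain ⟨k, hk, a, ha⟩ := h1 φ
    refine (X.mul_mem_cancel_left (inv_mem hk)).1 (hX.1 (P.mem_R_of_forall (h.induct
      ⟨1, by rw [P.zero, mul_one, mul_inv_cancel, map_one, mul_one]⟩
      (fun j => ⟨sg K (a + (0 + 0)), ?_⟩) ?_)))
    · have := (ha.inv.mul (hφ.mul hφ)) (stdE F j)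
      rw [inv_mul_cancel, O_one_apply, clif_stdE] at this
      exact mul_inv_eq_iff_eq_mul.2 (coe_inj this)
    · rintro a b ⟨c, hc⟩ ⟨d, hd⟩
      exact P.conj_add hc hd
  · refine Or.inr ?_
    rintro g hg ⟨φ, hφ⟩
    refine P.mem_N_of_forall (h.induct (by simp [P.zero]) (fun j => ?_) ?_)
    · obtain ⟨k, a, e⟩ := h1 g hg (fun j => ⟨φ.1 (stdE F j), by
        simpa [clif_stdE] using hφ (stdE F j)⟩) j
      exact ⟨_, _, e⟩
    · rintro a b ⟨c, _, hc⟩ ⟨d, _, hd⟩
      obtain ⟨e, he⟩ := P.conj_add hc hd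
      exact ⟨_, _, he⟩

theorem mem_of_sq (h : P.Ovoid q u) {X : Subgroup (V ≃ₗ[K] V)}
    (hX : ∀ g, Rat f (fun j => P.ρ (u j)) g → g * g ∈ X) {n : End K V} (hnn : n * n = 0)
    (h0 : ∀ t, q t = 0 → P.co t n = 0) (h1 : ∀ t, ∃ a, P.co t n = P.i * f a) {g : V ≃ₗ[K] V}
    (hg : (g : End K V) = 1 + n) : g ∈ X := by
  have h2 := P.two
  let k : V ≃ₗ[K] V := LinearEquiv.ofLinearMap (1 + (2 : K)⁻¹ • n) (1 - (2 : K)⁻¹ • n)
    (by
      change (1 + (2 : K)⁻¹ • n) * (1 - (2 : K)⁻¹ • n) = 1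
      simp [mul_sub, add_mul, hnn])
    (by
      change (1 - (2 : K)⁻¹ • n) * (1 + (2 : K)⁻¹ • n) = 1
      simp [sub_mul, mul_add, hnn])
  have hk : (k : End K V) = (1 : K) • (1 + (2 : K)⁻¹ • n) := by rw [one_smul]; rfl
  convert hX k (h.rat_of_co (e := 0) (fun t ht => by rw [map_smul, h0 t ht, smul_zero])
    (fun t => ?_) (by simp [hnn]) zero_ne_one hk) using 1
  · refine coe_inj ?_
    rw [coe_mul', hk, hg]
    simp only [one_smul, mul_add, add_mul, mul_one, one_mul, mul_smul_comm, smul_mul_assoc, hnn]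
    match_scalars
    · rfl
    · field_simp; ring
  · obtain ⟨a, ha⟩ := h1 t
    exact ⟨2⁻¹ * a, by rw [map_smul, ha, map_mul, map_inv₀, map_ofNat, smul_eq_mul]; ring⟩

theorem rat_conj_s (h : P.Ovoid q u) {y : V ≃ₗ[K] V} (hc : Commute y (P.ρ (u 0))) {w : W}
    (hw : P.β (u 0) w = 0) (hw0 : w ≠ 0) (hw1 : w ≠ u 0)
    (hrat : ∀ t, ∃ a, P.co t ((y * P.ρ w * y⁻¹ : V ≃ₗ[K] V) : End K V) = f a) :
    Rat f (fun j => P.ρ (u j)) (y * P.s w * y⁻¹) := by
  refine h.rat_of_co (n := -(P.i : K) • ((y * P.ρ w * y⁻¹ : V ≃ₗ[K] V) : End K V)) (e := -1)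
    (c := P.α) (fun t ht => ?_) (fun t => ?_) ?_ (fun e => h.cl.two' f (by linear_combination -e)) ?_
  · rw [map_smul, smul_eq_mul, mul_eq_zero]
    refine Or.inr ?_
    by_cases h0 : t = 0 ∨ t = u 0
    · rw [coe_mul', coe_mul', P.co_conj, P.co_of_ne]
      · rcases h0 with rfl | rfl
        exacts [hw0.symm, hw1.symm]
      · rcases h0 with rfl | rfl
        exacts [by simp [P.zero], hc]
    · push Not at h0
      obtain ⟨j, rfl⟩ := (h.of_q_zero ht).resolve_left h0.1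
      refine P.co_eq_zero_of_commute (x := u 0) ?_ (h.one _ _ fun e => h0.2 (by rw [e]))
      rw [← coe_mul', ← coe_mul',
        ((hc.mul_left (P.commute_ρ (by rw [P.β_comm, hw]))).mul_left hc.inv_left).eq]
  · obtain ⟨a, ha⟩ := hrat t
    exact ⟨-a, by rw [map_smul, ha, map_neg, smul_eq_mul]; ring⟩
  · rw [smul_mul_smul_comm, ← coe_mul', show y * P.ρ w * y⁻¹ * (y * P.ρ w * y⁻¹) =
      y * (P.ρ w * P.ρ w) * y⁻¹ by group, P.sq, mul_one, mul_inv_cancel, neg_mul_neg, P.i_mul_i,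
      map_neg, map_one]
    rfl
  · simp only [coe_mul', coe_s, mul_add, add_mul, mul_smul_comm, smul_mul_assoc, mul_one,
      coe_mul_inv]
    match_scalars
    · rfl
    · linear_combination P.i_mul_α

theorem nrm (h : P.Ovoid q u) {X : Subgroup (V ≃ₗ[K] V)} (hX : P.H2 {a | a ≠ 0} X)
    (hrat : ∀ g ∈ X, ∀ w t, ∃ a, P.co t ((g * P.ρ w * g⁻¹ : V ≃ₗ[K] V) : End K V) = f a)
    (hN : ∀ g ∈ X, Rat f (fun j => P.ρ (u j)) g → g ∈ P.N) : P.Nrm X (u 0) := by
  intro y hy hc w hw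
  by_cases hw0 : w = 0
  · simp [hw0, P.zero]
  by_cases hw1 : w = u 0
  · rw [hw1, hc.eq, mul_inv_cancel_right]; exact P.ρ_mem_R _
  refine P.conj_ρ_mem_R ((P.N.mul_mem_cancel_right (inv_mem (P.s_mem_N w))).1 (hN _ ?_
    ((h.rat_conj_s hc hw hw0 hw1 (hrat y hy w)).mul (Rat.inv ?_))))
  · have h1 := hX.2 w hw0 _ (h.ne_zero 0)
    convert mul_mem (mul_mem (mul_mem hy h1) (inv_mem hy)) (inv_mem h1) using 1
    rw [mul_assoc y (_ * _), mul_assoc (P.s w) _ y⁻¹,
      ← (P.commute_s_of_commute hc).inv_left.inv_right.eq]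
    group
  · simpa using h.rat_conj_s (f := f) (Commute.one_left _) hw hw0 hw1 (hrat 1 (one_mem _) w)

theorem isAlt (h : P.Ovoid q u) {B : LinearMap.BilinForm K V} (hB : P.IsForm q B) : B.IsAlt := by
  have := Fintype.ofFinite W
  have hS : P.IsForm q (B + B.flip) := fun t a b => by
    simp only [LinearMap.add_apply, LinearMap.BilinForm.flip_apply, hB t, mul_add]
  have hc := h.q_add (j := 1) (k := 2) (by decide)
  have h0 : B + B.flip = 0 := by
    by_contra hne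
    obtain ⟨a, ha, ha', ha0⟩ := P.exists_ne_Ve₂ (h.ne_zero 0) (c := u 1 + u 2)
      (fun e => by simp [e, h.quad.zero] at hc) (fun e => by simp [← e, h.zero] at hc)
      (by rw [P.β_add_right, h.one 0 1 (by decide), h.one 0 2 (by decide)]; rfl) 0 0
    rw [mem_Ve_zero] at ha ha'
    have haa : (B + B.flip) a a = 0 := by
      have := hS (u 1 + u 2) a a
      rw [ha', hc] at this
      exact eq_zero_of_eq_neg P.two (by simpa using this)
    have key : ∀ t, (B + B.flip) a (P.ρ t a) = 0 := fun t => by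
      rcases zmod2_cases (q t) with ht | ht
      · rcases h.of_q_zero ht with rfl | ⟨j, rfl⟩
        · rwa [P.zero]
        by_cases hj : j = 0
        · rw [hj, ha, haa]
        have := hS (u 0) a (P.ρ (u j) a)
        rw [P.ρ_ρ_comm, ha, h.zero, h.one _ _ (Ne.symm hj)] at this
        exact eq_zero_of_eq_neg P.two (by simpa [add_comm] using this.symm)
      · have := hS.left t a a
        rw [ht] at this
        exact eq_zero_of_eq_neg P.two (by simpa [add_comm] using this)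
    refine ha0 (hS.sep_left hne a fun b => ?_)
    obtain ⟨g, -, hg⟩ := LinearMap.exists_extend_of_notMem (0 : (⊥ : Submodule K V) →ₗ[K] V)
      (by simpa using ha0) b
    rw [← hg, ← P.sum_co g]
    simp only [LinearMap.sum_apply, LinearMap.smul_apply, map_sum, map_smul, LinearEquiv.coe_coe, key,
      smul_zero, Finset.sum_const_zero]
  intro a
  have := congrArg (fun S : LinearMap.BilinForm K V => S a a) h0
  exact eq_zero_of_eq_neg P.two (by simpa [add_eq_zero_iff_eq_neg] using this)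

end Ovoid

variable [FiniteDimensional K V] [Finite W] {f : F →+* K}

theorem centN_or [Finite F] (hF : ∀ A : AddSubgroup F, (1 : F) ∈ A → A = ⊤)
    (hW : finrank (ZMod 2) W = 4) {X : Subgroup (V ≃ₗ[K] V)} (hX : P.H2 {a | a ≠ 0} X)
    (hrat : ∀ g ∈ X, ∀ w t, ∃ a, P.co t ((g * P.ρ w * g⁻¹ : V ≃ₗ[K] V) : End K V) = f a) :
    P.CentN X ∨ ∃ q u, P.Ovoid q u ∧ ∀ g, Rat f (fun j => P.ρ (u j)) g → g * g ∈ X := by
  by_contra! hc
  have hn : ∀ x ≠ 0, P.Nrm X x := fun x hx => by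
    obtain ⟨q, u, h, rfl⟩ := exists_ovoid (P := P) hW hx
    refine h.nrm hX hrat ((h.dichotomy hF ⟨hX.1, fun a ha b hb => hX.2 a ?_ b ?_⟩).resolve_left
      (by simpa using hc.2 q u h))
    · rintro rfl; simp [h.quad.zero] at ha
    · rintro rfl; simp [h.quad.zero] at hb
  refine hc.1 fun x hx g hg hgx => ?_
  obtain ⟨y, hy⟩ := P.exists_β_eq_one hx
  obtain ⟨b, hb, hb0⟩ := P.exists_perp_notMem ![x, y] ⊥ (by simp [hW])
  rw [Submodule.mem_bot] at hb0
  exact mem_N_of_nrm hg hgx (hn x hx) hy (hb 0) (hb 1)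
    (hX.2 y (by rintro rfl; simp at hy) b hb0) fun c b' e => hn b' (by
      rintro rfl
      exact hb0 (P.eq_of_conj (c' := 1) e (by simp [P.zero])))

end Pauli

end Cfsg.Lib.Class.C6
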