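import Cfsg.Agent.Class.C6.QuadAbs
import Cfsg.Agent.Class.C6.Base

/-!
# Symplectic and orthogonal types: the centralisers normalise `R`
-/

set_option autoImplicit false
set_option linter.unusedSectionVars false

namespace Cfsg.Lib.Class.C6

open Module Form

variable {K V W : Type*} [Field K] [AddCommGroup V] [Module K V] [AddCommGroup W]
  [Module (ZMod 2) W]

theorem sc_mul_conj (c : Kˣ) (g h : V ≃ₗ[K] V) : sc V c * g * h * (sc V c * g)⁻¹ = g * h * g⁻¹ := by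
  rw [show sc V c * g * h * (sc V c * g)⁻¹ = sc V c * (g * h * g⁻¹) * (sc V c)⁻¹ by group, ← sc_comm,
    mul_inv_cancel_right]

namespace Pauli

variable (P : Pauli K V W)

/-- `g` normalises `R` and induces `S` -/
def Ind (g : V ≃ₗ[K] V) (S : W ≃ₗ[ZMod 2] W) : Prop :=
  ∀ w, ∃ c, g * P.ρ w * g⁻¹ = sc V c * P.ρ (S w)

variable {P} {g h : V ≃ₗ[K] V} {S T : W ≃ₗ[ZMod 2] W}

theorem Ind.mul (hg : P.Ind g S) (hh : P.Ind h T) : P.Ind (g * h) (S * T) := fun w => by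
  obtain ⟨c, hc⟩ := hh w
  obtain ⟨d, hd⟩ := hg (T w)
  exact ⟨c * d, by
    rw [show g * h * P.ρ w * (g * h)⁻¹ = g * (h * P.ρ w * h⁻¹) * g⁻¹ by group, hc, conj_sc_mul, hd,
      map_mul, mul_assoc]; rfl⟩

theorem Ind.inv (hg : P.Ind g S) : P.Ind g⁻¹ S⁻¹ := fun w => by
  obtain ⟨c, hc⟩ := hg (S⁻¹ w)
  rw [apply_inv_apply] at hc
  refine ⟨c⁻¹, ?_⟩
  rw [show P.ρ w = sc V c⁻¹ * (g * P.ρ (S⁻¹ w) * g⁻¹) by rw [hc, map_inv, inv_mul_cancel_left],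
    conj_sc_mul]
  group

theorem Ind.unique (hS : P.Ind g S) (hT : P.Ind g T) : S = T := LinearEquiv.ext fun w => by
  obtain ⟨c, hc⟩ := hS w
  obtain ⟨d, hd⟩ := hT w
  exact (P.eq_of_sc_ρ (hc.symm.trans hd)).1

theorem ind_act (g : P.N) : P.Ind g (P.act g) := fun w =>
  let ⟨_, h⟩ := P.act_spec g w; ⟨_, h⟩

theorem exists_ind (hg : g ∈ P.N) : ∃ S, P.Ind g S := ⟨_, ind_act ⟨g, hg⟩⟩

theorem ind_of_mem_R (hg : g ∈ P.R) : P.Ind g 1 := fun w => by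
  simpa [P.act_of_mem_R ⟨g, P.R_le_N hg⟩ hg] using ind_act ⟨g, P.R_le_N hg⟩ w

variable [Finite W]

theorem Ind.mem_R (hg : P.Ind g 1) : g ∈ P.R := P.mem_R_of_forall hg

theorem ind_s_mul (a b : W) : P.Ind (P.s a * (P.s b)⁻¹) (P.tv a * P.tv b) := by
  have := (ind_act ⟨P.s a, P.s_mem_N a⟩).mul (ind_act ⟨P.s b, P.s_mem_N b⟩).inv
  rwa [← tv, ← tv, tv_inv] at this

omit [Finite W] in
theorem resE_mul {u : W} (ε : ZMod 2) (hg : Commute g (P.ρ u)) (hh : Commute h (P.ρ u)) :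
    P.resE ε (g * h) (hg.mul_left hh) = P.resE ε g hg * P.resE ε h hh :=
  LinearEquiv.ext fun _ => rfl

omit [Finite W] in
theorem exists_W1' {u y w : W} (hy : P.β u y = 1) (hw : P.β u w = 0) :
    ∃ t : P.W1 u y, P.ρ w = P.ρ t ∨ ∃ c, P.ρ w = sc V c * (P.ρ t * P.ρ u) := by
  have h := P.proj_mem_W1 hy w
  rw [hw, zero_smul, add_zero] at h
  rcases zmod2_cases (P.β y w) with e | e
  · exact ⟨⟨w, hw, e⟩, Or.inl rfl⟩
  · rw [e, one_smul] at h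
    obtain ⟨c, hc⟩ := P.mul (w + u) u
    rw [add_add_self] at hc
    exact ⟨⟨_, h⟩, Or.inr ⟨c⁻¹, by rw [hc, map_inv, inv_mul_cancel_left]⟩⟩

theorem exists_ind_res {u y : W} (hy : P.β u y = 1) (hg : g ∈ P.N) (hc : Commute g (P.ρ u)) :
    ∃ S, ∀ ε, (P.res hy ε).Ind (P.resE ε g hc) S := by
  have key : ∀ w : P.W1 u y, ∃ t : P.W1 u y, ∀ ε, ∃ c, P.resE ε g hc * (P.res hy ε).ρ w *
      (P.resE ε g hc)⁻¹ = sc _ c * (P.res hy ε).ρ t := fun w => by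
    obtain ⟨c, t, ht⟩ := P.conj_mem_R hg (P.ρ_mem_R w)
    have h1 : g * P.ρ u * g⁻¹ = sc V 1 * P.ρ u := by
      rw [hc.eq, mul_inv_cancel_right, map_one, one_mul]
    obtain ⟨t', h2 | ⟨d, h2⟩⟩ := exists_W1' hy ((P.β_of_conj h1 ht).trans w.2.1)
    · exact ⟨t', fun ε => ⟨c, LinearEquiv.ext fun v => Subtype.ext
        (congrArg (fun k : V ≃ₗ[K] V => k v) (h2 ▸ ht))⟩⟩
    · refine ⟨t', fun ε => ⟨c * d * sg K ε, LinearEquiv.ext fun v => Subtype.ext ?_⟩⟩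
      refine (congrArg (fun k : V ≃ₗ[K] V => k v) (h2 ▸ ht)).trans ?_
      simp [P.mem_Ve.1 v.2, smul_smul, res_ρ_apply, mul_assoc]
  choose f hf using key
  have hN : ∀ ε, P.resE ε g hc ∈ (P.res hy ε).N := fun ε =>
    (P.res hy ε).mem_N_of_forall fun w => let ⟨c, hc⟩ := hf w ε; ⟨c, _, hc⟩
  refine ⟨(P.res hy 0).act ⟨_, hN 0⟩, fun ε w => ?_⟩
  obtain ⟨c, hc'⟩ := hf w 0
  rw [(P.res hy 0).act_eq ⟨_, hN 0⟩ hc']
  exact hf w ε

omit [Finite W] in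
theorem exists_sg_on_Ve {u w : W} (hu : u ≠ 0) (hc : Commute g (P.ρ u)) (hw : P.β u w = 0)
    {ε : ZMod 2} {r : V ≃ₗ[K] V} (hr : r ∈ P.R) (e : ∀ v ∈ P.Ve u ε, g (P.ρ w v) = r (g v)) :
    ∃ a t, P.β u t = 0 ∧ ∀ v ∈ P.Ve u ε, g (P.ρ w v) = (sg K a : K) • P.ρ t (g v) := by
  obtain ⟨c, t, rfl⟩ := hr
  simp only [LinearEquiv.mul_apply, sc_apply] at e
  obtain ⟨z, hz, hz0⟩ := P.exists_ne_Ve hu ε
  have ht : P.β u t = 0 := by
    refine zmod2_eq_zero fun ht => hz0 ?_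
    have h1 : g (P.ρ w z) ∈ P.Ve u ε := map_mem_Ve hc (ρ_mem_Ve' hz hw)
    have h2 : g (P.ρ w z) ∈ P.Ve u (ε + 1) := by
      rw [e z hz, ← ht]
      exact Submodule.smul_mem _ _ (ρ_mem_Ve (map_mem_Ve hc hz) t)
    exact (P.ρ w).map_eq_zero_iff.1 (g.map_eq_zero_iff.1 (eq_zero_of_mem_Ve h1 h2))
  have hcc : c * c = 1 := by
    have := e _ (ρ_mem_Ve' hz hw)
    rw [ρ_ρ, e z hz, map_smul, ρ_ρ, smul_smul] at this
    refine Units.ext (smul_left_injective K (g.map_ne_zero_iff.2 hz0) ?_)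
    simpa using this.symm
  obtain ⟨a, rfl⟩ := exists_sg_of_mul_self hcc
  exact ⟨a, t, ht, e⟩

omit [Finite W] in
theorem commute_of_Ve {u : W} (h : ∀ ε, ∀ v ∈ P.Ve u ε, g v ∈ P.Ve u ε) : Commute g (P.ρ u) :=
  P.ext_Ve u fun ε v hv => by
    simp only [LinearEquiv.mul_apply]
    rw [P.mem_Ve.1 hv, P.mem_Ve.1 (h ε v hv), map_smul]

omit [Finite W] in
theorem forall_of_add_one {p : ZMod 2 → Prop} {ε : ZMod 2} (h0 : p ε) (h1 : p (ε + 1))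
    (δ : ZMod 2) : p δ := by
  rcases zmod2_cases ε with rfl | rfl <;> rcases zmod2_cases δ with rfl | rfl <;> assumption

omit [Finite W] in
theorem exists_of_mem_kerX {X : Subgroup (V ≃ₗ[K] V)} {u : W} {ε : ZMod 2}
    {k : P.Ve u ε ≃ₗ[K] P.Ve u ε} (hk : k ∈ P.kerX X u ε) :
    ∃ n ∈ X, ∃ hn : Commute n (P.ρ u), P.resE ε n hn = k ∧ P.resE (ε + 1) n hn = 1 := by
  obtain ⟨n, hn, e, e'⟩ := hk
  exact ⟨n, hn, commute_of_Ve (forall_of_add_one (ε := ε)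
    (fun v hv => e ⟨v, hv⟩ ▸ (k ⟨v, hv⟩).2) fun v hv => by rwa [e' v hv]),
    LinearEquiv.ext fun v => Subtype.ext (e v).symm, LinearEquiv.ext fun v => Subtype.ext (e' v v.2)⟩

/-- an invariant bilinear form with `X` consisting of similarities -/
structure QF (P : Pauli K V W) (Q : W → ZMod 2) (B : V →ₗ[K] V →ₗ[K] K)
    (X : Subgroup (V ≃ₗ[K] V)) : Prop where
  quad : P.IsQuad Q
  form : P.IsForm Q B
  ne : B ≠ 0
  sim : X ≤ simG B

variable {Q : W → ZMod 2} {B : V →ₗ[K] V →ₗ[K] K} {X : Subgroup (V ≃ₗ[K] V)}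

omit [Finite W] in
theorem IsForm.eq_zero_of_Ve (h : P.IsForm Q B) {u : W} {ε δ : ZMod 2} (e : ε + δ = Q u + 1) {a b : V}
    (ha : a ∈ P.Ve u ε) (hb : b ∈ P.Ve u δ) : B a b = 0 := by
  have := h u a b
  rw [P.mem_Ve.1 ha, P.mem_Ve.1 hb, map_smul, map_smul, LinearMap.smul_apply, smul_eq_mul,
    smul_eq_mul, ← mul_assoc, ← Units.val_mul, ← sg_add, add_comm, e, sg_add, sg_one] at this
  exact (mul_eq_zero.1 (eq_zero_of_eq_neg P.two (a := sg K (Q u) * B a b) (by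
    simpa using this.symm))).resolve_left (sg K _).ne_zero

namespace QF

omit [Finite W] in
theorem conj_form (h : QF P Q B X) (hg : g ∈ X) (u : W) (a b : V) :
    B ((g * P.ρ u * g⁻¹) a) ((g * P.ρ u * g⁻¹) b) = sg K (Q u) * B a b := by
  obtain ⟨c, hc⟩ := h.sim hg
  obtain ⟨a, rfl⟩ := g.surjective a
  obtain ⟨b, rfl⟩ := g.surjective b
  simp only [LinearEquiv.mul_apply, inv_apply_apply, hc, h.form u]
  ring

omit [Finite W] in
theorem q_eq (h : QF P Q B X) (hg : g ∈ X) {u v : W} {c : Kˣ}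
    (e : g * P.ρ u * g⁻¹ = sc V c * P.ρ v) : Q u = Q v := by
  obtain ⟨a, w, ha⟩ := P.exists_sg_of_conj_mem (g := g) (u := u) ⟨c, v, e⟩
  obtain ⟨rfl, rfl⟩ := P.eq_of_sc_ρ (e.symm.trans ha)
  obtain ⟨x, y, hxy⟩ : ∃ x y, B x y ≠ 0 := by
    by_contra! hc
    exact h.ne (LinearMap.ext fun x => LinearMap.ext (hc x))
  have := h.conj_form hg u x y
  simp only [ha, LinearEquiv.mul_apply, sc_apply, map_smul, LinearMap.smul_apply, smul_eq_mul,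
    h.form v, ← mul_assoc, sg_val_mul_self, one_mul] at this
  exact (sg_injective P.two (Units.ext (mul_right_cancel₀ hxy this))).symm

omit [Finite W] in
theorem q_ind (h : QF P Q B X) (hg : g ∈ X) (hS : P.Ind g S) (w : W) : Q (S w) = Q w :=
  let ⟨_, hc⟩ := hS w; (h.q_eq hg hc).symm

omit [Finite W] in
theorem res (h : QF P Q B X) {z y : W} (hy : P.β z y = 1) (hz : Q z = 0) (ε : ZMod 2) :
    QF (P.res hy ε) (fun w => Q w) (restr B (P.Ve z ε)) (P.resX X z ε) where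
  quad u v := h.quad u v
  form u a b := h.form u a b
  ne e := by
    obtain ⟨a, ha, ha0⟩ := P.exists_ne_Ve (u := z) (by rintro rfl; simp at hy) ε
    refine ha0 (h.form.sep_left h.ne a fun b => ?_)
    obtain ⟨b0, h0, b1, h1, rfl⟩ := P.exists_add_Ve z b
    have key : ∀ δ, ∀ b ∈ P.Ve z δ, B a b = 0 := forall_of_add_one (ε := ε)
      (fun b hb => LinearMap.congr_fun₂ e ⟨a, ha⟩ ⟨b, hb⟩)
      fun b hb => h.form.eq_zero_of_Ve (by rw [← add_assoc, zmod2_add_self, hz]) ha hb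
    rw [map_add, key 0 _ h0, key 1 _ h1, add_zero]
  sim := resX_le_simG h.sim z ε

omit [Finite W] in
theorem nrm_of_res (h : QF P Q B X) {x y : W} (hx : Q x = 1) (hy : P.β x y = 1)
    (hN : P.resX X x 0 ≤ (P.res hy 0).N) : P.Nrm X x := by
  intro g hg hc w hw
  have hx0 : x ≠ 0 := by rintro rfl; simp at hy
  obtain ⟨r, hr, e⟩ := loc_at hy hN hg hc w hw
  obtain ⟨a, t, ht, e⟩ := exists_sg_on_Ve hx0 hc hw hr e
  have h0 : ∀ v ∈ P.Ve x 0, (P.ρ t * (g * P.ρ w * g⁻¹)) v = (sg K a : K) • v := fun v hv => by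
    simp only [LinearEquiv.mul_apply]
    rw [e _ (map_mem_Ve hc.inv_left hv), apply_inv_apply, map_smul, ρ_ρ]
  have hk : Commute (P.ρ t * (g * P.ρ w * g⁻¹)) (P.ρ x) :=
    (P.commute_ρ (by rw [P.β_comm, ht])).mul_left
      ((hc.mul_left (P.commute_ρ (by rw [P.β_comm, hw]))).mul_left hc.inv_left)
  refine (P.R.mul_mem_cancel_left (P.ρ_mem_R t)).1 (P.mem_R_of_scalar hx0 h0
    (b := sg K (a + (Q t + Q w))) (fun v hv => sub_eq_zero.1 (h.form.sep_right h.ne _ fun b => ?_))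
    (by rw [sg_val_mul_self, sg_val_mul_self]))
  obtain ⟨b0, h0', b1, h1', rfl⟩ := P.exists_add_Ve x b
  rw [map_add, LinearMap.add_apply, h.form.eq_zero_of_Ve (ε := 1) (δ := 1) (by rw [hx]) h1'
    (sub_mem (map_mem_Ve hk hv) (Submodule.smul_mem _ _ hv)), add_zero]
  have := h.form t ((g * P.ρ w * g⁻¹) b0) ((g * P.ρ w * g⁻¹) v)
  rw [h.conj_form hg, ← LinearEquiv.mul_apply, ← LinearEquiv.mul_apply, h0 _ h0', map_smul,
    LinearMap.smul_apply, smul_eq_mul] at this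
  rw [map_sub, map_smul, sg_add, sg_add, smul_eq_mul, Units.val_mul, Units.val_mul]
  linear_combination (sg K a : K) * this -
    B b0 ((P.ρ t * (g * P.ρ w * g⁻¹)) v) * sg_val_mul_self (K := K) a

theorem mem_N (h : QF P Q B X) (h2 : P.H2 {u | Q u = 1} X) (hW : 5 ≤ finrank (ZMod 2) W)
    (hn : ∀ x, Q x = 1 → P.Nrm X x) {x : W} (hx0 : x ≠ 0) (hx : P.Nrm X x) (hg : g ∈ X)
    (hc : Commute g (P.ρ x)) : g ∈ P.N := by
  obtain ⟨y, hy⟩ := P.exists_β_eq_one hx0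
  obtain ⟨y, hy1, hy', -⟩ := P.eg_exists_Q_eq_one hW h.quad y x x
  obtain ⟨b, hb1, hb, hb'⟩ := P.eg_exists_Q_eq_one hW h.quad 0 x y
  exact mem_N_of_nrm hg hc hx (by rw [P.β_comm, hy', P.β_comm, hy]) (by simpa [P.β_comm x] using hb)
    (by simpa [P.β_comm y] using hb') (h2.2 y hy1 b hb1)
    fun c b' e => hn b' (by rw [← h.q_eq hg e, hb1])

end QF

/-- the situation after the centralisers of the non-singular elements have been treated -/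
structure QK (P : Pauli K V W) (Q : W → ZMod 2) (B : V →ₗ[K] V →ₗ[K] K)
    (X : Subgroup (V ≃ₗ[K] V)) (z y : W) : Prop extends QF P Q B X where
  h2 : P.H2 {u | Q u = 1} X
  cent : ∀ x, Q x = 1 → ∀ g ∈ X, Commute g (P.ρ x) → g ∈ P.N
  zy : P.β z y = 1
  qz : Q z = 0
  qy : Q y = 1
  dim : 8 ≤ finrank (ZMod 2) W ∨ 6 ≤ finrank (ZMod 2) W ∧ ∀ v ∈ P.W1 z y, ∀ w ∈ P.W1 z y,
    Q v = 0 → Q w = 0 → P.β v w = 0 → v = 0 ∨ w = 0 ∨ v = w

namespace QK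

variable {z y : W}

theorem four_le (h : QK P Q B X z y) : 4 ≤ finrank (ZMod 2) (P.W1 z y) := by
  have := P.finrank_W1 h.zy
  rcases h.dim with e | e <;> omega

theorem ρ_mem (h : QK P Q B X z y) (ε : ZMod 2) {a : P.W1 z y} (ha : Q a = 1) :
    sc _ (-P.i) * (P.res h.zy ε).ρ a ∈ P.kerX X z ε :=
  mem_kerX_of h.h2.1 h.zy a (h.h2.2 _ ha _ (by
    rw [Set.mem_ofPred_eq, h.quad, ha, h.qz, P.β_comm, a.2.1]; rfl)) ε

theorem commute_s (_ : QK P Q B X z y) (a b : P.W1 z y) : Commute (P.s a * (P.s b)⁻¹) (P.ρ z) :=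
  (P.commute_ρ_s a.2.1).symm.mul_left (P.commute_ρ_s b.2.1).symm.inv_left

theorem resE_s (h : QK P Q B X z y) (ε : ZMod 2) (a b : P.W1 z y) :
    P.resE ε _ (h.commute_s a b) = (P.res h.zy ε).s a * ((P.res h.zy ε).s b)⁻¹ :=
  LinearEquiv.ext fun _ => rfl

theorem exists_ind (h : QK P Q B X z y) {ε : ZMod 2} {k : P.Ve z ε ≃ₗ[K] P.Ve z ε}
    (hk : k ∈ P.kerX X z ε) : ∃ S, (P.res h.zy ε).Ind k S := by
  obtain ⟨n, hn, hc, rfl, e⟩ := exists_of_mem_kerX hk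
  have e1 : ∀ v ∈ P.Ve z (ε + 1), n v = v := fun v hv =>
    congrArg (fun k : P.Ve z (ε + 1) ≃ₗ[K] P.Ve z (ε + 1) => (k ⟨v, hv⟩ : V)) e
  have hy : ∀ δ, ∀ v ∈ P.Ve z δ, P.ρ y v ∈ P.Ve z (δ + 1) := fun δ v hv => h.zy ▸ ρ_mem_Ve hv y
  have e2 : ∀ v ∈ P.Ve z ε, (P.ρ y * n * P.ρ y) v = v := fun v hv => by
    simp only [LinearEquiv.mul_apply]
    rw [e1 _ (hy _ _ hv), ρ_ρ]
  have hc' : Commute (P.ρ y * n * P.ρ y) (P.ρ z) := commute_of_Ve fun δ v hv => by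
    simpa [add_assoc, zmod2_add_self] using hy _ _ (map_mem_Ve hc (hy _ _ hv))
  have e3 : n * (P.ρ y * n * P.ρ y) = P.ρ y * n * P.ρ y * n :=
    P.ext_Ve z (forall_of_add_one (ε := ε) (fun v hv => by
      rw [LinearEquiv.mul_apply, e2 v hv, LinearEquiv.mul_apply, e2 _ (map_mem_Ve hc hv)])
      fun v hv => by
        rw [LinearEquiv.mul_apply, e1 _ (map_mem_Ve hc' hv), LinearEquiv.mul_apply _ n, e1 v hv])
  obtain ⟨S, hS⟩ := exists_ind_res h.zy (h.cent y h.qy (n * (P.ρ y * n * P.ρ y))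
    (mul_mem hn (mul_mem (mul_mem (h.h2.1 (P.ρ_mem_R y)) hn) (h.h2.1 (P.ρ_mem_R y)))) (by
      change _ = _
      conv_rhs => rw [e3]
      simp only [← mul_assoc, P.sq, one_mul]
      rw [mul_assoc _ (P.ρ y) (P.ρ y), P.sq, mul_one])) (hc.mul_left hc')
  refine ⟨S, ?_⟩
  convert hS ε using 1
  exact LinearEquiv.ext fun v => Subtype.ext (congrArg n (e2 v v.2).symm)

theorem mem_R_of_fix (h : QK P Q B X z y) {ε : ZMod 2} {k : P.Ve z ε ≃ₗ[K] P.Ve z ε}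
    (hk : k ∈ P.kerX X z ε) {S : P.W1 z y ≃ₗ[ZMod 2] P.W1 z y} (hS : (P.res h.zy ε).Ind k S)
    {c : P.W1 z y} (hc : Q c = 1) (e : S c = c) : S = 1 := by
  have key : ∀ k ∈ P.kerX X z ε, Commute k ((P.res h.zy ε).ρ c) → (P.res h.zy ε).Ind k 1 := by
    intro k hk hkc
    obtain ⟨n, hn, hz, rfl, e⟩ := exists_of_mem_kerX hk
    have e1 : ∀ v ∈ P.Ve z (ε + 1), n v = v := fun v hv =>
      congrArg (fun k : P.Ve z (ε + 1) ≃ₗ[K] P.Ve z (ε + 1) => (k ⟨v, hv⟩ : V)) e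
    obtain ⟨T, hT⟩ := exists_ind_res h.zy (h.cent c hc n hn (P.ext_Ve z (forall_of_add_one (ε := ε)
      (fun v hv => congrArg (fun k : P.Ve z ε ≃ₗ[K] P.Ve z ε => (k ⟨v, hv⟩ : V)) hkc.eq)
      fun v hv => by
        rw [LinearEquiv.mul_apply, LinearEquiv.mul_apply, e1 v hv, e1 _ (ρ_mem_Ve' hv c.2.1)]))) hz
    have := hT (ε + 1)
    rw [e] at this
    exact this.unique (ind_of_mem_R (one_mem _)) ▸ hT ε
  obtain ⟨d, hd⟩ := hS c
  obtain ⟨a, w, ha⟩ := (P.res h.zy ε).exists_sg_of_conj_mem (g := k) (u := c) ⟨d, _, hd⟩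
  obtain ⟨rfl, -⟩ := (P.res h.zy ε).eq_of_sc_ρ (hd.symm.trans ha)
  rw [e] at ha
  rcases zmod2_cases a with rfl | rfl
  · exact hS.unique (key k hk (mul_inv_eq_iff_eq_mul.1 (by simpa using ha)))
  have hq := (h.res h.zy h.qz ε).quad
  obtain ⟨a, ha1, hac⟩ : ∃ a : P.W1 z y, Q a = 1 ∧ P.β a c = 1 := by
    obtain ⟨b, hb⟩ := (P.res h.zy ε).exists_β_eq_one (hq.ne_zero hc)
    rcases zmod2_cases (Q b) with e | e
    · obtain ⟨b', hb1, hb'⟩ := hq.exists_perp ![c, b] h.four_le (j := 0) hc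
      refine ⟨b + b', ?_, ?_⟩
      · rw [Submodule.coe_add, h.quad, e, hb1, show P.β b b' = 0 from hb' 1]; rfl
      · rw [← res_β _ h.zy ε, β_comm, β_add_right, hb, show (P.res h.zy ε).β c b' = 0 from hb' 0]
        rfl
    · exact ⟨b, e, by rw [P.β_comm]; exact hb⟩
  have := key _ (mul_mem (h.ρ_mem ε ha1) hk) (mul_inv_eq_iff_eq_mul.1 (by
    rw [show ∀ r : P.Ve z ε ≃ₗ[K] P.Ve z ε, r * k * (P.res h.zy ε).ρ c * (r * k)⁻¹ =
      r * (k * (P.res h.zy ε).ρ c * k⁻¹) * r⁻¹ from fun r => by group, ha, conj_sc_mul,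
      sc_mul_conj, conj_ρ, res_β, hac, ← mul_assoc, ← map_mul, sg_mul_self, map_one, one_mul]))
  simpa using ((ind_of_mem_R ⟨_, a, rfl⟩).mul hS).unique this

theorem kerX_le (h : QK P Q B X z y) (ε : ZMod 2) : P.kerX X z ε ≤ (P.res h.zy ε).R := by
  let G : Subgroup (P.W1 z y ≃ₗ[ZMod 2] P.W1 z y) :=
    { carrier := {S | ∃ k ∈ P.kerX X z ε, (P.res h.zy ε).Ind k S}
      one_mem' := ⟨1, one_mem _, ind_of_mem_R (one_mem _)⟩
      mul_mem' := fun ⟨_, h1, h2⟩ ⟨_, h3, h4⟩ => ⟨_, mul_mem h1 h3, h2.mul h4⟩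
      inv_mem' := fun ⟨_, h1, h2⟩ => ⟨_, inv_mem h1, h2.inv⟩ }
  have hG : Semi (P.res h.zy ε) (fun w => Q w) G :=
    { quad := (h.res h.zy h.qz ε).quad
      dim := by
        have := P.finrank_W1 h.zy
        refine h.dim.imp (fun e => by omega) fun e => ⟨by omega, fun v w h1 h2 h3 => ?_⟩
        exact (e.2 v v.2 w w.2 h1 h2 h3).imp Subtype.ext (Or.imp Subtype.ext Subtype.ext)
      isom := fun S ⟨k, hk, hS⟩ => by
        obtain ⟨n, hn, hc, rfl, -⟩ := exists_of_mem_kerX hk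
        exact (h.res h.zy h.qz ε).q_ind (P.resE_mem_resX ε hn hc) hS
      norm := fun S ⟨k, hk, hS⟩ a b ha hb => ⟨_, conj_mem_kerX
        (h.resE_s ε a b ▸ P.resE_mem_resX ε (h.h2.2 _ ha _ hb) (h.commute_s a b)) hk,
        ((ind_s_mul a b).mul hS).mul (ind_s_mul a b).inv⟩
      semi := fun S ⟨k, hk, hS⟩ c hc e => h.mem_R_of_fix hk hS hc e }
  intro k hk
  obtain ⟨S, hS⟩ := h.exists_ind hk
  exact Ind.mem_R (hG.eq_one ⟨k, hk, hS⟩ ▸ hS)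

theorem nrm (h : QK P Q B X z y) : P.Nrm X z := by
  intro g hg hc
  have hN : ∀ ε, ∃ S, (P.res h.zy ε).Ind (P.resE ε g hc) S := fun ε =>
    Pauli.exists_ind ((P.res h.zy ε).mem_N_of_forall ((h.res h.zy h.qz ε).quad.induct h.four_le
      (fun a ha => by
        have := h.kerX_le ε (conj_mem_kerX (P.resE_mem_resX ε hg hc) (h.ρ_mem ε ha))
        rw [conj_sc_mul] at this
        exact ((P.res h.zy ε).R.mul_mem_cancel_left ((P.res h.zy ε).sc_mem_R _)).1 this)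
      fun a b ⟨_, _, ha⟩ ⟨_, _, hb⟩ => let ⟨_, e⟩ := (P.res h.zy ε).conj_add ha hb; ⟨_, _, e⟩))
  choose S hS using hN
  have hQ : ∀ ε w, Q (S ε w) = Q w := fun ε =>
    (h.res h.zy h.qz ε).q_ind (P.resE_mem_resX ε hg hc) (hS ε)
  have hσ : ∀ ε (a b : P.W1 z y), (P.res h.zy ε).Ind
      (P.resE ε _ ((hc.mul_left (h.commute_s a b)).mul_left hc.inv_left))
      ((P.res h.zy ε).tv (S ε a) * (P.res h.zy ε).tv (S ε b)) := fun ε a b => by
    have := ((hS ε).mul (ind_s_mul a b)).mul (hS ε).inv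
    rw [← (h.res h.zy h.qz ε).quad.conj_tv (hQ ε), ← (h.res h.zy h.qz ε).quad.conj_tv (hQ ε)]
    convert this using 1
    · exact LinearEquiv.ext fun _ => rfl
    · group
  have h01 : S 1 = S 0 := (h.res h.zy h.qz 1).quad.eq_of_tv h.four_le fun a b ha hb => by
    obtain ⟨c, t, ht⟩ := Ind.mem_R (P := P.res h.zy 0)
      (by simpa using (ind_s_mul (S 0 a) (S 0 b)).inv.mul (hσ 0 a b))
    have hk := h.h2.2 _ ((hQ 0 a).trans ha) _ ((hQ 0 b).trans hb)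
    have h1 := h.kerX_le 1 (x := (sc _ c * (P.res h.zy 1).ρ t)⁻¹ *
      (((P.res h.zy 1).s (S 0 a) * ((P.res h.zy 1).s (S 0 b))⁻¹)⁻¹ *
      P.resE 1 _ ((hc.mul_left (h.commute_s a b)).mul_left hc.inv_left)))
      ⟨(sc V c * P.ρ t)⁻¹ * ((P.s (S 0 a) * (P.s (S 0 b))⁻¹)⁻¹ * (g * (P.s a * (P.s b)⁻¹) * g⁻¹)),
        mul_mem (inv_mem (h.h2.1 ⟨_, _, rfl⟩)) (mul_mem (inv_mem hk)
          (mul_mem (mul_mem hg (h.h2.2 _ ha _ hb)) (inv_mem hg))), fun _ => rfl, fun v hv => by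
        rw [LinearEquiv.mul_apply]
        exact (LinearEquiv.symm_apply_eq _).2
          (congrArg (fun k : P.Ve z 0 ≃ₗ[K] P.Ve z 0 => (k ⟨v, hv⟩ : V)) ht)⟩
    have h2 := ((ind_of_mem_R (P := P.res h.zy 1) ⟨c, t, rfl⟩).inv.mul
      ((ind_s_mul (S 0 a) (S 0 b)).inv.mul (hσ 1 a b))).unique (ind_of_mem_R h1)
    rw [inv_one, one_mul] at h2
    exact (inv_mul_eq_one.1 h2).symm
  have hz0 : z ≠ 0 := by
    rintro rfl
    simpa using h.zy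
  have key : ∀ w : P.W1 z y, g * P.ρ w * g⁻¹ ∈ P.R := fun w => by
    have h1 : ∀ ε, ∃ a, ∀ v ∈ P.Ve z ε, (P.ρ (S 0 w) * (g * P.ρ w * g⁻¹)) v = (sg K a : K) • v :=
      fun ε => by
        obtain ⟨d, hd⟩ := hS ε w
        obtain ⟨a, t, ha⟩ := (P.res h.zy ε).exists_sg_of_conj_mem (u := w) ⟨d, _, hd⟩
        obtain ⟨rfl, -⟩ := (P.res h.zy ε).eq_of_sc_ρ (hd.symm.trans ha)
        refine ⟨a, fun v hv => ?_⟩
        have e : (g * P.ρ w * g⁻¹) v = (sg K a : K) • P.ρ (S ε w) v :=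
          congrArg (fun k : P.Ve z ε ≃ₗ[K] P.Ve z ε => (k ⟨v, hv⟩ : V)) ha
        rw [LinearEquiv.mul_apply, e, map_smul,
          show S ε = S 0 by rcases zmod2_cases ε with rfl | rfl <;> simp [h01], ρ_ρ]
    obtain ⟨a, ha⟩ := h1 0
    obtain ⟨b, hb⟩ := h1 1
    exact (P.R.mul_mem_cancel_left (P.ρ_mem_R _)).1
      (P.mem_R_of_scalar hz0 ha hb (by rw [sg_val_mul_self, sg_val_mul_self]))
  intro w hw
  obtain ⟨t, e | ⟨c, e⟩⟩ := exists_W1' h.zy hw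
  · exact e ▸ key t
  · rw [e, conj_sc_mul, show g * (P.ρ t * P.ρ z) * g⁻¹ = g * P.ρ t * g⁻¹ * (g * P.ρ z * g⁻¹) by group,
      hc.eq, mul_inv_cancel_right]
    exact mul_mem (P.sc_mem_R c) (mul_mem (key t) (P.ρ_mem_R z))

end QK

theorem QF.le_N [Finite K] [FiniteDimensional K V] (h : QF P Q B X) (h2 : P.H2 {u | Q u = 1} X)
    (hW : 8 ≤ finrank (ZMod 2) W ∨ 6 ≤ finrank (ZMod 2) W ∧ ∀ z y, P.β z y = 1 → Q z = 0 →
      ∀ v ∈ P.W1 z y, ∀ w ∈ P.W1 z y, Q v = 0 → Q w = 0 → P.β v w = 0 → v = 0 ∨ w = 0 ∨ v = w)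
    (hN : ∀ x y (hy : P.β x y = 1), Q x = 1 → P.resX X x 0 ≤ (P.res hy 0).N) : X ≤ P.N := by
  have h5 : 5 ≤ finrank (ZMod 2) W := by rcases hW with e | e <;> omega
  have hn : ∀ x, Q x = 1 → P.Nrm X x := fun x hx =>
    let ⟨y, hy⟩ := P.exists_β_eq_one (h.quad.ne_zero hx); h.nrm_of_res hx hy (hN x y hy hx)
  refine endgame2 P h5 h.quad h2 (fun g hg u v c e => h.q_eq hg e) fun z hz g hg hc =>
    h.mem_N h2 h5 hn hz ?_ hg hc
  rcases zmod2_cases (Q z) with e | e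
  · obtain ⟨y, hy⟩ := P.exists_β_eq_one hz
    obtain ⟨y, hy1, hy', -⟩ := P.eg_exists_Q_eq_one h5 h.quad y z z
    have hzy : P.β z y = 1 := by rw [P.β_comm, hy', P.β_comm, hy]
    exact QK.nrm (y := y) ⟨h, h2, fun x hx g hg hc =>
      h.mem_N h2 h5 hn (h.quad.ne_zero hx) (hn x hx) hg hc, hzy, e, hy1,
      hW.imp_right fun e' => ⟨e'.1, e'.2 z y hzy e⟩⟩
  · exact hn z e

theorem H2.h1_res (h2 : P.H2 {u | Q u = 1} X) (hQ : P.IsQuad Q) {x y : W} (hx : Q x = 1)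
    (hy : P.β x y = 1) : (P.res hy 0).H1 (P.resX X x 0) := by
  have key : ∀ w, P.β x w = 0 → Q w = 1 → ∃ g ∈ X, Commute g (P.ρ x) ∧
      ∀ v ∈ P.Ve x 0, P.s w v = g v := fun w hw h1 =>
    ⟨_, h2.2 w h1 x hx, (P.commute_ρ_s hw).symm.mul_left (P.commute_ρ_s (P.alt x)).symm.inv_left,
      fun v hv => by
        rw [LinearEquiv.mul_apply, s_inv_apply, P.mem_Ve_zero.1 hv, ← add_smul, add_comm, P.α_add,
          one_smul]⟩
  refine ⟨res_R_le h2.1 hy 0, fun w => ?_⟩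
  rcases zmod2_cases (Q w) with e | e
  · obtain ⟨g, hg, hc, e'⟩ := key (w + x) (by rw [P.β_add_right, w.2.1, P.alt, add_zero])
      (by rw [hQ, e, hx, P.β_comm, w.2.1]; rfl)
    obtain ⟨a, ha⟩ := P.mul_of_β_zero (u := w) (v := x) (by rw [P.β_comm, w.2.1])
    have h1 : ∀ v ∈ P.Ve x 0, P.ρ w v = (sg K a : K) • P.ρ (w + x) v := fun v hv => by
      rw [← P.mem_Ve_zero.1 hv, ← LinearEquiv.mul_apply, ha, P.mem_Ve_zero.1 hv]; rfl
    rcases zmod2_cases a with rfl | rfl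
    · exact ⟨g, hg, hc, fun v => by rw [← e' v v.2, res_s_apply, s_apply, s_apply, h1 v v.2]; simp⟩
    · refine ⟨sc V P.i * P.ρ (w + x) * g, mul_mem (h2.1 ⟨_, _, rfl⟩) hg,
        ((commute_sc _ _).symm.mul_left (P.commute_ρ (by
          rw [P.β_add_left, P.alt, P.β_comm, w.2.1, add_zero]))).mul_left hc, fun v => ?_⟩
      rw [LinearEquiv.mul_apply, ← e' v v.2, ← LinearEquiv.mul_apply, i_ρ_s_apply, res_s_apply,
        s_apply, h1 v v.2]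
      simp [sub_eq_add_neg]
  · obtain ⟨g, hg, hc, e'⟩ := key w w.2.1 e
    exact ⟨g, hg, hc, fun v => e' v v.2⟩

end Pauli

end Cfsg.Lib.Class.C6
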