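import Cfsg.Agent.Class.C6.Ovoid
import Cfsg.Agent.Class.C6.Endgame

/-!
# Subgroups of `O(W, Q)` over `F₂` normalised by the products of two transvections
-/

set_option autoImplicit false
set_option linter.unusedSectionVars false

namespace Cfsg.Lib.Class.C6

open Module

variable {K V W : Type*} [Field K] [AddCommGroup V] [Module K V] [AddCommGroup W]
  [Module (ZMod 2) W] [Finite W]

namespace Pauli

variable (P : Pauli K V W)

/-- the transvection in `a` -/
noncomputable def tv (a : W) : W ≃ₗ[ZMod 2] W := P.act ⟨P.s a, P.s_mem_N a⟩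

theorem tv_apply (a w : W) : P.tv a w = w + P.β w a • a := P.act_s a w

theorem tv_of_perp {a w : W} (h : P.β a w = 0) : P.tv a w = w := by
  rw [tv_apply, P.β_comm, h, zero_smul, add_zero]

theorem tv_mul_self (a : W) : P.tv a * P.tv a = 1 := LinearEquiv.ext fun w => by
  simp [tv_apply, P.alt, add_add_self]

theorem tv_tv (a w : W) : P.tv a (P.tv a w) = w := by
  rw [← LinearEquiv.mul_apply, P.tv_mul_self]; rfl

theorem tv_inv (a : W) : (P.tv a)⁻¹ = P.tv a := inv_eq_of_mul_eq_one_right (P.tv_mul_self a)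

theorem eq_of_tv_eq {a b : W} (ha : a ≠ 0) (h : P.tv a = P.tv b) : a = b := by
  by_contra hab
  obtain ⟨y, h1, h2⟩ := P.exists_β_two ha hab
  have := congrArg (fun g : W ≃ₗ[ZMod 2] W => g y) h
  simp [tv_apply, h1, h2, ha] at this

/-- no totally singular plane -/
def Minus (Q : W → ZMod 2) : Prop :=
  ∀ v w, Q v = 0 → Q w = 0 → P.β v w = 0 → v = 0 ∨ w = 0 ∨ v = w

variable {P} {Q : W → ZMod 2}

theorem IsQuad.ne_zero (hQ : P.IsQuad Q) {a : W} (ha : Q a = 1) : a ≠ 0 := by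
  rintro rfl; simp [hQ.zero] at ha

theorem IsQuad.β_eq (hQ : P.IsQuad Q) (u v : W) : P.β u v = Q (u + v) + Q u + Q v := by
  rw [hQ]
  generalize Q u = a, Q v = b, P.β u v = c
  revert a b c; decide

theorem IsQuad.β_map (hQ : P.IsQuad Q) {S : W ≃ₗ[ZMod 2] W} (hS : ∀ w, Q (S w) = Q w) (u v : W) :
    P.β (S u) (S v) = P.β u v := by rw [hQ.β_eq, hQ.β_eq, ← map_add, hS, hS, hS]

theorem IsQuad.q_tv (hQ : P.IsQuad Q) {a : W} (ha : Q a = 1) (w : W) : Q (P.tv a w) = Q w := by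
  rw [tv_apply]
  rcases zmod2_cases (P.β w a) with h | h
  · simp [h]
  · rw [h, one_smul, hQ, ha, h, add_assoc, zmod2_add_self, add_zero]

theorem IsQuad.conj_tv (hQ : P.IsQuad Q) {S : W ≃ₗ[ZMod 2] W} (hS : ∀ w, Q (S w) = Q w) (a : W) :
    S * P.tv a * S⁻¹ = P.tv (S a) := mul_inv_eq_iff_eq_mul.2 (LinearEquiv.ext fun w => by
  simp [tv_apply, hQ.β_map hS])

theorem IsQuad.exists_of_β (hQ : P.IsQuad Q) {S : Submodule (ZMod 2) W} {u v : W} (hu : u ∈ S)
    (hv : v ∈ S) (h : P.β u v = 1) : ∃ c ∈ S, Q c = 1 := by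
  by_contra! hc
  have := hQ u v
  rw [zmod2_eq_zero (hc _ hu), zmod2_eq_zero (hc _ hv), zmod2_eq_zero (hc _ (add_mem hu hv)), h]
    at this
  simp at this

theorem IsQuad.exists_one (hQ : P.IsQuad Q) (hW : 1 ≤ finrank (ZMod 2) W) : ∃ c, Q c = 1 := by
  have : Nontrivial W := Module.nontrivial_of_finrank_pos (R := ZMod 2) hW
  obtain ⟨u, hu⟩ := exists_ne (0 : W)
  obtain ⟨v, hv⟩ := P.exists_β_eq_one hu
  obtain ⟨c, -, hc⟩ := hQ.exists_of_β (S := ⊤) trivial trivial hv
  exact ⟨c, hc⟩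

theorem IsQuad.exists_perp (hQ : P.IsQuad Q) {k : ℕ} (a : Fin k → W)
    (hk : 2 * k ≤ finrank (ZMod 2) W) {j : Fin k} (hj : Q (a j) = 1) :
    ∃ c, Q c = 1 ∧ ∀ j, P.β (a j) c = 0 := by
  by_contra! hc
  set A := Submodule.span (ZMod 2) (Set.range a)
  have hA : finrank (ZMod 2) A ≤ k := (finrank_range_le_card (R := ZMod 2) a).trans (by simp)
  have h0 : ∀ c ∈ P.β.orthogonal A, Q c = 0 := fun c hc' => zmod2_eq_zero fun e => by
    obtain ⟨j, hj⟩ := hc c e
    exact hj (P.eg_mem_orth.1 hc' _ (Submodule.subset_span ⟨j, rfl⟩))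
  have h1 : P.β.orthogonal A ≤ A := by
    conv_rhs => rw [← LinearMap.BilinForm.orthogonal_orthogonal P.eg_nondeg
      (fun u v h => by rw [P.β_comm, h]) A]
    intro c hc'
    refine P.eg_mem_orth.2 fun b hb => zmod2_eq_zero fun e => ?_
    obtain ⟨d, hd, hd'⟩ := hQ.exists_of_β hb hc' e
    simp [h0 d hd] at hd'
  have h2 := Submodule.eq_of_le_of_finrank_le h1 (by rw [P.eg_finrank_orth]; omega)
  have := h0 (a j) (h2.symm ▸ Submodule.subset_span ⟨j, rfl⟩)
  simp [hj] at this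

theorem IsQuad.induct (hQ : P.IsQuad Q) (hW : 4 ≤ finrank (ZMod 2) W) {p : W → Prop}
    (h1 : ∀ a, Q a = 1 → p a) (h2 : ∀ a b, p a → p b → p (a + b)) (w : W) : p w := by
  rcases zmod2_cases (Q w) with hw | hw
  · obtain ⟨a, ha⟩ := hQ.exists_one (by omega)
    obtain ⟨c, hc, hc'⟩ := hQ.exists_perp ![a, w] hW (j := 0) ha
    rw [← add_add_self w c]
    exact h2 _ _ (h1 _ (by rw [hQ, hw, hc, show P.β w c = 0 from hc' 1]; rfl)) (h1 c hc)
  · exact h1 w hw

theorem IsQuad.eq_of_tv (hQ : P.IsQuad Q) (hW : 4 ≤ finrank (ZMod 2) W) {S T : W ≃ₗ[ZMod 2] W}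
    (h : ∀ a b, Q a = 1 → Q b = 1 → P.tv (S a) * P.tv (S b) = P.tv (T a) * P.tv (T b)) : S = T := by
  refine LinearEquiv.ext (hQ.induct hW (fun a ha => ?_) fun a b ha hb => by simp [ha, hb])
  have key : ∀ w, P.β a w = 0 → w ≠ 0 → w ≠ a → S a ∈ Submodule.span (ZMod 2) {T a, T w} :=
    fun w hw h0 h1 => by
      obtain ⟨b, hb, hab, hb', hbw⟩ : ∃ b, Q b = 1 ∧ P.β a b = 0 ∧ a ≠ b ∧
          T b ∈ Submodule.span (ZMod 2) {T a, T w} := by
        rcases zmod2_cases (Q w) with e | e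
        · exact ⟨a + w, by rw [hQ, ha, e, hw]; rfl, by rw [P.β_add_right, P.alt, hw, add_zero],
            by simpa using h0, by
              rw [map_add]
              exact add_mem (Submodule.subset_span (by simp)) (Submodule.subset_span (by simp))⟩
        · exact ⟨w, e, hw, h1.symm, Submodule.subset_span (by simp)⟩
      obtain ⟨y, hy, hy'⟩ := P.exists_β_two (a := S a) (u := S b)
        (by simpa using hQ.ne_zero ha) (by simpa using hb')
      have := congrArg (fun g : W ≃ₗ[ZMod 2] W => g y) (h a b ha hb)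
      simp only [LinearEquiv.mul_apply, tv_apply, hy, hy', zero_smul, add_zero, one_smul,
        add_assoc, add_right_inj] at this
      rw [this]
      exact add_mem (Submodule.smul_mem _ _ hbw)
        (Submodule.smul_mem _ _ (Submodule.subset_span (by simp)))
  obtain ⟨w, hw, hw0, hwa, -⟩ := P.exists_perp_ne ![a] a a (by omega)
  obtain ⟨w', hw', hw0', hwa', hww, hwaw⟩ := P.exists_perp_ne ![a] a w (by omega)
  obtain ⟨c, d, e⟩ := Submodule.mem_span_pair.1 (key w (hw 0) hw0 hwa)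
  obtain ⟨c', d', e'⟩ := Submodule.mem_span_pair.1 (key w' (hw' 0) hw0' hwa')
  have h0 : S a ≠ 0 := by simpa using hQ.ne_zero ha
  have e2 := e.trans e'.symm
  simp only [← map_smul, ← map_add, T.injective.eq_iff] at e2
  rcases zmod2_cases d with rfl | rfl
  · rcases zmod2_cases c with rfl | rfl
    · simp [h0.symm] at e
    · simpa using e.symm
  exfalso
  obtain ⟨y, hy, hya, hyw⟩ := P.exists_β_three hw0' hwa' hww hwaw
  obtain ⟨y', hy', hya'⟩ := P.exists_β_two hw0 hwa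
  have h1 := congrArg (P.β y) e2
  have h2 := congrArg (P.β y') e2
  simp only [map_add, map_smul, hy, hya, hyw, hy', hya', smul_eq_mul, mul_zero, mul_one,
    zero_add] at h1 h2
  simp [← h1] at h2

/-- the hypotheses on a group of isometries acting semiregularly on the non-singular vectors -/
structure Semi (P : Pauli K V W) (Q : W → ZMod 2) (G : Subgroup (W ≃ₗ[ZMod 2] W)) : Prop where
  quad : P.IsQuad Q
  dim : 6 ≤ finrank (ZMod 2) W ∨ 4 ≤ finrank (ZMod 2) W ∧ P.Minus Q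
  isom : ∀ S ∈ G, ∀ w, Q (S w) = Q w
  norm : ∀ S ∈ G, ∀ a b, Q a = 1 → Q b = 1 → P.tv a * P.tv b * S * (P.tv a * P.tv b)⁻¹ ∈ G
  semi : ∀ S ∈ G, ∀ c, Q c = 1 → S c = c → S = 1

namespace Semi

variable {G : Subgroup (W ≃ₗ[ZMod 2] W)} {S : W ≃ₗ[ZMod 2] W}

theorem four_le (h : Semi P Q G) : 4 ≤ finrank (ZMod 2) W := by
  rcases h.dim with e | e <;> omega

theorem tv_eq (h : Semi P Q G) (hS : S ∈ G) {a b c : W} (ha : Q a = 1) (hb : Q b = 1) (hc : Q c = 1)
    (e : (P.tv (S a) * P.tv (S b)) c = (P.tv a * P.tv b) c) :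
    P.tv (S a) * P.tv (S b) = P.tv a * P.tv b := by
  have h1 := mul_mem (h.norm _ (inv_mem hS) b a hb ha) hS
  have h2 : P.tv b * P.tv a * S⁻¹ * (P.tv b * P.tv a)⁻¹ * S =
      (S⁻¹ * (P.tv (S a) * P.tv (S b))⁻¹ * S) * (S⁻¹ * (P.tv a * P.tv b) * S) := by
    rw [← h.quad.conj_tv (h.isom S hS), ← h.quad.conj_tv (h.isom S hS)]
    simp only [mul_inv_rev, P.tv_inv]
    group
  have h3 : (P.tv (S a) * P.tv (S b))⁻¹ * (P.tv a * P.tv b) ∈ G := by
    have := mul_mem (mul_mem hS h1) (inv_mem hS)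
    rw [h2] at this
    convert this using 1
    group
  exact inv_mul_eq_one.1 (h.semi _ h3 c hc (by
    rw [LinearEquiv.mul_apply, ← e, inv_apply_apply]))

theorem sq_apply (h : Semi P Q G) (hS : S ∈ G) {a : W} (ha : Q a = 1) :
    S (S a) = a + P.β a (S a) • S a := by
  have hSa : Q (S a) = 1 := by rw [h.isom S hS, ha]
  obtain ⟨c, hc, hc'⟩ := h.quad.exists_perp ![a, P.tv (S a) (S (S a))] h.four_le (j := 0) ha
  have e1 : P.tv (S a) * P.tv (S (S a)) = P.tv (P.tv (S a) (S (S a))) * P.tv (S a) := by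
    rw [← h.quad.conj_tv (h.quad.q_tv hSa), inv_mul_cancel_right]
  have e2 := h.tv_eq hS ha hSa (c := P.tv (S a) c) (by rw [h.quad.q_tv hSa, hc]) (by
    rw [e1]
    simp only [LinearEquiv.mul_apply]
    rw [P.tv_tv]
    exact (P.tv_of_perp (hc' 1)).trans (P.tv_of_perp (hc' 0)).symm)
  rw [e1] at e2
  have e3 := P.eq_of_tv_eq (h.quad.ne_zero ha) (mul_right_cancel e2).symm
  rw [← tv_apply, ← P.tv_tv (S a) (S (S a)), ← e3]

theorem eq_one_of_sq (h : Semi P Q G) (hS : S ∈ G) (h2 : S * S = 1) : S = 1 := by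
  by_contra h1
  have hfix : ∀ c, S c = c → Q c = 0 := fun c e => zmod2_eq_zero fun hc => h1 (h.semi S hS c hc e)
  let T : W →ₗ[ZMod 2] W := (S : W →ₗ[ZMod 2] W) + LinearMap.id
  have hT : ∀ w, w ∈ LinearMap.ker T ↔ S w = w := fun w => add_eq_zero_iff'
  have hd : finrank (ZMod 2) W ≤ 2 * finrank (ZMod 2) (LinearMap.ker T) := by
    have h3 := T.finrank_range_add_finrank_ker
    have h4 : LinearMap.range T ≤ LinearMap.ker T := by
      rintro _ ⟨w, rfl⟩
      rw [hT]
      change S (S w + w) = S w + w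
      rw [map_add, ← LinearEquiv.mul_apply, h2, add_comm]; rfl
    have := Submodule.finrank_mono h4
    omega
  rcases h.dim with h6 | ⟨h4, hm⟩
  · obtain ⟨u, hu⟩ := h.quad.exists_one (by omega)
    obtain ⟨f, ⟨hf, huf⟩, hf0, hf1⟩ := eg_exists_ne_single
      (T := LinearMap.ker T ⊓ LinearMap.ker (P.β u)) (by
        have h3 := Submodule.finrank_sup_add_finrank_inf_eq (LinearMap.ker T) (LinearMap.ker (P.β u))
        have h4 := Submodule.finrank_le (LinearMap.ker T ⊔ LinearMap.ker (P.β u))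
        have h5 := (P.β u).finrank_range_add_finrank_ker
        have h6 : finrank (ZMod 2) (LinearMap.range (P.β u)) ≤ 1 := by
          simpa using Submodule.finrank_le (LinearMap.range (P.β u))
        omega) (u + S u)
    replace hf : S f = f := (hT f).1 hf
    replace huf : P.β u f = 0 := huf
    have hsf : P.β (S u) f = 0 := by rw [← hf, h.quad.β_map (h.isom S hS), huf]
    obtain ⟨c, hc, hc'⟩ := h.quad.exists_perp ![u, f, S u] h6 (j := 0) hu
    have c0 : P.β u c = 0 := hc' 0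
    have c1 : P.β f c = 0 := hc' 1
    have c2 : P.β (S u) c = 0 := hc' 2
    have e := h.tv_eq hS hu (b := u + f) (by rw [h.quad, hu, hfix f hf, huf]; rfl) hc (by
      simp [tv_apply, P.β_comm c, c0, c1, c2, hf])
    obtain ⟨w, hw, hw'⟩ := P.exists_β_two hf0 hf1
    have e' := congrArg (fun g : W ≃ₗ[ZMod 2] W => g w) e
    have hw'' : P.β w (S u) = P.β w u := by
      rw [P.β_add_right] at hw'
      exact (add_eq_zero_iff'.1 hw').symm
    have : S u = u := by
      rcases zmod2_cases (P.β w u) with e2 | e2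
      · simpa [tv_apply, hf, hw, hw'', e2, P.alt, P.β_comm f, huf, hsf] using e'
      · simpa [tv_apply, hf, hw, hw'', e2, zmod2_add_self] using e'
    simp [hfix u this] at hu
  · obtain ⟨v, hv, hv0, -⟩ := eg_exists_ne_single (T := LinearMap.ker T) (by omega) 0
    obtain ⟨w, hw, hw0, hwv⟩ := eg_exists_ne_single (T := LinearMap.ker T) (by omega) v
    have := h.quad.β_eq v w
    rw [hfix _ ((hT _).1 hv), hfix _ ((hT _).1 hw), hfix _ ((hT _).1 (add_mem hv hw))] at this
    rcases hm v w (hfix _ ((hT _).1 hv)) (hfix _ ((hT _).1 hw)) this with e | e | e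
    exacts [hv0 e, hw0 e, hwv e.symm]

theorem eq_one (h : Semi P Q G) (hS : S ∈ G) : S = 1 := by
  by_contra h1
  have hβ := h.quad.β_map (h.isom S hS)
  have key : ∀ a, Q a = 1 → P.β a (S a) = 1 := fun a ha => zmod2_eq_one fun e =>
    h1 (h.eq_one_of_sq hS (h.semi _ (mul_mem hS hS) a ha (by
      rw [LinearEquiv.mul_apply, h.sq_apply hS ha, e, zero_smul, add_zero])))
  obtain ⟨a, ha⟩ := h.quad.exists_one (by have := h.four_le; omega)
  obtain ⟨b, hb, hb'⟩ := h.quad.exists_perp ![a, S a] h.four_le (j := 0) ha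
  have ab : P.β a b = 0 := hb' 0
  have sab : P.β (S a) b = 0 := hb' 1
  have sasb : P.β (S a) (S b) = 0 := by rw [hβ, ab]
  have asb : P.β a (S b) = 0 := by
    have := hβ (S a) b
    rwa [h.sq_apply hS ha, key a ha, one_smul, P.β_add_left, sasb, add_zero, sab] at this
  have asa := key a ha
  have bsb := key b hb
  rcases h.dim with h6 | ⟨h4, hm⟩
  · obtain ⟨c, hc, hc0⟩ := P.exists_perp_notMem ![a, S a, b, S b] ⊥ (by simp; omega)
    obtain ⟨w, hw⟩ := P.exists_β_eq_one (u := c) (by simpa using hc0)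
    have c0 : P.β a c = 0 := hc 0
    have c1 : P.β (S a) c = 0 := hc 1
    have c2 : P.β b c = 0 := hc 2
    have c3 : P.β (S b) c = 0 := hc 3
    obtain ⟨d, ⟨⟨d0, d1⟩, d2, d3⟩, hd⟩ := h.quad.exists_of_β (S := P.W1 a (S a) ⊓ P.W1 b (S b))
      (u := c) (v := w + P.β (S a) w • a + P.β a w • S a + P.β (S b) w • b + P.β b w • S b)
      ⟨⟨c0, c1⟩, c2, c3⟩ (by
        simp [mem_W1, P.alt, ab, sab, sasb, asb, asa, bsb, P.β_comm (S a) a, P.β_comm b a,
          P.β_comm b (S a), P.β_comm (S b) a, P.β_comm (S b) (S a), P.β_comm (S b) b,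
          zmod2_add_self]) (by simp [hw, P.β_comm c a, P.β_comm c b, P.β_comm c (S _), c0, c1, c2, c3])
    have e := h.tv_eq hS ha hb hd (by
      simp only [LinearEquiv.mul_apply]
      rw [P.tv_of_perp d3, P.tv_of_perp d1, P.tv_of_perp d2, P.tv_of_perp d0])
    have e' := congrArg (fun g : W ≃ₗ[ZMod 2] W => g a) e
    simp [tv_apply, asb, asa, ab, P.alt, h.quad.ne_zero ha] at e'
  · have h2 : Q (a + b) = 0 := by rw [h.quad, ha, hb, ab]; rfl
    rcases hm (a + b) (S (a + b)) h2 (by rw [h.isom S hS, h2]) (by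
      simp [asa, asb, bsb, P.β_comm b (S a), sab, zmod2_add_self]) with e | e | e
    · simpa [P.β_comm (S a) a, asa, sab] using congrArg (P.β (S a)) e
    · simpa [asa, asb] using congrArg (P.β a) e
    · simpa [asa, asb, ab, P.alt] using congrArg (P.β a) e

end Semi

end Pauli

end Cfsg.Lib.Class.C6
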