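import Cfsg.Agent.Class.C6.BigFin
import Cfsg.Agent.Class.SpRootMax

/-!
# Class six in `Sp₄(p)` and `Sp₈(p)`
-/

set_option autoImplicit false
set_option linter.unusedSectionVars false

namespace Cfsg.Lib.Class.C6

open Module Form

section Abs

variable {F V : Type*} [Field F] [AddCommGroup V] [Module F V] {B : LinearMap.BilinForm F V}
  {M : Subgroup (V ≃ₗ[F] V)}

/-- `M` contains the involutions inverting the non-degenerate `θ`-invariant planes -/
def HasP (B : LinearMap.BilinForm F V) (θ : V →ₗ[F] V) (M : Subgroup (V ≃ₗ[F] V)) : Prop :=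
  ∀ v, B v (θ v) ≠ 0 → PInv B M v (θ v)

section

variable {θ : V →ₗ[F] V} {δ : F}

theorem _root_.Cfsg.Lib.Class.SkewRt.shortP (h : SkewRt B θ δ) (hA : B.IsAlt) (hM : HasP B θ M) {x b : V}
    (hx : B x (θ x) ≠ 0) (hP : PInv B M x b) (hb : ∀ s t : F, θ x ≠ s • x + t • b) :
    ∃ r, r ≠ 0 ∧ B x r = 0 ∧ B (θ x) r = 0 ∧ altR hA r x ∈ M := by
  have h0 := hP.1
  have h1 := hP.change hA (s := 1) (t := 0) (s' := -(B b (θ x) / B x b))
    (t' := B x (θ x) / B x b) (by simpa using ⟨hx, h0⟩)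
  simp only [one_smul, zero_smul, add_zero] at h1
  set b' := -(B b (θ x) / B x b) • x + (B x (θ x) / B x b) • b with hb'
  have e1 : B x (θ x - b') = 0 := by
    simp only [hb', map_sub, map_add, map_smul, hA.self_eq_zero, smul_eq_mul]
    field_simp
    ring
  have e2 : B b' (θ x) = 0 := by
    simp only [hb', map_add, map_smul, LinearMap.add_apply, LinearMap.smul_apply, smul_eq_mul]
    field_simp
    ring
  have e3 : B b' (θ x - b') = 0 := by simp [e2, hA.self_eq_zero]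
  have e4 : θ x - b' ≠ 0 := sub_ne_zero.2 (hb _ _)
  clear_value b'
  refine ⟨_, smul_ne_zero (div_ne_zero h.two h1.1) e4, by rw [map_smul, e1, smul_zero], ?_,
    h1.altR_mem hA (by simpa using hM _ hx) e1 e3⟩
  simp [alt_eq_zero_comm hA e2, hA.self_eq_zero]

theorem _root_.Cfsg.Lib.Class.SkewRt.shortP' (h : SkewRt B θ δ) (hA : B.IsAlt) (hM : HasP B θ M) {a b : V}
    (hP : PInv B M a b) (hb : ∀ s t : F, θ a ≠ s • a + t • b)
    (hx : B a (θ a) ≠ 0 ∨ B b (θ b) ≠ 0 ∨ B (a + b) (θ (a + b)) ≠ 0) :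
    ∃ x r, B x (θ x) ≠ 0 ∧ r ≠ 0 ∧ B x r = 0 ∧ B (θ x) r = 0 ∧ altR hA r x ∈ M := by
  rcases hx with hx | hx | hx
  · exact ⟨a, (h.shortP hA hM hx hP hb).imp fun r hr => ⟨hx, hr⟩⟩
  · refine ⟨b, (h.shortP hA hM hx (b := a) (by
      simpa using hP.change hA (s := 0) (t := 1) (s' := 1) (t' := 0) (by simp))
      fun s t e => ?_).imp fun r hr => ⟨hx, hr⟩⟩
    have ht : t ≠ 0 := by
      rintro rfl
      simp [e, hA.self_eq_zero] at hx
    have e' := congrArg θ e
    rw [h.sq, map_add, map_smul, map_smul, e] at e'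
    refine hb (-s) ((δ - s * s) / t) (smul_right_injective V ht ?_)
    simp only [smul_add, smul_smul, mul_div_cancel₀ _ ht]
    linear_combination (norm := module) -e'
  · refine ⟨a + b, (h.shortP hA hM hx (b := b) (by
      simpa using hP.change hA (s := 1) (t := 1) (s' := 0) (t' := 1) (by simp))
      fun s t e => ?_).imp fun r hr => ⟨hx, hr⟩⟩
    have ht : t ≠ 0 := by
      rintro rfl
      rw [e, zero_smul, add_zero, map_smul, hA.self_eq_zero, smul_zero] at hx
      exact hx rfl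
    have e' := congrArg θ e
    rw [h.sq, map_add θ (s • _), map_smul, map_smul, e] at e'
    rw [map_add] at e
    refine hb (s - (δ - s * s) / t) (s + t + s - (δ - s * s) / t) (smul_right_injective V ht ?_)
    simp only [smul_add, smul_smul, mul_sub, mul_div_cancel₀ _ ht]
    linear_combination (norm := module) t • e + e'

variable [Finite F] [FiniteDimensional F V]

theorem _root_.Cfsg.Lib.Class.SkewRt.exists_shortP (h : SkewRt B θ δ) (hA : B.IsAlt) (hd : 5 ≤ finrank F V)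
    (hM : HasP B θ M) (hle : M ≤ SpB B) {g : V ≃ₗ[F] V} (hg : g ∈ M)
    (hg1 : ¬ ∀ x, θ (g x) = g (θ x)) (hg2 : ¬ ∀ x, θ (g x) = -g (θ x)) :
    ∃ x r, B x (θ x) ≠ 0 ∧ r ≠ 0 ∧ B x r = 0 ∧ B (θ x) r = 0 ∧ altR hA r x ∈ M := by
  obtain ⟨v, hv, hb⟩ : ∃ v, B v (θ v) ≠ 0 ∧ ∀ s t : F, θ (g v) ≠ s • g v + t • g (θ v) := by
    by_contra! hcon
    rcases h.eq_or_neg hA hd (φ := (g.symm : V →ₗ[F] V) ∘ₗ θ ∘ₗ (g : V →ₗ[F] V))
      ⟨h.nondeg, h.two, fun x => by simp [h.sq], h.ne, fun x y => by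
        simp only [LinearMap.comp_apply, LinearEquiv.coe_coe]
        rw [SpB_symm_left (hle hg), h.skew, ← mem_SpB.1 (hle hg) x, g.apply_symm_apply]⟩
      (fun v hv => (hcon v hv).imp fun s hs => hs.imp fun t e => by simp [e]) with h1 | h1
    · exact hg1 fun x => by simpa using congrArg g (h1 x)
    · exact hg2 fun x => by simpa using congrArg g (h1 x)
  have hP := (hM _ hv).conj hg (hle hg)
  set a := g v
  set b := g (θ v)
  by_cases hx : B a (θ a) ≠ 0 ∨ B b (θ b) ≠ 0 ∨ B (a + b) (θ (a + b)) ≠ 0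
  · exact h.shortP' hA hM hP hb hx
  have hab : B a (θ b) = 0 := by
    by_contra h'
    exact hx (h.nonsing_or hA h')
  push Not at hx
  have hba : B b (θ a) = 0 := by rw [h.symm hA, hab]
  have h0 := hP.1
  have h0' : B (θ a) (θ b) ≠ 0 := by simpa [h.both, h.ne] using h0
  obtain ⟨y, y1, y2, y3, y4, hy⟩ : ∃ y, B a y = 0 ∧ B b y = 0 ∧ B (θ a) y = 0 ∧ B (θ b) y = 0 ∧
      B y (θ y) ≠ 0 := by
    have h1 := finrank_inf_orthogonal_ge h.nondeg ⊤ (Submodule.span F {θ a, θ b})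
    have h2 := spl_finrank_span_pair_le (F := F) a b
    have h3 := spl_finrank_span_pair_le (F := F) (θ a) (θ b)
    rw [finrank_top] at h1
    obtain ⟨z, hz, hz0, hz'⟩ := exists_mem_orth_notMem h.nondeg
      (⊤ ⊓ B.orthogonal (Submodule.span F {θ a, θ b})) (Submodule.span F {a, b}) ⊥
      (by rw [finrank_bot]; omega)
    have z1 := hz' _ (mem_span_pair_left _ _)
    have z2 := hz' _ (mem_span_pair_right _ _)
    have z3 := alt_mem_orthogonal.1 hz.2 _ (mem_span_pair_left _ _)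
    have z4 := alt_mem_orthogonal.1 hz.2 _ (mem_span_pair_right _ _)
    obtain ⟨y, hy⟩ := h.exists_ne (x := z) (by simpa using hz0)
    obtain ⟨s, t, y, e1, e2, rfl⟩ := exists_plane_proj hA h0 y
    obtain ⟨s', t', y, e3, e4, rfl⟩ := exists_plane_proj hA h0' y
    simp only [map_add, map_smul, hx.1, hx.2.1, hab, hba, smul_zero, zero_add] at e1 e2
    simp only [map_add, map_smul, h.sq, alt_eq_zero_comm hA z1, alt_eq_zero_comm hA z2,
      alt_eq_zero_comm hA z3, alt_eq_zero_comm hA z4, smul_zero, zero_add] at hy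
    rcases h.nonsing_or hA hy with h1 | h1 | h1
    exacts [⟨z, z1, z2, z3, z4, h1⟩, ⟨y, e1, e2, e3, e4, h1⟩,
      ⟨z + y, by simp [z1, e1], by simp [z2, e2], by simp [z3, e3], by simp [z4, e4], h1⟩]
  obtain ⟨-, k, hk, k1, -, k3⟩ := hP
  have y5 := h.skew0 y3
  have y6 := h.skew0 y4
  have hP' := (hM (a + y)
    (by simpa [hx.1, y5, alt_eq_zero_comm hA y3] using hy)).conj hk (hle hk)
  simp only [map_add, k1, k3 y y1 y2, k3 _ hx.1 hba, k3 _ y5 y6] at hP'
  refine h.shortP' hA hM hP' (fun s t e => ?_)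
    (Or.inl (by simpa [hx.1, y5, alt_eq_zero_comm hA y3] using hy))
  have e1 := congrArg (B (θ b)) e
  have e2 := congrArg (B y) e
  simp only [map_add, map_neg, map_smul, h.both, y2, y4, alt_eq_zero_comm hA hab,
    alt_eq_zero_comm hA y1, alt_eq_zero_comm hA y3, hA.self_eq_zero, smul_eq_mul] at e1 e2
  have h1 : t = -1 := mul_right_cancel₀ (mul_ne_zero h.ne (alt_ne_zero_comm hA h0))
    (by linear_combination e1)
  exact mul_ne_zero h.two hy (by rw [h1] at e2; linear_combination e2)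

theorem _root_.Cfsg.Lib.Class.SkewRoot.le_of_short (h : SkewRoot B θ δ) (hA : B.IsAlt)
    (hd : 5 ≤ finrank F V) (hM : HasP B θ M) (hle : M ≤ SpB B)
    (hU : ∀ k ∈ SpB B, (∀ x, k (θ x) = θ (k x)) → (∀ x, k (k x - x) = k x - x) → k ∈ M)
    {τ : V ≃ₗ[F] V} (hθ : τ ∈ M) (hτ : θ = τ) {x r : V} (hx : B x (θ x) ≠ 0) (hr0 : r ≠ 0)
    (r1 : B x r = 0) (r2 : B (θ x) r = 0) (hr : altR hA r x ∈ M) : SpB B ≤ M := by
  have h' := h.skewRt
  have h2 := h.two
  obtain ⟨v, v1, v2, hv, hrv⟩ : ∃ v, B x v = 0 ∧ B (θ x) v = 0 ∧ B v (θ v) = 0 ∧ B r v ≠ 0 := by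
    by_contra! hcon
    refine hr0 (h.nondeg.1 r fun w => ?_)
    obtain ⟨s, t, w, w1, w2, rfl⟩ := exists_plane_proj hA hx w
    have : B r w = 0 := h'.mem_of_sing hA hd hx (LinearMap.ker (B r)) hcon w1 w2
    simp [this, alt_eq_zero_comm hA r1, alt_eq_zero_comm hA r2]
  have hκ : δ * B r v ^ 2 - B r (θ v) ^ 2 ≠ 0 := fun e =>
    h.nonsq (B r (θ v) / B r v) (by field_simp; linear_combination -e)
  have hxT : x ∈ TSet hA M := by
    refine mem_TSet_of_altR_family h2 (alt_eq_zero_comm hA r1) hr fun c => ?_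
    set d := -c / (δ * B r v ^ 2 - B r (θ v) ^ 2) with hd
    have ek : ∀ w, (altTEquiv hA (θ v) d * altTEquiv hA v (-(δ * d))) w =
        w + (d * B w (θ v)) • θ v - (δ * d * B w v) • v := fun w => by
      simp only [LinearEquiv.mul_apply, altTEquiv_apply', map_add, map_smul, hv]
      module
    have hk' := mul_mem (altTEquiv_mem_SpB hA (θ v) d) (altTEquiv_mem_SpB hA v (-(δ * d)))
    have hk := hU _ hk' (fun w => by
      simp only [ek, map_add, map_sub, map_smul, h.sq, h.skew, smul_eq_mul]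
      module) fun w => by
        rw [ek w, add_sub_assoc, add_sub_cancel_left, ek]
        simp [hA.self_eq_zero, hv, alt_eq_zero_comm hA hv]
    have := M.mul_mem (M.mul_mem hk hr) (M.inv_mem hk)
    rw [altR_conj hA hk', ek x, ek r, v1, h'.skew0 v2, mul_zero, mul_zero, zero_smul, zero_smul,
      add_zero, sub_zero] at this
    refine ⟨_, ?_, this, ?_⟩
    · simp [alt_eq_zero_comm hA r1, alt_eq_zero_comm hA v1, alt_eq_zero_comm hA (h'.skew0 v2)]
    · simp only [map_add, map_sub, map_smul, hA.self_eq_zero, smul_eq_mul, hd]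
      field_simp
      ring
  have hθT : θ x ∈ TSet hA M := hτ ▸ apply_mem_TSet hθ (hle hθ) hxT
  have hT : ∀ s t : F, s • x + t • θ x ∈ TSet hA M := fun s t => by
    by_cases hs : s = 0
    · simpa [hs] using smul_mem_TSet hθT t
    · exact add_smul_mem_TSet (smul_mem_TSet hxT s) hθT (by simp [hs, hx]) t
  refine SpB_le_of_TSet h.nondeg hA (TSet_all_of_planeShift h.nondeg h2 hx hT fun z z1 z2 =>
    h'.mem_of_sing hA hd hx _ (fun z z1 z2 hz => ?_) z1 z2)
  have z3 := h'.skew0 z2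
  obtain ⟨-, k, hk, k1, -, k3⟩ := hM (x + z)
    (by simpa [hz, z3, alt_eq_zero_comm hA z2] using hx)
  have k4 := k3 z (by simp [z1, hA.self_eq_zero]) (by simp [z2, alt_eq_zero_comm hA hz])
  rw [map_add, k4] at k1
  have h3 := neg_mem_TSet (apply_mem_TSet hk (hle hk) hxT)
  rw [show -k x = x + (2 : F) • z by linear_combination (norm := module) -k1] at h3
  exact (Submodule.smul_mem_iff _ h2).1
    (mem_planeShift_of h2 hx hT (by simp [z1]) (by simp [z2]) h3)

end

theorem Big.SpB_le_eight [Finite F] [FiniteDimensional F V] {θ : V ≃ₗ[F] V} (h : Big B M θ)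
    (hB : B.Nondegenerate) (hA : B.IsAlt) (h2 : (2 : F) ≠ 0) (hMK : M ≤ SpB B)
    (hd : finrank F V = 8) : SpB B ≤ M := by
  have hS : SkewRt B θ (-1) := ⟨hB, h2, by simpa using h.sq, by simp, h.skew hMK⟩
  have hP : HasP B θ M := fun v hv => by
    obtain ⟨-, k, hk, k1, k2, k3⟩ := hS.pInv hA (M := Subgroup.centralizer {θ} ⊓ SpB B)
      (fun k hk e => ⟨Subgroup.mem_centralizer_singleton_iff.2 (LinearEquiv.ext e), hk⟩) hv
    refine ⟨hv, k, h.invol hd k hk.2 (Subgroup.mem_centralizer_singleton_iff.1 hk.1)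
      (LinearEquiv.ext fun w => ?_), k1, k2, k3⟩
    obtain ⟨s, t, y, y1, y2, rfl⟩ := exists_plane_proj hA hv w
    simp only [LinearEquiv.mul_apply, map_add, map_smul, map_neg, k1, k2, k3 y y1 y2, neg_neg]
    rfl
  obtain ⟨g, hg, h3⟩ := h.far'
  obtain ⟨x, r, hx, hr0, r1, r2, hr⟩ := hS.exists_shortP hA (by omega) hP hMK hg
    (fun e => h3 0 1 fun v => by simpa using (e v).symm)
    (fun e => h3 0 (-1) fun v => by simpa using neg_eq_iff_eq_neg.1 (e v).symm)
  by_cases hi : ∃ i : F, i * i = -1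
  · obtain ⟨i, hi⟩ := hi
    have hi0 : i ≠ 0 := by rintro rfl; simp at hi
    have hL := h.lagPair hMK h2 hi
    have h6 := hL.finrank_eq hB
    have hm : 3 ≤ finrank F (Eg θ i) := by omega
    have hR := h.hasShort hA hMK h2 hi
    obtain ⟨s, hs, hsW, hsU⟩ := h.swap_pair i
    have hs' := hMK hs
    obtain ⟨xw, hxw, xu, hxu, rfl⟩ := hL.exists_add x
    obtain ⟨rw, hrw, ru, hru, rfl⟩ := hL.exists_add r
    simp only [LinearEquiv.coe_coe, map_add, map_smul, LinearMap.add_apply, LinearMap.smul_apply,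
      mem_Eg.1 hxw, mem_Eg.1 hxu, hL.left xw hxw rw hrw, hL.right xu hxu ru hru, hA.self_eq_zero,
      ← hA.neg_eq xw xu, smul_eq_mul] at hx r1 r2
    obtain ⟨b, hb0, hb⟩ := hL.exists_mem_TSet_of_short hB h2 hR hm hxw hxu hrw hru
      (fun e => hx (by simp [e])) hr0
      ((mul_eq_zero.1 (show 2 * i * B xw ru = 0 by linear_combination i * r1 + r2)).resolve_left
        (mul_ne_zero h2 hi0))
      ((mul_eq_zero.1 (show 2 * i * B xu rw = 0 by linear_combination i * r1 - r2)).resolve_left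
        (mul_ne_zero h2 hi0)) hr
    obtain ⟨e, he, he0, heT⟩ : ∃ e ∈ Eg θ i, e ≠ 0 ∧ e ∈ TSet hA M := by
      obtain ⟨w, hw, u, hu, rfl⟩ := hL.exists_add b
      by_cases hu0 : u = 0
      · rw [hu0, add_zero] at hb hb0
        exact ⟨w, hw, hb0, hb⟩
      by_cases hw0 : w = 0
      · rw [hw0, zero_add] at hb
        exact ⟨s u, hsU.le ⟨u, hu, rfl⟩, s.map_ne_zero_iff.2 hu0, apply_mem_TSet hs hs' hb⟩
      exact exists_mem_TSet_left hB h2 hL hR hm hw hu hw0 hu0 hb
    have hW : ∀ w ∈ Eg θ i, w ∈ TSet hA M := by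
      intro w hw
      by_cases hw0 : w = 0
      · rw [hw0]
        exact zero_mem_TSet hA M
      simpa using TSet_moveW hB hL hR hm he hw (Eg θ (-i)).zero_mem he0 hw0 (by simp) (by simpa)
    refine SpB_le_of_TSet hB hA (TSet_all_of_left_right hB hL hW fun u hu => ?_)
    obtain ⟨w, hw, rfl⟩ := hsW.ge hu
    exact apply_mem_TSet hs hs' (hW w hw)
  exact (h.skewRoot hB hMK h2 hi).le_of_short hA (by omega) hP hMK
    (fun k hk e => h.unip k hk (LinearEquiv.ext e)) h.mem rfl hx hr0 r1 r2 hr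

end Abs

section Mat

open Cfsg.Geo Asch
open scoped MatrixGroups

variable {F : Type*} [Field F] [Fintype F] {p : ℕ}

theorem finrank_eq_of_card {K W ι : Type*} [Field K] [AddCommGroup W] [Module (ZMod 2) W] [Finite W]
    [Fintype ι] (P : Pauli K (ι → K) W) {k : ℕ} (h : Fintype.card ι = 2 ^ k) :
    finrank (ZMod 2) W = 2 * k := by
  obtain ⟨m, hm, hm'⟩ := P.exists_finrank
  rw [finrank_fintype_fun_eq_card, h] at hm'
  rw [hm, Nat.pow_right_injective le_rfl hm']

theorem isMaximalIn_sp_two (hp : p.Prime) (hF : Fintype.card F = p)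
    {R : Subgroup (GL (Fin 2 ⊕ Fin 2) F)} (hR : IsSymplecticTypeGroup 2 R)
    (hirr : ActsAbsolutelyIrreducibly (matrixSet R)) (hRD : R ≤ spGL 2 F) :
    IsMaximalIn (spGL 2 F) (subgroupNormalizer R ⊓ spGL 2 F) := by
  obtain ⟨K, _, _, b, W, _, _, _, P, Q, B, h, -⟩ := sp_exists_dsc hp hF le_rfl hR hirr hRD
  have hA := sympBilin_isAlt (F := F) 2
  refine isMaximalIn_spGL_of 2 (mem_normalizer_iff_glLin R) (isMaximalIn_of_forall inf_le_right
    (fun e => h.not_SpB_le (sympBilin_nondegenerate 2) hA (by simp) (e.trans inf_le_left))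
    fun M hN hM g hg hgN => SpB_le_of_altT_mem (sympBilin_nondegenerate 2) hA M fun w c => ?_)
  exact (h.le_or_four (addSubgroup_eq_top_of_card_prime hp hF)
    (finrank_eq_of_card P (k := 2) (by simp)) hA hN hM).resolve_left (fun e => hgN ⟨e hg, hM hg⟩) _
    (altTEquiv_mem_SpB hA w c) fun u v => by simp [altTEquiv_apply', hA.self_eq_zero]

theorem isMaximalIn_sp_four (hp : p.Prime) (hF : Fintype.card F = p)
    {R : Subgroup (GL (Fin 4 ⊕ Fin 4) F)} (hR : IsSymplecticTypeGroup 2 R)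
    (hirr : ActsAbsolutelyIrreducibly (matrixSet R)) (hRD : R ≤ spGL 4 F) :
    IsMaximalIn (spGL 4 F) (subgroupNormalizer R ⊓ spGL 4 F) := by
  obtain ⟨K, _, _, b, W, _, _, _, P, Q, B, h, hT⟩ := sp_exists_dsc hp hF (by omega) hR hirr hRD
  have hA := sympBilin_isAlt (F := F) 4
  have h6 := finrank_eq_of_card P (k := 3) (by simp)
  refine isMaximalIn_spGL_of 4 (mem_normalizer_iff_glLin R) (isMaximalIn_of_forall inf_le_right
    (fun e => h.not_SpB_le (sympBilin_nondegenerate 4) hA (by simp) (e.trans inf_le_left))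
    fun M hN hM g hg hgN => ?_)
  obtain ⟨θ, hθ⟩ := (h.le_or (hT h6.ge) (Or.inr ⟨h6.ge, (h.qf hM).alt_six (h.alt hA) h6⟩) hN
    hM).resolve_left fun e => hgN ⟨e hg, hM hg⟩
  exact hθ.SpB_le_eight (sympBilin_nondegenerate 4) hA h.two hM (by simp)

end Mat

end Cfsg.Lib.Class.C6
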