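import Cfsg.Agent.Class.C6.Descent

/-!
# Symplectic and orthogonal types: the towers, the minus type, and the concrete base change
-/

set_option autoImplicit false
set_option linter.unusedSectionVars false

namespace Cfsg.Lib.Class.C6

open Module Form

universe u

section Abs

variable {F V₀ K V W : Type*} [Field F] [AddCommGroup V₀] [Module F V₀] [Field K] [AddCommGroup V]
  [Module K V] [AddCommGroup W] [Module (ZMod 2) W] [Finite W] [FiniteDimensional K V]
  {b : BC F V₀ K V} {P : Pauli K V W} {Q : W → ZMod 2} {B₀ : V₀ →ₗ[F] V₀ →ₗ[F] F}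
  {B : V →ₗ[K] V →ₗ[K] K} {R G M : Subgroup (V₀ ≃ₗ[F] V₀)}

theorem tw_L [Finite K] (hK : ∀ A : AddSubgroup K, (1 : K) ∈ A → A = ⊤)
    (hW : 6 ≤ finrank (ZMod 2) W) : Tw b P B₀ := by
  intro M _ x y hy h1 a ha hd
  obtain ⟨m, hm, -⟩ := (P.res hy 0).exists_finrank
  have h2 := P.finrank_W1 hy
  refine (PL.all hK (m := m) (by omega) _ _ (P.res hy 0) hm _ h1).imp_right fun h T _ hc hT => ?_
  exact Pauli.SLV_le_of_norm_of_mem (P := P.res hy 0)
    (le_trans (by norm_num) ((P.res hy 0).pow_le_finrank (m := 2) (by omega)))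
    (fun k hk y hy => conj_mem_of_scMul (P.resX_scMul _ _ _ (h hk)) hy) ha hd hT

theorem Dsc.tw_U [Finite K] (h : Dsc b P Q B₀ B R G) {σ : K →+* K}
    (hK : ∀ A : AddSubgroup K, (1 : K) ∈ A → ∀ a, σ a = a → a ∈ A) (hσ : ∀ a, σ (σ a) = a)
    (hi : σ P.i = -P.i) (hf : ∀ a, σ (b.f a) = b.f a) (κ : V →ₛₗ[σ] V)
    (hκ : ∀ v, κ (b.j v) = b.j v) (hs : (∀ u v, B₀ u v = B₀ v u) ∨ ∀ u v, B₀ u v = -B₀ v u)
    (hW : 6 ≤ finrank (ZMod 2) W) : Tw b P B₀ := by
  obtain ⟨δ, hδ0, hδ⟩ : ∃ δ : K, δ ≠ 0 ∧ ∀ u v, σ δ * b.f (B₀ u v) = δ * b.f (B₀ v u) := by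
    rcases hs with hs | hs
    · exact ⟨1, one_ne_zero, fun u v => by rw [map_one, hs]⟩
    · exact ⟨P.i, P.i.ne_zero, fun u v => by rw [hi, hs, map_neg, neg_mul_neg]⟩
  let H : V →ₛₗ[σ] V →ₗ[K] K := (δ • B) ∘ₛₗ κ
  have eH : ∀ u v, H u v = δ * B (κ u) v := fun _ _ => rfl
  have hκκ : ∀ v, κ (κ v) = v := b.induct (fun v => by rw [hκ, hκ])
    (fun u v hu hv => by rw [map_add, map_add, hu, hv])
    fun c v hv => by rw [map_smulₛₗ, map_smulₛₗ, hv, hσ]
  have hH : Herm H := by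
    refine herm_of_isSymm (fun e => P.i.ne_zero (eq_zero_of_eq_neg P.two (by simpa [e] using hi)))
      hσ ⟨fun u v => ?_⟩ fun u hu => ?_
    · refine b.induct (p := fun u => σ (H u v) = H v u) (fun u => ?_)
        (fun _ _ h h' => by simp [h, h']) (fun _ _ h => by simp [h, hσ]) u
      refine b.induct (p := fun v => σ (H (b.j u) v) = H v (b.j u)) (fun v => ?_)
        (fun _ _ h h' => by simp [h, h']) (fun _ _ h => by simp [h]) v
      simp only [eH, hκ, h.frm, map_mul, hf, hδ]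
    · rw [← hκκ u, h.form.sep_left h.ne (κ u) fun v => (mul_eq_zero.1 (hu v)).resolve_left hδ0,
        map_zero]
  have hg : ∀ g ∈ isomGroup B₀, b.ext g ∈ isomGroup H := fun g hg u v => by
    have : ∀ u, κ (b.ext g u) = b.ext g (κ u) := b.induct (fun v => by rw [b.ext_j, hκ, hκ, b.ext_j])
      (fun u v hu hv => by simp [hu, hv]) fun c v hv => by simp [hv]
    simp only [eH, this, mem_isomGroup.1 (b.isom h.frm hg)]
  have hρ : ∀ u, P.ρ u ∈ isomGroup H := fun u => by
    obtain ⟨x, hx, e⟩ := h.lift u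
    rw [e]
    refine mul_mem (Pauli.sc_mem_isomGroup ?_) (hg x (h.hR hx))
    split_ifs
    · simp
    · rw [hi, neg_mul, P.i_mul_i, neg_neg]
  intro M hM x y hy h1 a ha hd
  obtain ⟨m, hm, -⟩ := (P.res hy 0).exists_finrank
  have h2 := P.finrank_W1 hy
  have h3 := hH.restrict (Pauli.nondegOn_Ve hH hρ x 0)
  refine (PU.all hK (m := m) (by omega) _ _ (P.res hy 0) _ h3 (Pauli.res_ρ_mem_isomGroup hρ hy 0) hi
    hm _ (Pauli.resX_le_simG (scMul_le_simG (by
      rintro _ ⟨g, hg', rfl⟩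
      exact hg g (hM hg'))) x 0) h1).imp_right fun h T hT hc hT' => ?_
  exact Pauli.SUV_le_of_norm_of_mem (P := P.res hy 0) h3 (Pauli.res_ρ_mem_isomGroup hρ hy 0) hi
    ((P.res hy 0).pow_le_finrank (m := 2) (by omega))
    (fun k hk y hy => conj_mem_of_scMul (P.resX_scMul _ _ _ (h hk)) hy) ha hd
    (mem_SUV.2 ⟨fun u v => hg T hT u v, hT'⟩)

section Minus

variable {X : Subgroup (V ≃ₗ[K] V)}

theorem Pauli.QF.alt_zero (h : P.QF Q B X) (hA : ∀ v, B v v = 0) : finrank (ZMod 2) W ≠ 0 := fun e => by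
  obtain ⟨v, -, hv⟩ := finrank_eq_one_iff'.1 (P.finrank_eq (m := 0) e)
  refine h.ne (LinearMap.ext fun x => LinearMap.ext fun y => ?_)
  obtain ⟨c, rfl⟩ := hv x
  obtain ⟨d, rfl⟩ := hv y
  simp [hA]

theorem Pauli.QF.alt_two (h : P.QF Q B X) (hA : ∀ v, B v v = 0) (hW : finrank (ZMod 2) W = 2)
    {z : W} (hz : Q z = 0) : z = 0 := by
  by_contra h0
  obtain ⟨y, hy⟩ := P.exists_β_eq_one h0
  have := P.finrank_W1 hy
  exact (h.res hy hz 0).alt_zero (fun v => hA v) (by omega)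

theorem Pauli.QF.alt_four (h : P.QF Q B X) (hA : ∀ v, B v v = 0) (hW : finrank (ZMod 2) W = 4)
    {v w : W} (hv : Q v = 0) (hw : Q w = 0) (hvw : P.β v w = 0) : v = 0 ∨ w = 0 ∨ v = w := by
  by_contra! hc
  obtain ⟨y, hy, hy'⟩ := P.exists_β_two hc.1 hc.2.2
  rw [P.β_comm] at hy
  have := P.finrank_W1 hy
  exact hc.2.1 (congrArg Subtype.val ((h.res hy hv 0).alt_two (fun v => hA v) (by omega)
    (z := ⟨w, hvw, hy'⟩) hw))

theorem Pauli.QF.alt_six (h : P.QF Q B X) (hA : ∀ v, B v v = 0) (hW : finrank (ZMod 2) W = 6)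
    (z y : W) (hy : P.β z y = 1) (hz : Q z = 0) (v : W) (hv : v ∈ P.W1 z y) (w : W)
    (hw : w ∈ P.W1 z y) (hv0 : Q v = 0) (hw0 : Q w = 0) (hvw : P.β v w = 0) :
    v = 0 ∨ w = 0 ∨ v = w := by
  have := P.finrank_W1 hy
  simpa [Subtype.ext_iff] using (h.res hy hz 0).alt_four (fun v => hA v) (by omega) (v := ⟨v, hv⟩)
    (w := ⟨w, hw⟩) hv0 hw0 hvw

theorem Pauli.QF.exists_ovoid (h : P.QF Q B X) (hA : ∀ v, B v v = 0) (hW : finrank (ZMod 2) W = 4) :
    ∃ u, P.Ovoid Q u := by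
  obtain ⟨x, hx0, hx⟩ : ∃ x, x ≠ 0 ∧ Q x = 0 := by
    obtain ⟨a, ha⟩ := h.quad.exists_one (by omega)
    obtain ⟨c, hc, h0, h1, -⟩ := P.exists_perp_ne ![a] a 0 (by omega)
    rcases zmod2_cases (Q c) with e | e
    · exact ⟨c, h0, e⟩
    · exact ⟨a + c, fun e => h1 (add_eq_zero_iff'.1 e).symm, by
        rw [h.quad, ha, e, show P.β a c = 0 from hc 0]; rfl⟩
  obtain ⟨y, hy, hy0⟩ : ∃ y, P.β x y = 1 ∧ Q y = 0 := by
    obtain ⟨y, hy⟩ := P.exists_β_eq_one hx0
    rcases zmod2_cases (Q y) with e | e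
    · exact ⟨y, hy, e⟩
    · exact ⟨x + y, by rw [P.β_add_right, P.alt, hy, zero_add], by rw [h.quad, hx, e, hy]; rfl⟩
  obtain ⟨e, f, hb⟩ := P.exists_sBasis hW hy
  have key : ∀ e f, P.β x e = 0 → P.β y e = 0 → P.β e f = 1 → Q e = 1 := fun e f h1 h2 h3 =>
    zmod2_eq_one fun h4 => by
      rcases h.alt_four hA hW hx h4 h1 with h5 | h5 | h5
      · exact hx0 h5
      · simp [h5] at h3
      · rw [← h5, P.β_comm, hy] at h2
        exact one_ne_zero h2
  exact ⟨_, hb.ovoid h.quad hx hy0 (key e f hb.xe hb.ye hb.ef)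
    (key f e hb.xf hb.yf (by rw [P.β_comm, hb.ef]))⟩

end Minus

omit [Finite W] [FiniteDimensional K V] in
theorem Dsc.alt (h : Dsc b P Q B₀ B R G) (hA : ∀ v, B₀ v v = 0) (v : V) : B v v = 0 := by
  have h1 : ∀ u v, B₀ u v = -B₀ v u := fun u v => by
    have := hA (u + v)
    simp only [map_add, LinearMap.add_apply, hA] at this
    linear_combination this
  refine eq_zero_of_eq_neg P.two ((?_ : ∀ u v, B u v = -B v u) v v)
  intro u v
  refine b.induct (p := fun u => B u v = -B v u) (fun u => ?_)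
    (fun _ _ h h' => by simp [h, h', add_comm]) (fun _ _ h => by simp [h]) u
  refine b.induct (p := fun v => B (b.j u) v = -B v (b.j u)) (fun v => ?_)
    (fun _ _ h h' => by simp [h, h', add_comm]) (fun _ _ h => by simp [h]) v
  rw [h.frm, h.frm, h1, map_neg]

theorem Dsc.co_ext (h : Dsc b P Q B₀ B R G) (t : W) (g : V₀ ≃ₗ[F] V₀) :
    ∃ a, P.co t (b.ext g) = (if Q t = 0 then 1 else P.i : Kˣ) * b.f a := by
  obtain ⟨x, -, e⟩ := h.lift t
  obtain ⟨a, ha⟩ := b.tr (x * g)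
  refine ⟨(finrank K V : F)⁻¹ * a, ?_⟩
  rw [P.co_apply, e, coe_sc_mul, smul_mul_assoc, ← coe_mul', ← map_mul, map_smul, ha, map_mul,
    map_inv₀, map_natCast, smul_eq_mul, mul_left_comm]

theorem Dsc.le_or_four [Finite F] (h : Dsc b P Q B₀ B R G)
    (hF : ∀ A : AddSubgroup F, (1 : F) ∈ A → A = ⊤) (hW : finrank (ZMod 2) W = 4)
    (hA : ∀ v, B₀ v v = 0) (hN : Subgroup.normalizer (R : Set (V₀ ≃ₗ[F] V₀)) ⊓ G ≤ M) (hM : M ≤ G) :
    M ≤ Subgroup.normalizer (R : Set (V₀ ≃ₗ[F] V₀)) ∨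
      ∀ T ∈ isomGroup B₀, (∀ u v, B₀ (T u - u) (T v - v) = 0) → T ∈ M := by
  have := Fintype.ofFinite W
  obtain ⟨u, hu⟩ := (h.qf hM).exists_ovoid (h.alt hA) hW
  refine (hu.dichotomy (f := b.f) hF (h.h2 hN)).symm.imp (fun h1 => h.le_of_le_N hM ?_)
    fun h1 T hT hT' => ?_
  · intro g hg
    refine h1 g hg ?_
    obtain ⟨c, _, ⟨m, hm, rfl⟩, rfl⟩ := hg
    refine hu.cl.exists_act fun j => ?_
    obtain ⟨x, hx, e⟩ := h.lift (u j)
    rw [hu.zero, if_pos rfl, map_one, one_mul] at e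
    have hm' := b.isom h.frm (h.hG (hM hm))
    have e1 : b.ext (m * x * m⁻¹) = b.ext m * P.ρ (u j) * (b.ext m)⁻¹ := by
      rw [map_mul, map_mul, map_inv, e]
    have : ∀ t, ∃ w, P.co t (b.ext (m * x * m⁻¹)) • (P.ρ t : End K V) =
        clif b.f (fun j => P.ρ (u j)) w := fun t => by
      rcases zmod2_cases (Q t) with ht | ht
      · rcases hu.of_q_zero ht with rfl | ⟨k, rfl⟩
        · exact ⟨0, by
            rw [e1, coe_mul', coe_mul', P.co_conj (by simp [P.zero]),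
              P.co_of_ne (hu.ne_zero j).symm, zero_smul, map_zero]⟩
        · obtain ⟨a, ha⟩ := h.co_ext (u k) (m * x * m⁻¹)
          exact ⟨a • stdE F k, by rw [ha, if_pos ht, map_smulₛₗ, clif_stdE]; simp⟩
      · have := h.form.co_adj (h.form.sep_right h.ne) (f := b.ext (m * x * m⁻¹)) (ε := 1)
          (fun v w => by
            obtain ⟨v, rfl⟩ := (b.ext m).surjective v
            obtain ⟨w, rfl⟩ := (b.ext m).surjective w
            simp only [e1, LinearEquiv.coe_coe, LinearEquiv.mul_apply, inv_apply_apply,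
              mem_isomGroup.1 hm', h.form.left, hu.zero, sg_zero, Units.val_one]) t
        rw [ht] at this
        exact ⟨0, by rw [eq_zero_of_eq_neg P.two (a := P.co t _) (by simpa using this.symm),
          zero_smul, map_zero]⟩
    choose w hw using this
    refine ⟨∑ t, w t, ?_⟩
    simp only [map_sum, ← hw, P.sum_co]
    rw [e1, ← coe_mul', ← coe_mul', ← sc_comm, ← mul_assoc, inv_mul_cancel_right, mul_assoc,
      ← sc_comm, mul_assoc]
  · have hT1 := b.isom h.frm hT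
    have hT2 : ∀ v w, B (b.ext T v - v) (b.ext T w - w) = 0 := fun v w => by
      refine b.induct (p := fun v => B (b.ext T v - v) (b.ext T w - w) = 0) (fun v => ?_)
        (fun _ _ h h' => by rw [map_add, add_sub_add_comm, map_add, LinearMap.add_apply, h, h',
          add_zero]) (fun _ _ h => by rw [map_smul, ← smul_sub, map_smul, LinearMap.smul_apply, h,
          smul_zero]) v
      refine b.induct (p := fun w => B (b.ext T (b.j v) - b.j v) (b.ext T w - w) = 0) (fun w => ?_)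
        (fun _ _ h h' => by rw [map_add, add_sub_add_comm, map_add, h, h', add_zero])
        (fun _ _ h => by rw [map_smul, ← smul_sub, map_smul, h, smul_zero]) w
      rw [b.ext_j, b.ext_j, ← map_sub, ← map_sub, h.frm, hT', map_zero]
    have hT3 : ∀ v w, B (b.ext T v - v) w = -B v (b.ext T w - w) := fun v w => by
      have := hT2 v w
      simp only [map_sub, LinearMap.sub_apply, mem_isomGroup.1 hT1] at this ⊢
      linear_combination -this
    obtain ⟨c, _, ⟨m, hm, rfl⟩, e⟩ := hu.mem_of_sq h1 (n := (b.ext T : End K V) - 1)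
      (LinearMap.ext fun v => h.form.sep_left h.ne _ fun w => (hT3 _ w).trans (by
        exact neg_eq_zero.2 (hT2 v w)))
      (fun t ht => h.form.co_eq_zero h.ne hT3 ht) (fun t => by
        rcases zmod2_cases (Q t) with ht | ht
        · exact ⟨0, by rw [h.form.co_eq_zero h.ne hT3 ht, map_zero, mul_zero]⟩
        · obtain ⟨a, ha⟩ := h.co_ext t T
          exact ⟨a, by rw [map_sub, ha, P.co_one (h.quad.ne_zero ht), ht]; simp⟩)
      (g := b.ext T) (by simp)
    have := h.mem_of_eq_sc (mul_mem hT (inv_mem (h.hG (hM hm)))) (c := c)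
      (by rw [map_mul, map_inv, e, mul_inv_cancel_right])
    exact (M.mul_mem_cancel_right (inv_mem hm)).1 (hN ⟨Subgroup.le_normalizer this.1, this.2⟩)

end Abs

section Mat

open Cfsg.Geo Asch Matrix
open scoped MatrixGroups

variable {F K : Type u} [Field F] [Field K] {ι : Type} [Fintype ι] [DecidableEq ι]

/-- extension of scalars for coordinate spaces -/
noncomputable def bcFun (f : F →+* K) (ι : Type) [Fintype ι] [DecidableEq ι] :
    BC F (ι → F) K (ι → K) where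
  f := f
  j := { toFun := fun v => f ∘ v
         map_add' := fun u v => funext fun i => map_add f _ _
         map_smul' := fun c v => funext fun i => map_mul f _ _ }
  span v := by
    rw [pi_eq_sum_univ' v]
    refine Submodule.sum_mem _ fun i _ => Submodule.smul_mem _ _ (Submodule.subset_span
      ⟨Pi.single i 1, funext fun k => ?_⟩)
    by_cases h : k = i <;> simp [h]
  ext := (glLin ι K).toMonoidHom.comp ((GeneralLinearGroup.map f).comp (glLin ι F).symm.toMonoidHom)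
  ext_j g v := funext fun i => by
    change ((((glLin ι F).symm g : GL ι F) : Matrix ι ι F).map f *ᵥ (f ∘ v)) i = f (g v i)
    rw [← RingHom.map_mulVec, glLin_symm_mulVec]
  inj u v e := funext fun i => f.injective (congrFun e i)
  tr g := ⟨trace (((glLin ι F).symm g : GL ι F) : Matrix ι ι F), by
    rw [AddMonoidHom.map_trace, ← Matrix.trace_toLin'_eq]
    exact congrArg _ (glLin_toLinearMap _)⟩
  rank := by simp

theorem bcFun_exists_form (f : F →+* K) (B₀ : (ι → F) →ₗ[F] (ι → F) →ₗ[F] F) :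
    ∃ B : (ι → K) →ₗ[K] (ι → K) →ₗ[K] K,
      ∀ u v, B ((bcFun f ι).j u) ((bcFun f ι).j v) = f (B₀ u v) := by
  refine ⟨Matrix.toBilin' ((LinearMap.BilinForm.toMatrix' B₀).map f), fun u v => ?_⟩
  conv_rhs => rw [← Matrix.toBilin'_toMatrix' B₀]
  simp only [Matrix.toBilin'_apply, map_sum, map_mul]
  rfl

theorem bcFun_pData (f : F →+* K) {R : Subgroup (GL ι F)} (h : Cl2 2 R) {i : Kˣ} (hi : i * i = -1) :
    PData i ((R.map (glLin ι F).toMonoidHom).map (bcFun f ι).ext) where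
  i_sq := hi
  two := by rw [← map_ofNat f]; exact (map_ne_zero f).2 (Cl2.two_ne h)
  nontriv := have := h.nonempty; inferInstance
  comm := by
    rintro _ ⟨_, ⟨x, hx, rfl⟩, rfl⟩ _ ⟨_, ⟨y, hy, rfl⟩, rfl⟩
    obtain ⟨c, hc, e⟩ := h.comm x hx y hy
    obtain ⟨a, rfl⟩ := exists_sg_of_mul_self (c := c) (by rwa [← pow_two])
    exact ⟨a, by
      simpa [glLin_scalarGL, BC.ext_sg] using congrArg (fun g => (bcFun f ι).ext (glLin ι F g)) e⟩
  sq := by
    rintro _ ⟨_, ⟨x, hx, rfl⟩, rfl⟩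
    obtain ⟨a, e⟩ := Cl2.exists_sq h hx
    exact ⟨a, by
      simpa [glLin_scalarGL, BC.ext_sg] using congrArg (fun g => (bcFun f ι).ext (glLin ι F g)) e⟩
  span φ := by
    have key : ∀ N : Matrix ι ι F, Matrix.toLin' (N.map f) ∈ Submodule.span K
        ((fun g : (ι → K) ≃ₗ[K] (ι → K) => (g : (ι → K) →ₗ[K] (ι → K))) ''
          ((R.map (glLin ι F).toMonoidHom).map (bcFun f ι).ext : Set _)) := fun N => by
      have h1 : N ∈ Submodule.span F (matrixSet R) := by
        rw [← env_toSubmodule, h.env_top]; trivial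
      induction h1 using Submodule.span_induction with
      | mem x hx =>
        obtain ⟨x, hx, rfl⟩ := hx
        refine Submodule.subset_span ⟨_, ⟨_, ⟨x, hx, rfl⟩, rfl⟩, ?_⟩
        exact (glLin_toLinearMap _).trans (by simp)
      | zero => simp
      | add x y _ _ hx hy => rw [Matrix.map_add _ (map_add f), map_add]; exact add_mem hx hy
      | smul c x _ hx =>
        rw [Matrix.map_smul' _ _ _ (map_mul f), map_smul]; exact Submodule.smul_mem _ _ hx
    rw [← Matrix.toLin'_toMatrix' φ, matrix_eq_sum_single (LinearMap.toMatrix' φ)]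
    simp only [map_sum]
    refine Submodule.sum_mem _ fun i _ => Submodule.sum_mem _ fun k _ => ?_
    have := Submodule.smul_mem _ (LinearMap.toMatrix' φ i k) (key (single i k 1))
    rwa [Matrix.map_single, map_one, ← map_smul, smul_single, smul_eq_mul, mul_one] at this

theorem bcFun_exists_dsc [Finite F] [Finite K] (f : F →+* K) {R : Subgroup (GL ι F)} (h : Cl2 2 R)
    {i : Kˣ} (hi : i * i = -1) (h4 : 4 ≤ Fintype.card ι) {B₀ : (ι → F) →ₗ[F] (ι → F) →ₗ[F] F}
    (hB : B₀ ≠ 0) (hR : R.map (glLin ι F).toMonoidHom ≤ isomGroup B₀)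
    {G : Subgroup ((ι → F) ≃ₗ[F] (ι → F))} (hG : G ≤ isomGroup B₀)
    (hs : G = isomGroup B₀ ∨ 5 ≤ Fintype.card ι ∧ ∀ g ∈ isomGroup B₀, g * g ∈ G) :
    ∃ (W : Type u) (_ : AddCommGroup W) (_ : Module (ZMod 2) W) (_ : Finite W)
      (P : Pauli K (ι → K) W) (Q : W → ZMod 2) (B : (ι → K) →ₗ[K] (ι → K) →ₗ[K] K), P.i = i ∧
      Dsc (bcFun f ι) P Q B₀ B (R.map (glLin ι F).toMonoidHom) G := by
  have := eg_finite_linearEquiv (K := K) (V := ι → K)
  obtain ⟨W, _, _, _, P, hP, hO⟩ := (bcFun_pData f h hi).exists_pauli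
  obtain ⟨B, hB'⟩ := bcFun_exists_form f B₀
  obtain ⟨Q, hQ⟩ := (bcFun f ι).exists_isForm hB' hR hO
  obtain ⟨m, hm, hm'⟩ := P.exists_finrank
  rw [finrank_fintype_fun_eq_card] at hm'
  refine ⟨W, inferInstance, inferInstance, inferInstance, P, Q, B, hP, hB', fun e => hB ?_, hO, hQ,
    hR, hG, ?_, hs.imp_right fun e => ⟨?_, e.2⟩⟩
  · exact LinearMap.ext fun u => LinearMap.ext fun v => f.injective (by simpa [e] using (hB' u v).symm)
  · have := (Nat.pow_le_pow_iff_right one_lt_two).1 (show 2 ^ 2 ≤ 2 ^ m by omega)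
    omega
  · have := (Nat.pow_lt_pow_iff_right one_lt_two).1 (show 2 ^ 2 < 2 ^ m by omega)
    omega

theorem exists_dsc [Fintype F] {p : ℕ} (hp : p.Prime) (hF : Fintype.card F = p)
    {R : Subgroup (GL ι F)} (h : Cl2 2 R) (h4 : 4 ≤ Fintype.card ι)
    {B₀ : (ι → F) →ₗ[F] (ι → F) →ₗ[F] F} (hB : B₀ ≠ 0)
    (hsym : (∀ u v, B₀ u v = B₀ v u) ∨ ∀ u v, B₀ u v = -B₀ v u)
    (hR : R.map (glLin ι F).toMonoidHom ≤ isomGroup B₀)
    {G : Subgroup ((ι → F) ≃ₗ[F] (ι → F))} (hG : G ≤ isomGroup B₀)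
    (hs : G = isomGroup B₀ ∨ 5 ≤ Fintype.card ι ∧ ∀ g ∈ isomGroup B₀, g * g ∈ G) :
    ∃ (K : Type u) (_ : Field K) (_ : Finite K) (b : BC F (ι → F) K (ι → K))
      (W : Type u) (_ : AddCommGroup W) (_ : Module (ZMod 2) W) (_ : Finite W)
      (P : Pauli K (ι → K) W) (Q : W → ZMod 2) (B : (ι → K) →ₗ[K] (ι → K) →ₗ[K] K),
      Dsc b P Q B₀ B (R.map (glLin ι F).toMonoidHom) G ∧ (6 ≤ finrank (ZMod 2) W → Tw b P B₀) := by
  have hK := addSubgroup_eq_top_of_card_prime hp hF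
  by_cases hi : ∃ i : F, i * i = -1
  · obtain ⟨i, hi⟩ := hi
    obtain ⟨W, _, _, _, P, Q, B, -, hD⟩ := bcFun_exists_dsc (RingHom.id F) h
      (i := Units.mk0 i (by rintro rfl; simp at hi)) (Units.ext (by simpa using hi)) h4 hB hR hG hs
    exact ⟨F, inferInstance, inferInstance, _, W, inferInstance, inferInstance, inferInstance, P, Q,
      B, hD, tw_L hK⟩
  have : Fact (∀ r : F, r ^ 2 ≠ -1 + 0 * r) := ⟨fun r e => hi ⟨r, by simpa [pow_two] using e⟩⟩
  have : Finite (QuadraticAlgebra F (-1) 0) := Finite.of_equiv _ (QuadraticAlgebra.equivProd _ _).symm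
  have hω : (QuadraticAlgebra.omega : QuadraticAlgebra F (-1) 0) * QuadraticAlgebra.omega = -1 := by
    ext <;> simp [QuadraticAlgebra.re_one, QuadraticAlgebra.im_one]
  obtain ⟨W, _, _, _, P, Q, B, hP, hD⟩ := bcFun_exists_dsc
    (algebraMap F (QuadraticAlgebra F (-1) 0)) h (i := Units.mk0 _ (left_ne_zero_of_mul
      (hω ▸ neg_ne_zero.2 one_ne_zero))) (Units.ext hω) h4 hB hR hG hs
  refine ⟨QuadraticAlgebra F (-1) 0, inferInstance, inferInstance, _, W, inferInstance,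
    inferInstance, inferInstance, P, Q, B, hD, hD.tw_U (σ := starRingEnd _) (fun A h1 a ha => ?_)
    star_star (by rw [hP]; ext <;> simp [starRingEnd_apply])
    (fun a => by ext <;> simp [bcFun, starRingEnd_apply])
    { toFun := fun v => star ∘ v
      map_add' := fun u v => funext fun i => star_add _ _
      map_smul' := fun c v => funext fun i => star_mul' _ _ }
    (fun v => funext fun i => by
      change star (algebraMap F _ (v i)) = algebraMap F _ (v i)
      ext <;> simp) hsym⟩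
  have h2 : a.im = 0 := eq_zero_of_eq_neg (Cl2.two_ne h) (by
    simpa [starRingEnd_apply] using (congrArg QuadraticAlgebra.im ha).symm)
  have h3 := (hK (A.comap (algebraMap F (QuadraticAlgebra F (-1) 0)).toAddMonoidHom)
    (by simpa using h1)).ge (AddSubgroup.mem_top a.re)
  rwa [show a = algebraMap F _ a.re by ext <;> simp [h2]]

end Mat

end Cfsg.Lib.Class.C6
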